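import Mathlib
import Cfsg.Prelude.Def_OddOrderLocal
import Cfsg.Agent.S1450
import Cfsg.Agent.H31.BG8a
import Cfsg.Agent.H28.Basic
import Cfsg.Agent.Helper55.SylIn
import Cfsg.Agent.H37.AG
import Cfsg.Agent.H14.Cores

/-!
# S1404, piece RK2: in `p`-rank at most `2`, the Sylow `p`-subgroups of `N_G(X)` are conjugate
under `C_G(X)`
-/

set_option autoImplicit false

namespace Cfsg.Agent.H14.BG10

open Cfsg Subgroup

universe u

variable {G : Type u} [Group G]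

/-- A `p`-subgroup lies in every normal subgroup of index prime to `p`. -/
theorem le_of_index_coprime {Y : Type*} [Group Y] [Finite Y] {p : ℕ} [Fact p.Prime]
    (K S : Subgroup Y) [K.Normal] (hS : IsPGroup p S) (hK : (K.index).Coprime p) : S ≤ K := by
  rw [← Subgroup.relIndex_eq_one]
  have h1 : K.relIndex S ∣ K.index := Subgroup.relIndex_dvd_index_of_normal K S
  have h2 : K.relIndex S ∣ Nat.card S := by
    unfold Subgroup.relIndex
    exact Subgroup.index_dvd_card _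
  obtain ⟨n, hn⟩ := IsPGroup.iff_card.mp hS
  rw [hn] at h2
  have h3 : (K.relIndex S).Coprime (K.relIndex S) :=
    Nat.Coprime.coprime_dvd_left h1 (Nat.Coprime.coprime_dvd_right h2 (Nat.Coprime.pow_right n hK))
  exact (Nat.coprime_self _).mp h3

theorem rk2_conj [Finite G] (hG : IsMinSimpleOddOrder G) (p : ℕ) [Fact p.Prime]
    (hr : PRankLE p 2 G) (X : Subgroup G) (hXp : IsPGroup p X) (hX1 : X ≠ ⊥)
    (R₁ R₂ : Subgroup G) (hR₁ : IsPGroup p R₁) (hR₂ : IsPGroup p R₂)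
    (h1 : R₁ ≤ normalizer (X : Set G)) (h2 : R₂ ≤ normalizer (X : Set G))
    (hm1 : ∀ Q : Subgroup G, IsPGroup p Q → Q ≤ normalizer (X : Set G) → R₁ ≤ Q → Q = R₁)
    (hm2 : ∀ Q : Subgroup G, IsPGroup p Q → Q ≤ normalizer (X : Set G) → R₂ ≤ Q → Q = R₂) :
    ∃ t ∈ centralizer (X : Set G), R₂ = R₁.map (MulAut.conj t).toMonoidHom := by
  have hpp : p.Prime := Fact.out
  obtain ⟨N, hN⟩ : ∃ N : Subgroup G, N = normalizer (X : Set G) := ⟨_, rfl⟩
  rw [← hN] at h1 h2 hm1 hm2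
  have hXtop : X ≠ ⊤ := Cfsg.Agent.H31.BG8.not_isPGroup_top hG hXp
  have hNtop : N ≠ ⊤ := by
    rw [hN]
    exact Cfsg.Agent.Lib.Helper30.minSimple_normalizer_ne_top hG hX1 hXtop
  haveI hsolv : Group.IsSolvable ↥N := hG.2.2.2 N hNtop
  have hodd : Odd (Nat.card ↥N) := by
    obtain ⟨k, hk⟩ := Subgroup.card_subgroup_dvd_card N
    have h := hG.1
    rw [hk] at h
    exact (Nat.odd_mul.mp h).1
  have hXN : X ≤ N := by rw [hN]; exact Subgroup.le_normalizer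
  obtain ⟨n, hn⟩ := IsPGroup.iff_card.mp hXp
  have hpN : p ∣ Nat.card ↥N := by
    have hn0 : n ≠ 0 := by
      rintro rfl
      rw [pow_zero] at hn
      exact hX1 (Subgroup.card_eq_one.mp hn)
    have h : p ∣ Nat.card X := by rw [hn]; exact dvd_pow_self p hn0
    exact h.trans (Subgroup.card_dvd_of_le hXN)
  have hrN : PRankLE p 2 ↥N := Cfsg.Agent.H28.pRankLE_subgroup hr N
  have hS := Cfsg.Agent.S1450.result hodd p hpN hrN
  have hidx : ((pPrimePCore p ↥N).index).Coprime p := hS.2.2.2.2.2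
  haveI := Cfsg.Agent.H14.pPrimePCore_normal p ↥N
  haveI := Cfsg.Agent.H14.pPrimeCore_normal p ↥N
  -- `R₁`, `R₂` are Sylow `p`-subgroups of `N`
  have hsyl : ∀ R : Subgroup G, IsPGroup p R → R ≤ N →
      (∀ Q : Subgroup G, IsPGroup p Q → Q ≤ N → R ≤ Q → Q = R) →
      Cfsg.Agent.Helper55.IsSylIn p N R := by
    intro R hR hRN hm
    obtain ⟨E, hE, hRE⟩ := Cfsg.Agent.Helper55.exists_isSylIn_ge hRN hR
    have h := hm E hE.isPGroup hE.1 hRE
    rw [← h]
    exact hE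
  have hs1 := hsyl R₁ hR₁ h1 hm1
  have hs2 := hsyl R₂ hR₂ h2 hm2
  -- the image of `O_{p',p}(N)` in `G`
  obtain ⟨K, hK⟩ : ∃ K : Subgroup G, K = (pPrimePCore p ↥N).map N.subtype := ⟨_, rfl⟩
  have hKN : K ≤ N := by rw [hK]; exact Subgroup.map_subtype_le _
  have hRK : ∀ R : Subgroup G, IsPGroup p R → R ≤ N → R ≤ K := by
    intro R hR hRN
    have h := le_of_index_coprime (pPrimePCore p ↥N) (R.subgroupOf N) hR.comap_subtype hidx
    intro r hr
    rw [hK]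
    exact ⟨⟨r, hRN hr⟩, h (Subgroup.mem_subgroupOf.mpr hr), rfl⟩
  have hk1 := hs1.of_le (hRK R₁ hR₁ h1) hKN
  have hk2 := hs2.of_le (hRK R₂ hR₂ h2) hKN
  obtain ⟨k, hkK, hk⟩ := hk1.exists_conj hk2
  obtain ⟨S, hS1, -⟩ := hs1.exists_sylow
  rw [hK] at hkK
  obtain ⟨k', hk', rfl⟩ := hkK
  have hk'' := Cfsg.Agent.H37.AG.pPrimePCore_le_sup S hk'
  rw [← SetLike.mem_coe, Subgroup.normal_mul] at hk''
  obtain ⟨o, ho, s, hs, rfl⟩ := hk''
  have hsR : (s : G) ∈ R₁ := by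
    have h := (Subgroup.mem_inf.mp hs).1
    have h' : s ∈ (S : Subgroup ↥N) := h
    rw [hS1, Subgroup.mem_subgroupOf] at h'
    exact h'
  refine ⟨(o : G), ?_, ?_⟩
  · -- `O_{p'}(N)` centralizes `X`
    have hcop : (Nat.card ↥(pPrimeCore p ↥N)).Coprime (Nat.card ↥(X.subgroupOf N)) := by
      rw [Nat.card_congr (Subgroup.subgroupOfEquivOfLe hXN).toEquiv, hn]
      exact Nat.Coprime.pow_right n (Cfsg.Agent.H14.pPrimeCore_coprime p ↥N)
    have hinf : pPrimeCore p ↥N ⊓ X.subgroupOf N = ⊥ := Subgroup.inf_eq_bot_of_coprime hcop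
    rw [Subgroup.mem_centralizer_iff]
    intro x hx
    have hoN : (o : G) ∈ normalizer (X : Set G) := by rw [← hN]; exact o.2
    have hc : o * ⟨x, hXN hx⟩ * o⁻¹ * (⟨x, hXN hx⟩ : ↥N)⁻¹ ∈
        pPrimeCore p ↥N ⊓ X.subgroupOf N := by
      refine Subgroup.mem_inf.mpr ⟨?_, ?_⟩
      · have h3 : (⟨x, hXN hx⟩ : ↥N) * o⁻¹ * (⟨x, hXN hx⟩ : ↥N)⁻¹ ∈ pPrimeCore p ↥N :=
          Subgroup.Normal.conj_mem inferInstance _ (inv_mem ho) _
        have h4 := mul_mem ho h3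
        have e : o * ((⟨x, hXN hx⟩ : ↥N) * o⁻¹ * (⟨x, hXN hx⟩ : ↥N)⁻¹) =
            o * ⟨x, hXN hx⟩ * o⁻¹ * (⟨x, hXN hx⟩ : ↥N)⁻¹ := by group
        rw [← e]
        exact h4
      · rw [Subgroup.mem_subgroupOf]
        have h3 : (o : G) * x * (o : G)⁻¹ ∈ X := (Subgroup.mem_normalizer_iff.mp hoN x).mp hx
        have h4 := X.mul_mem h3 (X.inv_mem hx)
        simpa using h4
    rw [hinf, Subgroup.mem_bot] at hc
    have hc' := congrArg (Subtype.val : ↥N → G) hc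
    simp only [Subgroup.coe_mul, Subgroup.coe_inv, Subgroup.coe_one] at hc'
    -- `o x o⁻¹ x⁻¹ = 1`
    have h5 : (o : G) * x = x * (o : G) := by
      have h6 : (o : G) * x * (o : G)⁻¹ * x⁻¹ * (x * (o : G)) = 1 * (x * (o : G)) := by rw [hc']
      rw [one_mul] at h6
      rw [← h6]
      group
    exact h5.symm
  · rw [hk]
    have e : (MulAut.conj ((N.subtype (o * s)) : G)).toMonoidHom =
        (MulAut.conj (o : G)).toMonoidHom.comp (MulAut.conj (s : G)).toMonoidHom := by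
      ext z
      simp [MulAut.conj_apply, mul_assoc]
    rw [e, ← Subgroup.map_map, Cfsg.Agent.Helper55.map_conj_of_mem hsR]

end Cfsg.Agent.H14.BG10
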