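import Cfsg.Agent.H14.GReplace
import Cfsg.Agent.H14.Replacement

set_option autoImplicit false
open Cfsg
open scoped commutatorElement Pointwise

namespace Cfsg.Agent.H14

section Uni

variable {L : Type*} [Group L]

theorem conj_mem_of_mem_normalizer {H : Subgroup L} {x h : L}
    (hx : x ∈ Subgroup.normalizer (H : Set L)) (hh : h ∈ H) : x * h * x⁻¹ ∈ H :=
  (Subgroup.mem_normalizer_iff.mp hx h).mp hh

theorem le_normalizer_commutator [Finite L] {X A B : Subgroup L}
    (hA : X ≤ Subgroup.normalizer (A : Set L)) (hB : X ≤ Subgroup.normalizer (B : Set L)) :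
    X ≤ Subgroup.normalizer ((⁅A, B⁆ : Subgroup L) : Set L) := by
  intro x hx
  apply mem_normalizer_of_conj_mem
  have h : ⁅A, B⁆ ≤ (⁅A, B⁆).comap (MulAut.conj x).toMonoidHom := by
    rw [Subgroup.commutator_le]
    intro a ha b hb
    rw [Subgroup.mem_comap]
    have h1 : (MulAut.conj x).toMonoidHom ⁅a, b⁆ = ⁅x * a * x⁻¹, x * b * x⁻¹⁆ := by
      rw [← conjugate_commutatorElement]; rfl
    rw [h1]
    exact Subgroup.commutator_mem_commutator (conj_mem_of_mem_normalizer (hA hx) ha)
      (conj_mem_of_mem_normalizer (hB hx) hb)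
  intro c hc
  exact h hc

theorem le_normalizer_inf {X A B : Subgroup L}
    (hA : X ≤ Subgroup.normalizer (A : Set L)) (hB : X ≤ Subgroup.normalizer (B : Set L)) :
    X ≤ Subgroup.normalizer ((A ⊓ B : Subgroup L) : Set L) := by
  intro x hx
  rw [Subgroup.mem_normalizer_iff]
  intro h
  rw [Subgroup.mem_inf, Subgroup.mem_inf, ← Subgroup.mem_normalizer_iff.mp (hA hx) h,
    ← Subgroup.mem_normalizer_iff.mp (hB hx) h]

theorem le_normalizer_iter [Finite L] {X N G : Subgroup L}
    (hN : X ≤ Subgroup.normalizer (N : Set L)) (hG : X ≤ Subgroup.normalizer (G : Set L)) (i : ℕ) :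
    X ≤ Subgroup.normalizer ((Cfsg.iterCommutator N G i : Subgroup L) : Set L) := by
  induction i with
  | zero => exact hN
  | succ i ih => exact le_normalizer_commutator ih hG

theorem iter_succ_le [Finite L] {N G : Subgroup L}
    (hGN : G ≤ Subgroup.normalizer (N : Set L)) (i : ℕ) :
    Cfsg.iterCommutator N G (i + 1) ≤ Cfsg.iterCommutator N G i :=
  Subgroup.le_normalizer_iff_commutator_le_left.mp
    (le_normalizer_iter hGN Subgroup.le_normalizer i)

theorem iter_antitone [Finite L] {N G : Subgroup L}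
    (hGN : G ≤ Subgroup.normalizer (N : Set L)) :
    Antitone (Cfsg.iterCommutator N G) :=
  antitone_nat_of_succ_le (iter_succ_le hGN)

theorem iter_le [Finite L] {N G : Subgroup L}
    (hGN : G ≤ Subgroup.normalizer (N : Set L)) (i : ℕ) :
    Cfsg.iterCommutator N G i ≤ N :=
  iter_antitone hGN (Nat.zero_le i)

theorem iter_mono_right {N G K : Subgroup L} (hGK : G ≤ K) (i : ℕ) :
    Cfsg.iterCommutator N G i ≤ Cfsg.iterCommutator N K i := by
  induction i with
  | zero => exact le_rfl
  | succ i ih => exact Subgroup.commutator_mono ih hGK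

theorem commutator_lt_of_pGroup [Finite L] {p : ℕ} [Fact p.Prime] {H G : Subgroup L}
    (hH : IsPGroup p H) (hG : IsPGroup p G) (hGH : G ≤ Subgroup.normalizer (H : Set L))
    (hne : H ≠ ⊥) : ⁅H, G⁆ < H := by
  have hle : ⁅H, G⁆ ≤ H := Subgroup.le_normalizer_iff_commutator_le_left.mp hGH
  refine lt_of_le_of_ne hle fun heq => hne ?_
  have hP : IsPGroup p ↥(H ⊔ G) := IsPGroup.to_sup_of_normal_left' hH hG hGH
  exact eq_bot_of_le_commutator_of_isNilpotent (H ⊔ G) H hP.isNilpotent le_sup_left
    (heq.symm.le.trans (Subgroup.commutator_mono le_rfl le_sup_right))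

end Uni

section Main

variable {L : Type*} [Group L] [Finite L] {p : ℕ} [Fact p.Prime]

omit [Finite L] in
theorem relIndex_mul_card' {H K : Subgroup L} (h : H ≤ K) :
    H.relIndex K * Nat.card H = Nat.card K := by
  rw [← Subgroup.relIndex_bot_left, ← Subgroup.relIndex_bot_left, mul_comm]
  exact Subgroup.relIndex_mul_relIndex ⊥ H K bot_le h

theorem card_lt_of_lt' {H K : Subgroup L} (h : H < K) : Nat.card H < Nat.card K := by
  by_contra hcon
  exact h.ne (Subgroup.eq_of_le_of_card_ge h.le (not_lt.mp hcon))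

theorem card_iter_sup_le {N G : Subgroup L} (hN : IsPGroup p N) (hG : IsPGroup p G)
    (hGN : G ≤ Subgroup.normalizer (N : Set L)) {n : ℕ} (hn : Nat.card N = p ^ n) :
    ∀ i, i ≤ n → Nat.card (Cfsg.iterCommutator N (N ⊔ G) i) ≤ p ^ (n - i) := by
  have hp := (Fact.out : p.Prime)
  have hK : IsPGroup p ↥(N ⊔ G) := IsPGroup.to_sup_of_normal_left' hN hG hGN
  have hKN : N ⊔ G ≤ Subgroup.normalizer (N : Set L) := sup_le Subgroup.le_normalizer hGN
  intro i
  induction i with
  | zero => intro _; rw [Nat.sub_zero, ← hn]; rfl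
  | succ i ih =>
    intro hi
    have ih' := ih (by omega)
    by_cases hb : Cfsg.iterCommutator N (N ⊔ G) i = ⊥
    · have h1 : Cfsg.iterCommutator N (N ⊔ G) (i + 1) = ⊥ := by
        rw [eq_bot_iff, ← hb]; exact iter_succ_le hKN i
      rw [h1, Subgroup.card_bot]; exact Nat.one_le_pow _ _ hp.pos
    · have hMi : IsPGroup p (Cfsg.iterCommutator N (N ⊔ G) i) := hN.to_le (iter_le hKN i)
      have hlt : Cfsg.iterCommutator N (N ⊔ G) (i + 1) < Cfsg.iterCommutator N (N ⊔ G) i :=
        commutator_lt_of_pGroup hMi hK (le_normalizer_iter hKN Subgroup.le_normalizer i) hb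
      obtain ⟨a, ha⟩ := IsPGroup.iff_card.mp (hN.to_le (iter_le hKN (i + 1)))
      have hcardlt := card_lt_of_lt' hlt
      rw [ha] at hcardlt ⊢
      have h2 : p ^ a < p ^ (n - i) := lt_of_lt_of_le hcardlt ih'
      have h3 : a < n - i := (Nat.pow_lt_pow_iff_right hp.one_lt).mp h2
      exact Nat.pow_le_pow_right hp.pos (by omega)

theorem cc_of_uniserial {N G : Subgroup L}
    (hGN : G ≤ Subgroup.normalizer (N : Set L)) {n : ℕ} (hn : Nat.card N = p ^ n)
    (hU : ∀ H : Subgroup L, H ≤ N → G ≤ Subgroup.normalizer (H : Set L) → H ≠ ⊥ →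
      (⁅H, G⁆).relIndex H = p) :
    ∀ i, i ≤ n → Nat.card (Cfsg.iterCommutator N G i) = p ^ (n - i) := by
  have hp := (Fact.out : p.Prime)
  intro i
  induction i with
  | zero => intro _; rw [Nat.sub_zero, ← hn]; rfl
  | succ i ih =>
    intro hi
    have ih' := ih (by omega)
    have hne : Cfsg.iterCommutator N G i ≠ ⊥ := by
      intro hb
      rw [hb, Subgroup.card_bot] at ih'
      have h1 : 1 < p ^ (n - i) := Nat.one_lt_pow (by omega) hp.one_lt
      omega
    have h1 := hU _ (iter_le hGN i) (le_normalizer_iter hGN Subgroup.le_normalizer i) hne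
    have h2 : (Cfsg.iterCommutator N G (i + 1)).relIndex (Cfsg.iterCommutator N G i) *
        Nat.card (Cfsg.iterCommutator N G (i + 1)) = Nat.card (Cfsg.iterCommutator N G i) :=
      relIndex_mul_card' (iter_succ_le hGN i)
    have h3 : ⁅Cfsg.iterCommutator N G i, G⁆ = Cfsg.iterCommutator N G (i + 1) := rfl
    rw [h3] at h1
    rw [h1, ih'] at h2
    have h4 : n - i = (n - (i + 1)) + 1 := by omega
    rw [h4, pow_succ, mul_comm] at h2
    exact Nat.eq_of_mul_eq_mul_right hp.pos h2

theorem cc_of_last {N G : Subgroup L} (hN : IsPGroup p N) (hG : IsPGroup p G)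
    (hGN : G ≤ Subgroup.normalizer (N : Set L)) {n : ℕ} (hn : Nat.card N = p ^ n)
    (hlast : Cfsg.iterCommutator N G (n - 1) ≠ ⊥ ∨ n = 0) :
    ∀ i, i ≤ n → Nat.card (Cfsg.iterCommutator N G i) = p ^ (n - i) := by
  have hp := (Fact.out : p.Prime)
  have hupper : ∀ i, i ≤ n → Nat.card (Cfsg.iterCommutator N G i) ≤ p ^ (n - i) := fun i hi =>
    (Subgroup.card_le_of_le (iter_mono_right le_sup_right i)).trans
      (card_iter_sup_le hN hG hGN hn i hi)
  rcases hlast with hlast | h0
  · have hlower : ∀ k, k + 1 ≤ n →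
        p ^ (k + 1) ≤ Nat.card (Cfsg.iterCommutator N G (n - 1 - k)) := by
      intro k
      induction k with
      | zero =>
        intro _
        obtain ⟨a, ha⟩ := IsPGroup.iff_card.mp (hN.to_le (iter_le hGN (n - 1)))
        rw [Nat.sub_zero, ha]
        apply Nat.pow_le_pow_right hp.pos
        by_contra hcon
        have h0 : a = 0 := by omega
        rw [h0, pow_zero] at ha
        exact hlast (Subgroup.card_eq_one.mp ha)
      | succ k ih =>
        intro hk
        have ih' := ih (by omega)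
        have hne : Cfsg.iterCommutator N G (n - 1 - (k + 1)) ≠ ⊥ := by
          intro hb
          have h1 : Cfsg.iterCommutator N G (n - 1 - k) ≤
              Cfsg.iterCommutator N G (n - 1 - (k + 1)) := iter_antitone hGN (by omega)
          rw [hb, le_bot_iff] at h1
          rw [h1, Subgroup.card_bot] at ih'
          have h2 : 1 < p ^ (k + 1) := Nat.one_lt_pow (by omega) hp.one_lt
          omega
        have hidx : n - 1 - k = (n - 1 - (k + 1)) + 1 := by omega
        have hlt : Cfsg.iterCommutator N G (n - 1 - k) <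
            Cfsg.iterCommutator N G (n - 1 - (k + 1)) := by
          rw [hidx]
          exact commutator_lt_of_pGroup (hN.to_le (iter_le hGN _)) hG
            (le_normalizer_iter hGN Subgroup.le_normalizer _) hne
        obtain ⟨a, ha⟩ := IsPGroup.iff_card.mp (hN.to_le (iter_le hGN (n - 1 - (k + 1))))
        have hcl := card_lt_of_lt' hlt
        rw [ha] at hcl ⊢
        have h2 : p ^ (k + 1) < p ^ a := lt_of_le_of_lt ih' hcl
        have h3 : k + 1 < a := (Nat.pow_lt_pow_iff_right hp.one_lt).mp h2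
        exact Nat.pow_le_pow_right hp.pos (by omega)
    intro i hi
    rcases Nat.lt_or_ge i n with hlt | hge
    · have h1 := hlower (n - 1 - i) (by omega)
      have e1 : n - 1 - (n - 1 - i) = i := by omega
      have e2 : n - 1 - i + 1 = n - i := by omega
      rw [e1, e2] at h1
      exact le_antisymm (hupper i hi) h1
    · have hin : i = n := by omega
      subst hin
      have h1 := hupper i hi
      rw [Nat.sub_self, pow_zero] at h1 ⊢
      have h2 : 0 < Nat.card (Cfsg.iterCommutator N G i) := Nat.card_pos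
      omega
  · subst h0
    intro i hi
    have hi0 : i = 0 := by omega
    subst hi0
    rw [← hn]; rfl

theorem iter_eq_iter_sup {N G : Subgroup L} (hN : IsPGroup p N) (hG : IsPGroup p G)
    (hGN : G ≤ Subgroup.normalizer (N : Set L)) {n : ℕ} (hn : Nat.card N = p ^ n)
    (hCC : ∀ i, i ≤ n → Nat.card (Cfsg.iterCommutator N G i) = p ^ (n - i)) (i : ℕ)
    (hi : i ≤ n) :
    Cfsg.iterCommutator N G i = Cfsg.iterCommutator N (N ⊔ G) i :=
  Subgroup.eq_of_le_of_card_ge (iter_mono_right le_sup_right i)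
    ((card_iter_sup_le hN hG hGN hn i hi).trans (hCC i hi).ge)

omit [Fact p.Prime] in
theorem iter_eq_bot_of_cc {N G : Subgroup L}
    (hGN : G ≤ Subgroup.normalizer (N : Set L)) {n : ℕ}
    (hCC : ∀ i, i ≤ n → Nat.card (Cfsg.iterCommutator N G i) = p ^ (n - i)) (i : ℕ)
    (hi : n ≤ i) : Cfsg.iterCommutator N G i = ⊥ := by
  have h1 : Cfsg.iterCommutator N G n = ⊥ := by
    apply Subgroup.card_eq_one.mp
    rw [hCC n le_rfl, Nat.sub_self, pow_zero]
  rw [eq_bot_iff, ← h1]
  exact iter_antitone hGN hi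

theorem le_normalizer_iter_of_cc {N G : Subgroup L} (hN : IsPGroup p N) (hG : IsPGroup p G)
    (hGN : G ≤ Subgroup.normalizer (N : Set L)) {n : ℕ} (hn : Nat.card N = p ^ n)
    (hCC : ∀ i, i ≤ n → Nat.card (Cfsg.iterCommutator N G i) = p ^ (n - i)) (i : ℕ) :
    N ≤ Subgroup.normalizer ((Cfsg.iterCommutator N G i : Subgroup L) : Set L) := by
  rcases Nat.lt_or_ge i n with h | h
  · rw [iter_eq_iter_sup hN hG hGN hn hCC i h.le]
    exact le_sup_left.trans
      (le_normalizer_iter (sup_le Subgroup.le_normalizer hGN) Subgroup.le_normalizer i)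
  · rw [iter_eq_bot_of_cc hGN hCC i h]
    intro x _
    rw [Subgroup.mem_normalizer_iff]
    intro h
    simp

theorem iter_le_of_not_le {N G : Subgroup L} (hN : IsPGroup p N) (hG : IsPGroup p G)
    (hGN : G ≤ Subgroup.normalizer (N : Set L)) {n : ℕ} (hn : Nat.card N = p ^ n)
    (hCC : ∀ i, i ≤ n → Nat.card (Cfsg.iterCommutator N G i) = p ^ (n - i)) :
    ∀ k j, j + k = n → ∀ H : Subgroup L, H ≤ Cfsg.iterCommutator N G j →
      G ≤ Subgroup.normalizer (H : Set L) → ¬ H ≤ Cfsg.iterCommutator N G (j + 1) →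
      Cfsg.iterCommutator N G j ≤ H := by
  have hp := (Fact.out : p.Prime)
  intro k
  induction k with
  | zero =>
    intro j hj H hH _ hnot
    exfalso; apply hnot
    have h1 : Cfsg.iterCommutator N G j = ⊥ := iter_eq_bot_of_cc hGN hCC j (by omega)
    rw [h1, le_bot_iff] at hH
    rw [hH]; exact bot_le
  | succ k ih =>
    intro j hj H hH hGH hnot
    have hsup : H ⊔ Cfsg.iterCommutator N G (j + 1) = Cfsg.iterCommutator N G j := by
      have hle : H ⊔ Cfsg.iterCommutator N G (j + 1) ≤ Cfsg.iterCommutator N G j :=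
        sup_le hH (iter_succ_le hGN j)
      apply Subgroup.eq_of_le_of_card_ge hle
      obtain ⟨a, ha⟩ := IsPGroup.iff_card.mp (hN.to_le (hle.trans (iter_le hGN j)))
      have hlt : Cfsg.iterCommutator N G (j + 1) < H ⊔ Cfsg.iterCommutator N G (j + 1) := by
        refine lt_of_le_of_ne le_sup_right fun heq => hnot ?_
        rw [heq]; exact le_sup_left
      have hcl := card_lt_of_lt' hlt
      rw [ha, hCC (j + 1) (by omega)] at hcl
      rw [ha, hCC j (by omega)]
      have h3 : n - (j + 1) < a := (Nat.pow_lt_pow_iff_right hp.one_lt).mp hcl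
      exact Nat.pow_le_pow_right hp.pos (by omega)
    by_cases hb : Cfsg.iterCommutator N G (j + 1) = ⊥
    · rw [hb, sup_bot_eq] at hsup
      exact hsup.ge
    · have hlt2 : Cfsg.iterCommutator N G (j + 2) < Cfsg.iterCommutator N G (j + 1) :=
        commutator_lt_of_pGroup (hN.to_le (iter_le hGN _)) hG
          (le_normalizer_iter hGN Subgroup.le_normalizer _) hb
      have hNj1 : N ≤ Subgroup.normalizer
          ((Cfsg.iterCommutator N G (j + 1) : Subgroup L) : Set L) :=
        le_normalizer_iter_of_cc hN hG hGN hn hCC (j + 1)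
      have hNj2 : N ≤ Subgroup.normalizer
          ((Cfsg.iterCommutator N G (j + 2) : Subgroup L) : Set L) :=
        le_normalizer_iter_of_cc hN hG hGN hn hCC (j + 2)
      have hHN : H ≤ N := hH.trans (iter_le hGN j)
      have hb' : Cfsg.iterCommutator N G (j + 1) ≤
          ⁅H, G⁆ ⊔ Cfsg.iterCommutator N G (j + 2) := by
        change ⁅Cfsg.iterCommutator N G j, G⁆ ≤ _
        rw [← hsup, Subgroup.commutator_le]
        intro x hx g hg
        have hx' : x ∈ ((H ⊔ Cfsg.iterCommutator N G (j + 1) : Subgroup L) : Set L) := hx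
        rw [Subgroup.coe_mul_of_left_le_normalizer_right H _ (hHN.trans hNj1)] at hx'
        obtain ⟨h, hh, m, hm, rfl⟩ := hx'
        rw [commutatorElement_mul_left_eq_conj_mul]
        refine mul_mem (Subgroup.mem_sup_right ?_)
          (Subgroup.mem_sup_left (Subgroup.commutator_mem_commutator hh hg))
        exact conj_mem_of_mem_normalizer (hNj2 (hHN hh))
          (Subgroup.commutator_mem_commutator hm hg)
      have hcomm : ⁅H, G⁆ ≤ H ⊓ Cfsg.iterCommutator N G (j + 1) :=
        le_inf (Subgroup.le_normalizer_iff_commutator_le_left.mp hGH)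
          (Subgroup.commutator_mono hH le_rfl)
      have hnot' : ¬ H ⊓ Cfsg.iterCommutator N G (j + 1) ≤
          Cfsg.iterCommutator N G (j + 1 + 1) := by
        intro hle
        have h5 : Cfsg.iterCommutator N G (j + 1) ≤ Cfsg.iterCommutator N G (j + 2) :=
          hb'.trans (sup_le (hcomm.trans hle) le_rfl)
        exact absurd hlt2 (not_lt_of_ge h5)
      have h6 := ih (j + 1) (by omega) (H ⊓ Cfsg.iterCommutator N G (j + 1)) inf_le_right
        (le_normalizer_inf hGH (le_normalizer_iter hGN Subgroup.le_normalizer _)) hnot'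
      rw [← hsup]
      exact sup_le le_rfl (h6.trans inf_le_left)

theorem exists_eq_iter {N G : Subgroup L} (hN : IsPGroup p N) (hG : IsPGroup p G)
    (hGN : G ≤ Subgroup.normalizer (N : Set L)) {n : ℕ} (hn : Nat.card N = p ^ n)
    (hCC : ∀ i, i ≤ n → Nat.card (Cfsg.iterCommutator N G i) = p ^ (n - i))
    (H : Subgroup L) (hHN : H ≤ N) (hGH : G ≤ Subgroup.normalizer (H : Set L)) :
    ∃ i ≤ n, H = Cfsg.iterCommutator N G i := by
  have key : ∀ k i, i + k = n → H ≤ Cfsg.iterCommutator N G i →
      ∃ i' ≤ n, H = Cfsg.iterCommutator N G i' := by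
    intro k
    induction k with
    | zero =>
      intro i hi hH
      refine ⟨i, by omega, ?_⟩
      have h1 : Cfsg.iterCommutator N G i = ⊥ := iter_eq_bot_of_cc hGN hCC i (by omega)
      rw [h1] at hH ⊢
      exact le_bot_iff.mp hH
    | succ k ih =>
      intro i hi hH
      by_cases h : H ≤ Cfsg.iterCommutator N G (i + 1)
      · exact ih (i + 1) (by omega) h
      · exact ⟨i, by omega, le_antisymm hH
          (iter_le_of_not_le hN hG hGN hn hCC (k + 1) i hi H hH hGH h)⟩
  exact key n 0 (by omega) hHN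

theorem uniserial_of_cc {N G : Subgroup L} (hN : IsPGroup p N) (hG : IsPGroup p G)
    (hGN : G ≤ Subgroup.normalizer (N : Set L)) {n : ℕ} (hn : Nat.card N = p ^ n)
    (hCC : ∀ i, i ≤ n → Nat.card (Cfsg.iterCommutator N G i) = p ^ (n - i))
    (H : Subgroup L) (hHN : H ≤ N) (hGH : G ≤ Subgroup.normalizer (H : Set L)) (hne : H ≠ ⊥) :
    (⁅H, G⁆).relIndex H = p := by
  have hp := (Fact.out : p.Prime)
  obtain ⟨i, hi, rfl⟩ := exists_eq_iter hN hG hGN hn hCC H hHN hGH
  have hlt : i < n := by
    by_contra hcon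
    exact hne (iter_eq_bot_of_cc hGN hCC i (by omega))
  have h2 : (Cfsg.iterCommutator N G (i + 1)).relIndex (Cfsg.iterCommutator N G i) *
      Nat.card (Cfsg.iterCommutator N G (i + 1)) = Nat.card (Cfsg.iterCommutator N G i) :=
    relIndex_mul_card' (iter_succ_le hGN i)
  rw [hCC i hi, hCC (i + 1) (by omega)] at h2
  have h4 : n - i = (n - (i + 1)) + 1 := by omega
  rw [h4, pow_succ] at h2
  have hpos : 0 < p ^ (n - (i + 1)) := pow_pos hp.pos _
  have h5 : p ^ (n - (i + 1)) * (Cfsg.iterCommutator N G (i + 1)).relIndex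
      (Cfsg.iterCommutator N G i) = p ^ (n - (i + 1)) * p := by rw [← h2]; ring
  exact Nat.eq_of_mul_eq_mul_left hpos h5

end Main

end Cfsg.Agent.H14
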