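import Cfsg.Agent.S0623
import Cfsg.Agent.H14.Replacement
import Cfsg.Agent.H14.Factor
import Cfsg.Agent.H14.Uniserial
import Cfsg.Agent.H1.Frattini
import Cfsg.Agent.H51.CharP
import Cfsg.Agent.H54.CharP2

set_option autoImplicit false
open Cfsg
open scoped commutatorElement Pointwise

namespace Cfsg.Agent.H14

universe u

section WNormal

theorem omegaOne_elemAb {P : Type u} [Group P] (p : ℕ) (A : Subgroup P)
    (hA : A ≤ Subgroup.centralizer (A : Set P)) :
    Cfsg.IsElementaryAbelian p (Cfsg.omegaOne p A) := by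
  have hle : Cfsg.omegaOne p A ≤ A := by
    unfold Cfsg.omegaOne
    rw [Subgroup.closure_le]
    exact fun x hx => hx.1
  have hcomm : ∀ x ∈ A, ∀ y ∈ A, x * y = y * x := fun x hx y hy =>
    (Subgroup.mem_centralizer_iff.mp (hA hy)) x hx
  refine ⟨⟨⟨fun a b => Subtype.ext (hcomm a (hle a.2) b (hle b.2))⟩⟩, ?_⟩
  intro a ha
  have key : ∀ a ∈ Cfsg.omegaOne p A, a ∈ A ∧ a ^ p = 1 := by
    intro a ha
    unfold Cfsg.omegaOne at ha
    induction ha using Subgroup.closure_induction with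
    | mem x hx => exact hx
    | one => exact ⟨one_mem _, one_pow _⟩
    | mul x y _ _ ihx ihy =>
      have hc : Commute x y := hcomm x ihx.1 y ihy.1
      exact ⟨mul_mem ihx.1 ihy.1, by rw [hc.mul_pow, ihx.2, ihy.2, one_mul]⟩
    | inv x _ ihx => exact ⟨inv_mem ihx.1, by rw [inv_pow, ihx.2, inv_one]⟩
  exact (key a ha).2

theorem omegaCenterThompson_elemAb {P : Type u} [Group P] (p : ℕ) :
    Cfsg.IsElementaryAbelian p (Cfsg.omegaCenterThompson p P) := by
  unfold Cfsg.omegaCenterThompson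
  apply omegaOne_elemAb
  intro x hx
  rw [Subgroup.mem_centralizer_iff]
  intro y hy
  have hx2 := (Subgroup.mem_inf.mp hx).2
  rw [Subgroup.mem_centralizer_iff] at hx2
  exact hx2 y (Subgroup.mem_inf.mp hy).1

variable {G : Type u} [Group G] [Finite G] {p : ℕ} [Fact p.Prime]

/-- `W(S)` as a subgroup of `G`. -/
abbrev wOf (S : Sylow p G) : Subgroup G :=
  (Cfsg.stableNormalClosure p ↥(S : Subgroup G)).map (S : Subgroup G).subtype

theorem wOf_le (S : Sylow p G) : wOf S ≤ (S : Subgroup G) := Subgroup.map_subtype_le _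

theorem wOf_elemAb (S : Sylow p G) : Cfsg.IsElementaryAbelian p (wOf S) := by
  obtain ⟨-, -, hWJ, -, -⟩ := Cfsg.Agent.S0622.result (p := p) S.2
  exact elemAb_map' (elemAb_mono (omegaCenterThompson_elemAb p) hWJ) _

theorem sylow_le_normalizer_wOf (S : Sylow p G) :
    (S : Subgroup G) ≤ Subgroup.normalizer ((wOf S : Subgroup G) : Set G) := by
  obtain ⟨hchar, -, -, -, -⟩ := Cfsg.Agent.S0622.result (p := p) S.2
  haveI := hchar
  exact Subgroup.le_normalizer.trans
    (Cfsg.Agent.H1.normalizer_le_normalizer_map_of_characteristic (S : Subgroup G)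
      (Cfsg.stableNormalClosure p ↥(S : Subgroup G)))

theorem wOf_comm (S : Sylow p G) : ⁅wOf S, wOf S⁆ = ⊥ := by
  rw [Subgroup.commutator_eq_bot_iff_le_centralizer]
  exact Subgroup.le_centralizer_iff_isMulCommutative.mpr (wOf_elemAb S).1

/-- No element of `S` acts quadratically and nontrivially on `W(S)`. -/
theorem wOf_noQuad (S : Sylow p G) {s : G} (hs : s ∈ (S : Subgroup G))
    (hq : ⁅⁅wOf S, Subgroup.zpowers s⁆, Subgroup.zpowers s⁆ = ⊥) :
    ⁅wOf S, Subgroup.zpowers s⁆ = ⊥ := by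
  have hz : Subgroup.zpowers s =
      (Subgroup.zpowers (⟨s, hs⟩ : ↥(S : Subgroup G))).map (S : Subgroup G).subtype := by
    rw [MonoidHom.map_zpowers]; rfl
  unfold wOf at hq ⊢
  rw [hz, ← Subgroup.map_commutator] at hq ⊢
  rw [← Subgroup.map_commutator] at hq
  rw [Subgroup.map_eq_bot_iff_of_injective _ (Subgroup.subtype_injective _)] at hq ⊢
  exact Cfsg.Agent.S0623.result S.2 ⟨s, hs⟩ hq

omit [Finite G] [Fact p.Prime] in
theorem pCore_le_sylow' (S : Sylow p G) : Cfsg.pCore p G ≤ (S : Subgroup G) := by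
  haveI := pCore_normal p G
  exact (pCore_isPGroup p G).le_sylow_of_normal S

/-- The kernel of the action on `O_p(G)/Φ(O_p(G))` is a `p`-group when `C_G(O_p(G)) ≤ O_p(G)`. -/
theorem sectionKernel_isPGroup
    (hc : Subgroup.centralizer (Cfsg.pCore p G : Set G) ≤ Cfsg.pCore p G) :
    IsPGroup p ↥(Cfsg.sectionKernel (Cfsg.pCore p G)
      ((frattini ↥(Cfsg.pCore p G)).map (Cfsg.pCore p G).subtype)) := by
  haveI := pCore_normal p G
  apply Cfsg.Agent.H51.isPGroup_of_coprime_trivial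
  intro c hcC hcop
  have hA : Subgroup.zpowers c ≤ Cfsg.sectionKernel (Cfsg.pCore p G)
      ((frattini ↥(Cfsg.pCore p G)).map (Cfsg.pCore p G).subtype) := by
    rw [Subgroup.zpowers_le]; exact hcC
  have hcent : Subgroup.zpowers c ≤ Subgroup.centralizer (Cfsg.pCore p G : Set G) := by
    apply Cfsg.Agent.H1.centralizer_of_trivial_on_frattini_quotient
    · intro x _
      rw [Subgroup.normalizer_eq_top]
      exact Subgroup.mem_top x
    · rw [Nat.card_zpowers]
      obtain ⟨m, hm⟩ := IsPGroup.iff_card.mp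
        ((pCore_isPGroup p G).to_subgroup (frattini ↥(Cfsg.pCore p G)))
      rw [hm]
      exact Nat.Coprime.pow_right m hcop
    · intro a ha k hk
      have ha' := hA ha
      unfold Cfsg.sectionKernel at ha'
      rw [Subgroup.mem_comap, Subgroup.mem_centralizer_iff] at ha'
      have h1 := ha' _ (Subgroup.mem_map_of_mem _ hk)
      rw [← QuotientGroup.eq_one_iff]
      simp only [QuotientGroup.mk'_apply] at h1
      rw [QuotientGroup.mk_mul, QuotientGroup.mk_mul, QuotientGroup.mk_mul, ← h1]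
      simp
  have hcQ : c ∈ Cfsg.pCore p G := hc (hcent (Subgroup.mem_zpowers c))
  exact Cfsg.Agent.H54.eq_one_of_mem_pgroup_of_coprime (pCore_isPGroup p G) hcQ hcop

/-- `W(S) ≤ O_p(G)` for `G` stable on `O_p(G)/Φ(O_p(G))` with `C_G(O_p(G)) ≤ O_p(G)`. -/
theorem wOf_le_pCore
    (hst2 : Cfsg.IsPStableOnSection p (Cfsg.pCore p G)
      ((frattini ↥(Cfsg.pCore p G)).map (Cfsg.pCore p G).subtype))
    (hc : Subgroup.centralizer (Cfsg.pCore p G : Set G) ≤ Cfsg.pCore p G) (S : Sylow p G) :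
    wOf S ≤ Cfsg.pCore p G := by
  have hp := (Fact.out : p.Prime)
  intro a ha
  have hza : Subgroup.zpowers a ≤ wOf S := by rw [Subgroup.zpowers_le]; exact ha
  have h1 : ⁅Cfsg.pCore p G, Subgroup.zpowers a⁆ ≤ wOf S := by
    refine (Subgroup.commutator_mono (pCore_le_sylow' S) hza).trans ?_
    rw [Subgroup.commutator_comm]
    exact Subgroup.le_normalizer_iff_commutator_le_left.mp (sylow_le_normalizer_wOf S)
  have hquad : ⁅⁅Cfsg.pCore p G, Subgroup.zpowers a⁆, Subgroup.zpowers a⁆ ≤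
      (frattini ↥(Cfsg.pCore p G)).map (Cfsg.pCore p G).subtype := by
    have h2 := Subgroup.commutator_mono h1 hza
    rw [wOf_comm S] at h2
    exact h2.trans bot_le
  obtain ⟨D, hDn, hCD, ⟨k, hk⟩, haD⟩ := hst2 a hquad
  obtain ⟨m, hm⟩ := IsPGroup.iff_card.mp (sectionKernel_isPGroup hc)
  have hDcard : Nat.card D = p ^ (k + m) := by
    rw [← relIndex_mul_card' hCD, hk, hm, pow_add]
  exact le_pCore hDn (IsPGroup.of_card hDcard) haD

/-- Frattini argument: if `J(G) ≤ C ⊴ G` then `G = C N_G(J(S))`. -/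
theorem frattini_thompson (C : Subgroup G) [hCn : C.Normal]
    (hJ : Cfsg.thompsonSubgroup p G ≤ C) (S : Sylow p G) (g : G) :
    ∃ c ∈ C, ∃ n ∈ Subgroup.normalizer (Cfsg.thompsonSubgroupOf p (S : Subgroup G) : Set G),
      g = c * n := by
  let P₀ : Sylow p ↥C := default
  set T₀ : Subgroup G := (P₀ : Subgroup ↥C).map C.subtype with hT₀
  have hT₀p : IsPGroup p T₀ := P₀.2.map _
  obtain ⟨S₀, hS₀⟩ := hT₀p.exists_le_sylow
  have hT₀C : T₀ ≤ C := Subgroup.map_subtype_le _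
  have hinf : (S₀ : Subgroup G) ⊓ C = T₀ := by
    have h1 : IsPGroup p ↥(((S₀ : Subgroup G) ⊓ C).subgroupOf C) :=
      (S₀.2.to_le inf_le_left).comap_subtype
    have h2 : (P₀ : Subgroup ↥C) ≤ ((S₀ : Subgroup G) ⊓ C).subgroupOf C := by
      intro x hx
      rw [Subgroup.mem_subgroupOf]
      exact ⟨hS₀ ⟨x, hx, rfl⟩, x.2⟩
    have h3 := P₀.is_maximal' h1 h2
    rw [hT₀, ← h3, Subgroup.map_subgroupOf_eq_of_le inf_le_right]
  have hex := exists_maxElAb_le_sylow S₀
  have hJS₀ : Cfsg.thompsonSubgroupOf p (S₀ : Subgroup G) ≤ T₀ := by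
    rw [← hinf]
    exact le_inf (thompsonSubgroupOf_le p _)
      ((thompsonSubgroupOf_le_thompsonSubgroup _ hex).trans hJ)
  have hJeq : Cfsg.thompsonSubgroupOf p T₀ = Cfsg.thompsonSubgroupOf p (S₀ : Subgroup G) :=
    thompsonSubgroupOf_eq_of_le _ _ hex hS₀ hJS₀
  have hfr : Subgroup.normalizer (T₀ : Set G) ⊔ C = ⊤ := Sylow.normalizer_sup_eq_top P₀
  have hNle : Subgroup.normalizer (T₀ : Set G) ≤
      Subgroup.normalizer (Cfsg.thompsonSubgroupOf p (S₀ : Subgroup G) : Set G) := by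
    intro n hn
    rw [Subgroup.mem_normalizer_iff_map_conj_eq] at hn ⊢
    have h1 := thompsonSubgroupOf_conj p n T₀
    have hn' : T₀.map (MulAut.conj n).toMonoidHom = T₀ := hn
    rw [hn', hJeq] at h1
    exact h1
  obtain ⟨h, hh⟩ := MulAction.exists_smul_eq G S₀ S
  have hS : (S : Subgroup G) = (S₀ : Subgroup G).map (MulAut.conj h).toMonoidHom := by
    rw [← hh, sylow_smul_coe]
  have hmem : h⁻¹ * g * h ∈ Subgroup.normalizer (T₀ : Set G) ⊔ C := by rw [hfr]; trivial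
  obtain ⟨n₀, hn₀, c₀, hc₀, hnc⟩ := Subgroup.mem_sup_of_normal_right.mp hmem
  have hn₀' := hNle hn₀
  -- g = h n₀ c₀ h⁻¹ = (h n₀ c₀ n₀⁻¹ h⁻¹) (h n₀ h⁻¹)
  refine ⟨h * n₀ * c₀ * n₀⁻¹ * h⁻¹, ?_, h * n₀ * h⁻¹, ?_, ?_⟩
  · have : h * n₀ * c₀ * n₀⁻¹ * h⁻¹ = (h * n₀) * c₀ * (h * n₀)⁻¹ := by group
    rw [this]
    exact hCn.conj_mem c₀ hc₀ _
  · rw [hS, ← thompsonSubgroupOf_conj]
    have h1 : (Subgroup.normalizer (Cfsg.thompsonSubgroupOf p (S₀ : Subgroup G) : Set G)).map
        (MulAut.conj h).toMonoidHom ≤ _ := Subgroup.le_normalizer_map (MulAut.conj h).toMonoidHom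
    exact h1 ⟨n₀, hn₀', rfl⟩
  · have : g = h * (h⁻¹ * g * h) * h⁻¹ := by group
    rw [this, ← hnc]; group

omit [Finite G] [Fact p.Prime] in
theorem elemAb_closure {T : Set G} (hcomm : ∀ x ∈ T, ∀ y ∈ T, x * y = y * x)
    (hpow : ∀ x ∈ T, x ^ p = 1) : Cfsg.IsElementaryAbelian p (Subgroup.closure T) := by
  have h1 : Subgroup.closure T ≤ Subgroup.centralizer T := by
    rw [Subgroup.closure_le]
    intro x hx
    rw [SetLike.mem_coe, Subgroup.mem_centralizer_iff]
    exact fun y hy => hcomm y hy x hx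
  have h2 : Subgroup.closure T ≤ Subgroup.centralizer (Subgroup.closure T : Set G) := by
    rw [Subgroup.closure_le]
    intro x hx
    rw [SetLike.mem_coe, Subgroup.mem_centralizer_iff]
    intro y hy
    have h3 := h1 hy
    rw [Subgroup.mem_centralizer_iff] at h3
    exact (h3 x hx).symm
  have hc : ∀ x ∈ Subgroup.closure T, ∀ y ∈ Subgroup.closure T, x * y = y * x :=
    fun x hx y hy => (Subgroup.mem_centralizer_iff.mp (h2 hy)) x hx
  refine ⟨⟨⟨fun a b => Subtype.ext (hc a a.2 b b.2)⟩⟩, ?_⟩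
  intro a ha
  induction ha using Subgroup.closure_induction with
  | mem x hx => exact hpow x hx
  | one => exact one_pow _
  | mul x y hx hy ihx ihy =>
    have hcxy : Commute x y := hc x hx y hy
    rw [hcxy.mul_pow, ihx, ihy, one_mul]
  | inv x _ ihx => rw [inv_pow, ihx, inv_one]

/-- The normal closure of `W(S)`. -/
abbrev vOf (S : Sylow p G) : Subgroup G := Subgroup.normalClosure ((wOf S : Subgroup G) : Set G)

/-- Every conjugate of an element of `W(S)` centralizes `W(S)`, when `W(S) ≤ O_p(G)`. -/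
theorem conj_wOf_comm (S : Sylow p G) (hWQ : wOf S ≤ Cfsg.pCore p G) (g : G) {w w' : G}
    (hw : w ∈ wOf S) (hw' : w' ∈ wOf S) : (g * w * g⁻¹) * w' = w' * (g * w * g⁻¹) := by
  haveI := pCore_normal p G
  have hxQ : g * w * g⁻¹ ∈ Cfsg.pCore p G := (pCore_normal p G).conj_mem w (hWQ hw) g
  have hxS : g * w * g⁻¹ ∈ (S : Subgroup G) := pCore_le_sylow' S hxQ
  have hWg : Subgroup.zpowers (g * w * g⁻¹) ≤ (wOf S).map (MulAut.conj g).toMonoidHom := by
    rw [Subgroup.zpowers_le]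
    exact ⟨w, hw, rfl⟩
  have hQN : Cfsg.pCore p G ≤ Subgroup.normalizer
      (((wOf S).map (MulAut.conj g).toMonoidHom : Subgroup G) : Set G) := by
    have h1 : Cfsg.pCore p G ≤ Subgroup.normalizer ((wOf S : Subgroup G) : Set G) :=
      (pCore_le_sylow' S).trans (sylow_le_normalizer_wOf S)
    have h2 := Subgroup.map_mono (f := (MulAut.conj g).toMonoidHom) h1
    rw [Cfsg.Agent.S0623.map_conj_eq_of_normal] at h2
    exact h2.trans (Subgroup.le_normalizer_map _)
  have hq : ⁅⁅wOf S, Subgroup.zpowers (g * w * g⁻¹)⁆, Subgroup.zpowers (g * w * g⁻¹)⁆ = ⊥ := by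
    rw [eq_bot_iff]
    have h1 : ⁅wOf S, Subgroup.zpowers (g * w * g⁻¹)⁆ ≤
        (wOf S).map (MulAut.conj g).toMonoidHom := by
      refine (Subgroup.commutator_mono hWQ hWg).trans ?_
      rw [Subgroup.commutator_comm]
      exact Subgroup.le_normalizer_iff_commutator_le_left.mp hQN
    refine (Subgroup.commutator_mono h1 hWg).trans ?_
    rw [← Subgroup.map_commutator, wOf_comm S, Subgroup.map_bot]
  have h3 := wOf_noQuad S hxS hq
  rw [Subgroup.commutator_eq_bot_iff_le_centralizer] at h3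
  have h4 := h3 hw'
  rw [Subgroup.mem_centralizer_iff] at h4
  exact h4 _ (Subgroup.mem_zpowers _)

theorem vOf_elemAb (S : Sylow p G) (hWQ : wOf S ≤ Cfsg.pCore p G) :
    Cfsg.IsElementaryAbelian p (vOf S) := by
  unfold vOf Subgroup.normalClosure
  apply elemAb_closure
  · intro t₁ ht₁ t₂ ht₂
    obtain ⟨w₁, hw₁, hc₁⟩ := Group.mem_conjugatesOfSet_iff.mp ht₁
    obtain ⟨w₂, hw₂, hc₂⟩ := Group.mem_conjugatesOfSet_iff.mp ht₂
    obtain ⟨c₁, rfl⟩ := isConj_iff.mp hc₁
    obtain ⟨c₂, rfl⟩ := isConj_iff.mp hc₂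
    have h := conj_wOf_comm S hWQ (c₁⁻¹ * c₂) hw₂ hw₁
    calc c₁ * w₁ * c₁⁻¹ * (c₂ * w₂ * c₂⁻¹)
        = c₁ * (w₁ * (c₁⁻¹ * c₂ * w₂ * (c₁⁻¹ * c₂)⁻¹)) * c₁⁻¹ := by group
      _ = c₁ * ((c₁⁻¹ * c₂ * w₂ * (c₁⁻¹ * c₂)⁻¹) * w₁) * c₁⁻¹ := by rw [h]
      _ = c₂ * w₂ * c₂⁻¹ * (c₁ * w₁ * c₁⁻¹) := by group
  · intro t ht
    obtain ⟨w, hw, hc⟩ := Group.mem_conjugatesOfSet_iff.mp ht
    obtain ⟨c, rfl⟩ := isConj_iff.mp hc
    rw [conj_pow, (wOf_elemAb S).2 w hw]
    group

omit [Finite G] [Fact p.Prime] in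
theorem quad_conj {V : Subgroup G} [V.Normal] {x : G}
    (h : ⁅⁅V, Subgroup.zpowers x⁆, Subgroup.zpowers x⁆ = ⊥) (g : G) :
    ⁅⁅V, Subgroup.zpowers (g * x * g⁻¹)⁆, Subgroup.zpowers (g * x * g⁻¹)⁆ = ⊥ := by
  have e : Subgroup.zpowers (g * x * g⁻¹) =
      (Subgroup.zpowers x).map (MulAut.conj g).toMonoidHom := by
    rw [MonoidHom.map_zpowers]; rfl
  have h1 := congrArg (Subgroup.map (MulAut.conj g).toMonoidHom) h
  rw [Subgroup.map_commutator, Subgroup.map_commutator,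
    Cfsg.Agent.S0623.map_conj_eq_of_normal, Subgroup.map_bot, ← e] at h1
  exact h1

/-- Under `p`-stability on `V = ⟨W(S)^G⟩`, an element acting quadratically on `V`
centralizes `V`. -/
theorem mem_centralizer_vOf_of_quadratic (S : Sylow p G)
    (hst : Cfsg.IsPStableOn p (vOf S)) {x : G}
    (hxq : ⁅⁅vOf S, Subgroup.zpowers x⁆, Subgroup.zpowers x⁆ = ⊥) :
    x ∈ Subgroup.centralizer ((vOf S : Subgroup G) : Set G) := by
  have hmk := hst x hxq
  have key : ∀ t ∈ Group.conjugatesOfSet ((wOf S : Subgroup G) : Set G), t * x = x * t := by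
    intro t ht
    obtain ⟨w, hw, hc⟩ := Group.mem_conjugatesOfSet_iff.mp ht
    obtain ⟨g, rfl⟩ := isConj_iff.mp hc
    have hy : (QuotientGroup.mk (g⁻¹ * x * g) :
        G ⧸ Subgroup.centralizer ((vOf S : Subgroup G) : Set G)) ∈
        Cfsg.pCore p (G ⧸ Subgroup.centralizer ((vOf S : Subgroup G) : Set G)) := by
      have h1 := (pCore_normal p (G ⧸ Subgroup.centralizer ((vOf S : Subgroup G) : Set G))).conj_mem
        _ hmk (QuotientGroup.mk g⁻¹)
      simpa using h1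
    have hsyl := (pCore_le_sylow' (S.mapSurjective
      (QuotientGroup.mk'_surjective (Subgroup.centralizer ((vOf S : Subgroup G) : Set G))))) hy
    rw [Sylow.coe_mapSurjective] at hsyl
    obtain ⟨s, hs, hse⟩ := hsyl
    have hcC : s⁻¹ * (g⁻¹ * x * g) ∈ Subgroup.centralizer ((vOf S : Subgroup G) : Set G) :=
      QuotientGroup.eq.mp hse
    have hyq : ⁅⁅vOf S, Subgroup.zpowers (g⁻¹ * x * g)⁆, Subgroup.zpowers (g⁻¹ * x * g)⁆ = ⊥ := by
      have h1 := quad_conj hxq g⁻¹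
      rwa [inv_inv] at h1
    have hsle : Subgroup.zpowers s ≤ Subgroup.zpowers (g⁻¹ * x * g) ⊔
        Subgroup.centralizer ((vOf S : Subgroup G) : Set G) := by
      rw [Subgroup.zpowers_le]
      have e : s = (g⁻¹ * x * g) * (s⁻¹ * (g⁻¹ * x * g))⁻¹ := by group
      rw [e]
      exact mul_mem (Subgroup.mem_sup_left (Subgroup.mem_zpowers _))
        (Subgroup.mem_sup_right (inv_mem hcC))
    have hsq : ⁅⁅vOf S, Subgroup.zpowers s⁆, Subgroup.zpowers s⁆ = ⊥ := by
      rw [eq_bot_iff, ← hyq]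
      have h1 := Cfsg.Agent.S0623.commutator_le_of_le_sup_centralizer (vOf S)
        (Subgroup.zpowers s) (Subgroup.zpowers (g⁻¹ * x * g))
        (Subgroup.centralizer ((vOf S : Subgroup G) : Set G)) le_rfl hsle
      have h2 : Subgroup.centralizer ((vOf S : Subgroup G) : Set G) ≤
          Subgroup.centralizer ((⁅vOf S, Subgroup.zpowers (g⁻¹ * x * g)⁆ : Subgroup G) : Set G) :=
        Subgroup.centralizer_le (Subgroup.commutator_le_left _ _)
      have h3 := Cfsg.Agent.S0623.commutator_le_of_le_sup_centralizer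
        ⁅vOf S, Subgroup.zpowers (g⁻¹ * x * g)⁆
        (Subgroup.zpowers s) (Subgroup.zpowers (g⁻¹ * x * g))
        (Subgroup.centralizer ((vOf S : Subgroup G) : Set G)) h2 hsle
      exact (Subgroup.commutator_mono h1 le_rfl).trans h3
    have hsW : ⁅⁅wOf S, Subgroup.zpowers s⁆, Subgroup.zpowers s⁆ = ⊥ := by
      rw [eq_bot_iff, ← hsq]
      exact Subgroup.commutator_mono (Subgroup.commutator_mono Subgroup.le_normalClosure le_rfl)
        le_rfl
    have h5 := wOf_noQuad S hs hsW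
    rw [Subgroup.commutator_eq_bot_iff_le_centralizer] at h5
    have h6 := h5 hw
    rw [Subgroup.mem_centralizer_iff] at h6
    have hsw : s * w = w * s := h6 s (Subgroup.mem_zpowers s)
    have hcw : w * (s⁻¹ * (g⁻¹ * x * g)) = (s⁻¹ * (g⁻¹ * x * g)) * w :=
      (Subgroup.mem_centralizer_iff.mp hcC) w (Subgroup.le_normalClosure hw)
    have hyw : (g⁻¹ * x * g) * w = w * (g⁻¹ * x * g) := by
      have e : g⁻¹ * x * g = s * (s⁻¹ * (g⁻¹ * x * g)) := by group
      rw [e, mul_assoc, ← hcw, ← mul_assoc, hsw, mul_assoc]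
    calc g * w * g⁻¹ * x = g * (w * (g⁻¹ * x * g)) * g⁻¹ := by group
      _ = g * ((g⁻¹ * x * g) * w) * g⁻¹ := by rw [hyw]
      _ = x * (g * w * g⁻¹) := by group
  have hle : vOf S ≤ Subgroup.centralizer ({x} : Set G) := by
    unfold vOf Subgroup.normalClosure
    rw [Subgroup.closure_le]
    intro t ht
    rw [SetLike.mem_coe, Subgroup.mem_centralizer_iff]
    intro h hh
    rw [Set.mem_singleton_iff] at hh
    subst hh
    exact (key t ht).symm
  rw [Subgroup.mem_centralizer_iff]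
  intro v hv
  have h7 := hle hv
  rw [Subgroup.mem_centralizer_iff] at h7
  exact (h7 x rfl).symm

theorem thompson_le_centralizer_vOf (S : Sylow p G) (hWQ : wOf S ≤ Cfsg.pCore p G)
    (hst : Cfsg.IsPStableOn p (vOf S)) :
    Cfsg.thompsonSubgroup p G ≤ Subgroup.centralizer ((vOf S : Subgroup G) : Set G) := by
  unfold Cfsg.thompsonSubgroup
  apply sSup_le
  intro A hA
  have hVel := vOf_elemAb S hWQ
  by_contra hcon
  have hne : ⁅vOf S, A⁆ ≠ ⊥ := by
    intro h
    apply hcon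
    rw [Subgroup.commutator_comm, Subgroup.commutator_eq_bot_iff_le_centralizer] at h
    exact h
  obtain ⟨-, hquad, hnt⟩ := thompson_replacement (vOf S) hVel A hA
  apply hnt hne
  rw [Subgroup.commutator_comm, Subgroup.commutator_eq_bot_iff_le_centralizer]
  intro x hx
  apply mem_centralizer_vOf_of_quadratic S hst
  rw [eq_bot_iff, ← hquad]
  have hz : Subgroup.zpowers x ≤ ⁅vOf S, A⁆ ⊔
      (A ⊓ Subgroup.centralizer ((⁅vOf S, A⁆ : Subgroup G) : Set G)) := by
    rw [Subgroup.zpowers_le]; exact hx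
  exact Subgroup.commutator_mono (Subgroup.commutator_mono le_rfl hz) hz

omit [Finite G] [Fact p.Prime] in
theorem sylow_le_normalizer_thompson (S : Sylow p G) :
    (S : Subgroup G) ≤ Subgroup.normalizer (Cfsg.thompsonSubgroupOf p (S : Subgroup G) : Set G) := by
  intro s hs
  have hsN : s ∈ Subgroup.normalizer ((S : Subgroup G) : Set G) := Subgroup.le_normalizer hs
  rw [Subgroup.mem_normalizer_iff_map_conj_eq] at hsN ⊢
  have hn' : (S : Subgroup G).map (MulAut.conj s).toMonoidHom = S := hsN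
  have h1 := thompsonSubgroupOf_conj p s (S : Subgroup G)
  rw [hn'] at h1
  exact h1

/-- `S → N_G(J(S))` is a stable embedding, so `N_G(J(S))` normalizes `W(S)`. -/
theorem normalizer_thompson_le_normalizer_wOf (S : Sylow p G)
    (hc : Subgroup.centralizer (Cfsg.pCore p G : Set G) ≤ Cfsg.pCore p G)
    (hst3 : ∀ (V : Subgroup ↥(Subgroup.normalizer
        (Cfsg.thompsonSubgroupOf p (S : Subgroup G) : Set G))) [V.Normal],
      V.map (Subgroup.normalizer (Cfsg.thompsonSubgroupOf p (S : Subgroup G) : Set G)).subtype ≤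
          (Cfsg.omegaCenterThompson p ↥(S : Subgroup G)).map (S : Subgroup G).subtype →
        Cfsg.IsPStableOn p V) :
    Subgroup.normalizer (Cfsg.thompsonSubgroupOf p (S : Subgroup G) : Set G) ≤
      Subgroup.normalizer ((wOf S : Subgroup G) : Set G) := by
  have hSN := sylow_le_normalizer_thompson S
  have hJp : IsPGroup p ↥(Cfsg.thompsonSubgroupOf p (S : Subgroup G)) :=
    S.2.to_le (thompsonSubgroupOf_le p _)
  have hτ : Cfsg.IsStableEmbedding p (Subgroup.inclusion hSN) := by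
    refine ⟨Subgroup.inclusion_injective hSN, inferInstance, ⟨S.subtype hSN, ?_⟩, ?_, ?_, ?_⟩
    · rw [Subgroup.inclusion_range]; rfl
    · exact Cfsg.Agent.H54.charP_normalizer_of_charP hc _ hJp
    · constructor
      rintro _ ⟨x, hx, rfl⟩ n
      have h1 : (n : G) * (x : G) * (n : G)⁻¹ ∈ Cfsg.thompsonSubgroupOf p (S : Subgroup G) :=
        conj_mem_of_mem_normalizer n.2 ⟨x, hx, rfl⟩
      obtain ⟨y, hy, hye⟩ := h1
      exact ⟨y, hy, Subtype.ext hye⟩
    · intro V' _ hV'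
      apply hst3 V'
      rintro _ ⟨v', hv', rfl⟩
      obtain ⟨z, hz, rfl⟩ := hV' hv'
      exact ⟨z, hz, rfl⟩
  have hnorm := Cfsg.Agent.S0623.stableNormalClosure_map_normal p S.2 _ hτ
  intro n hn
  apply mem_normalizer_of_conj_mem
  rintro _ ⟨w, hw, rfl⟩
  obtain ⟨w₁, hw₁, hwe⟩ := hnorm.conj_mem _ ⟨w, hw, rfl⟩ ⟨n, hn⟩
  exact ⟨w₁, hw₁, congrArg Subtype.val hwe⟩

end WNormal

end Cfsg.Agent.H14
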