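import Cfsg.Agent.H14.Holo
import Cfsg.Agent.H14.Factor
import Cfsg.Agent.H14.WNormal
import Cfsg.Agent.H80.PSolvable
import Cfsg.Agent.H73.PSolv
import Cfsg.Agent.H53.Irred

/-!
# Failure of Thompson factorization in `p`-solvable groups (K–S 9.3.8, S0618)
-/

set_option autoImplicit false
open Cfsg
open scoped commutatorElement Pointwise

namespace Cfsg.Agent.H14.Holo

universe u

variable {G : Type u} [Group G]

/-- `V = ⟨Ω₁(Z(S))⟩` is elementary abelian when `O_{p'}(G) = 1` and `G` is `p`-solvable. -/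
theorem sylowCenterV_elemAb [Finite G] {p : ℕ} [Fact p.Prime] (hsep : IsPSolvable p G)
    (hO : pPrimeCore p G = ⊥) : IsElementaryAbelian p (Cfsg.Agent.H14.sylowCenterV p G) := by
  have hc := Cfsg.Agent.H80.centralizer_pCore_le p hsep hO
  obtain ⟨Z, hZ⟩ : ∃ Z : Subgroup G,
      Z = pCore p G ⊓ Subgroup.centralizer (pCore p G : Set G) := ⟨_, rfl⟩
  have hZab : Z ≤ Subgroup.centralizer (Z : Set G) := by
    rw [hZ]
    exact inf_le_right.trans (Subgroup.centralizer_le (by exact_mod_cast inf_le_left))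
  have hel := Cfsg.Agent.H14.omegaOne_elemAb p Z hZab
  apply Cfsg.Agent.H14.elemAb_mono hel
  unfold Cfsg.Agent.H14.sylowCenterV
  apply iSup_le
  intro S
  unfold Cfsg.omegaOne
  apply Subgroup.closure_mono
  rintro x ⟨hx, hxp⟩
  refine ⟨?_, hxp⟩
  have h1 : x ∈ Subgroup.centralizer (pCore p G : Set G) :=
    Subgroup.centralizer_le (by exact_mod_cast Cfsg.Agent.H14.pCore_le_sylow' S)
      (Subgroup.mem_inf.mp hx).2
  rw [hZ]
  exact Subgroup.mem_inf.mpr ⟨hc h1, h1⟩

/-- K–S 9.2: `O_p(G / C_G(V)) = 1` for `V = ⟨Ω₁(Z(S))⟩`. -/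
theorem pCore_quotient_eq_bot [Finite G] {p : ℕ} [Fact p.Prime] (V : Subgroup G) [V.Normal]
    (hVdef : V = Cfsg.Agent.H14.sylowCenterV p G) :
    pCore p (G ⧸ Subgroup.centralizer (V : Set G)) = ⊥ := by
  have hp : p.Prime := Fact.out
  obtain ⟨C, hC⟩ : ∃ C : Subgroup G, C = Subgroup.centralizer (V : Set G) := ⟨_, rfl⟩
  haveI hCn : C.Normal := by rw [hC]; infer_instance
  obtain ⟨D, hD⟩ : ∃ D : Subgroup G,
      D = (pCore p (G ⧸ Subgroup.centralizer (V : Set G))).comap
        (QuotientGroup.mk' (Subgroup.centralizer (V : Set G))) := ⟨_, rfl⟩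
  have hCD : C ≤ D := by
    rw [hC, hD]
    intro x hx
    rw [Subgroup.mem_comap]
    have : (QuotientGroup.mk' (Subgroup.centralizer (V : Set G))) x = 1 := by
      rw [QuotientGroup.mk'_apply, QuotientGroup.eq_one_iff]
      exact hx
    rw [this]
    exact Subgroup.one_mem _
  haveI hDn : D.Normal := by
    rw [hD]
    haveI := Cfsg.Agent.H14.pCore_normal p (G ⧸ Subgroup.centralizer (V : Set G))
    infer_instance
  have hDmap : D.map (QuotientGroup.mk' (Subgroup.centralizer (V : Set G))) =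
      pCore p (G ⧸ Subgroup.centralizer (V : Set G)) := by
    rw [hD]
    exact Subgroup.map_comap_eq_self_of_surjective (QuotientGroup.mk'_surjective _) _
  -- `|D : C|` is a power of `p`
  obtain ⟨k, hk⟩ : ∃ k : ℕ, C.relIndex D = p ^ k := by
    have h1 := Subgroup.relIndex_ker D (QuotientGroup.mk' (Subgroup.centralizer (V : Set G)))
    rw [QuotientGroup.ker_mk', hDmap] at h1
    obtain ⟨k, hk⟩ := IsPGroup.iff_card.mp
      (Cfsg.Agent.H14.pCore_isPGroup p (G ⧸ Subgroup.centralizer (V : Set G)))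
    exact ⟨k, by rw [hC, h1, hk]⟩
  -- `D ≤ C`
  have hDC : D ≤ C := by
    rw [hC, Subgroup.le_centralizer_iff, hVdef]
    unfold Cfsg.Agent.H14.sylowCenterV
    apply iSup_le
    intro S
    rw [← Subgroup.le_centralizer_iff]
    obtain ⟨X, hX⟩ : ∃ X : Subgroup G, X = Subgroup.centralizer
        (omegaOne p ((S : Subgroup G) ⊓ Subgroup.centralizer ((S : Subgroup G) : Set G)) : Set G) :=
      ⟨_, rfl⟩
    rw [← hX]
    have hCX : C ≤ X := by
      rw [hC, hX]
      apply Subgroup.centralizer_le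
      rw [hVdef]
      have := le_iSup (fun S : Sylow p G => omegaOne p ((S : Subgroup G) ⊓
        Subgroup.centralizer ((S : Subgroup G) : Set G))) S
      exact_mod_cast this
    have hSX : (S : Subgroup G) ≤ X := by
      rw [hX, Subgroup.le_centralizer_iff]
      exact Cfsg.Agent.H14.omegaOne_center_le_centralizer p (S : Subgroup G)
    have h1 : (D ⊓ X).relIndex D ∣ p ^ k := by
      rw [← hk]
      exact Subgroup.relIndex_dvd_of_le_left D (le_inf hCD hCX)
    have h2 : (D ⊓ X).relIndex D ∣ (S : Subgroup G).index := by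
      have h3 : (D ⊓ X).relIndex D ∣ (D ⊓ (S : Subgroup G)).relIndex D :=
        Subgroup.relIndex_dvd_of_le_left D (inf_le_inf_left D hSX)
      refine h3.trans ?_
      have e1 := card_sup_mul_card_inf (S : Subgroup G) D
        (by rw [Subgroup.normalizer_eq_top]; exact le_top)
      have e2 : ((S : Subgroup G) ⊓ D).relIndex D * Nat.card ↥((S : Subgroup G) ⊓ D) = Nat.card D :=
        Cfsg.Agent.H14.relIndex_mul_card' inf_le_right
      have e3 : (S : Subgroup G).relIndex ((S : Subgroup G) ⊔ D) * Nat.card (S : Subgroup G) =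
          Nat.card ↥((S : Subgroup G) ⊔ D) := Cfsg.Agent.H14.relIndex_mul_card' le_sup_left
      have e4 : ((S : Subgroup G) ⊓ D).relIndex D = (S : Subgroup G).relIndex ((S : Subgroup G) ⊔ D) := by
        have hpos1 : 0 < Nat.card ↥((S : Subgroup G) ⊓ D) := Nat.card_pos
        have hpos2 : 0 < Nat.card (S : Subgroup G) := Nat.card_pos
        have : ((S : Subgroup G) ⊓ D).relIndex D * (Nat.card ↥((S : Subgroup G) ⊓ D) * Nat.card (S : Subgroup G)) =
            (S : Subgroup G).relIndex ((S : Subgroup G) ⊔ D) *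
              (Nat.card ↥((S : Subgroup G) ⊓ D) * Nat.card (S : Subgroup G)) := by
          calc _ = Nat.card D * Nat.card (S : Subgroup G) := by rw [← e2]; ring
            _ = Nat.card ↥((S : Subgroup G) ⊔ D) * Nat.card ↥((S : Subgroup G) ⊓ D) := by
              rw [e1]; ring
            _ = _ := by rw [← e3]; ring
        exact Nat.eq_of_mul_eq_mul_right (Nat.mul_pos hpos1 hpos2) this
      rw [inf_comm, e4]
      exact ⟨_, (Subgroup.relIndex_mul_index (le_sup_left : (S : Subgroup G) ≤ (S : Subgroup G) ⊔ D)).symm⟩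
    have h4 : (D ⊓ X).relIndex D = 1 := by
      obtain ⟨j, -, hj⟩ := (Nat.dvd_prime_pow hp).mp h1
      rcases Nat.eq_zero_or_pos j with h0 | hpos
      · rw [hj, h0, pow_zero]
      · exfalso
        have h5 : p ∣ (S : Subgroup G).index := by
          refine dvd_trans ?_ h2
          rw [hj]
          exact dvd_pow_self p (by omega)
        exact S.not_dvd_index h5
    have h6 : D ≤ D ⊓ X := Subgroup.relIndex_eq_one.mp h4
    exact h6.trans inf_le_right
  rw [← hDmap, eq_bot_iff]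
  rintro _ ⟨d, hd, rfl⟩
  rw [Subgroup.mem_bot, QuotientGroup.mk'_apply, QuotientGroup.eq_one_iff]
  rw [← hC]
  exact hDC hd

/-- The Thompson subgroup is normal. -/
theorem thompsonSubgroup_normal (p : ℕ) (G : Type u) [Group G] : (thompsonSubgroup p G).Normal := by
  constructor
  intro n hn g
  have h1 : (thompsonSubgroup p G).map (MulAut.conj g).toMonoidHom ≤ thompsonSubgroup p G := by
    unfold Cfsg.thompsonSubgroup
    rw [Subgroup.map_le_iff_le_comap]
    apply sSup_le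
    intro A hA
    rw [← Subgroup.map_le_iff_le_comap]
    exact le_sSup (Cfsg.Agent.H14.maxElAb_conj g hA)
  exact h1 ⟨n, hn, rfl⟩

/-- Failure of factorization: `J(G)` does not centralize `V`. -/
theorem not_thompson_le_centralizer [Finite G] {p : ℕ} [Fact p.Prime]
    (hnf : ¬ IsThompsonFactorizable p G) :
    ¬ thompsonSubgroup p G ≤ Subgroup.centralizer (Cfsg.Agent.H14.sylowCenterV p G : Set G) := by
  intro hJ
  apply hnf
  intro S g
  obtain ⟨c, hc, n, hn, hg⟩ := Cfsg.Agent.H14.factorizable_of_thompson_le_centralizer hJ S g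
  refine ⟨1, Subgroup.one_mem _, c, ?_, n, hn, by rw [one_mul]; exact hg⟩
  refine Subgroup.centralizer_le ?_ hc
  have := le_iSup (fun S : Sylow p G => omegaOne p ((S : Subgroup G) ⊓
    Subgroup.centralizer ((S : Subgroup G) : Set G))) S
  exact_mod_cast this

/-- Self-centralizing `p'`-core passes to normal subgroups of a `p`-solvable group with trivial `O_p`. -/
theorem hS1_of_normal {X : Type u} [Group X] [Finite X] {p : ℕ} [Fact p.Prime] (R N : Subgroup X)
    (hNR : N ≤ R) (hnorm : R ≤ Subgroup.normalizer (N : Set X)) (hsolv : IsPSolvable p ↥R)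
    (hcore : pCore p ↥R = ⊥) :
    Subgroup.centralizer (pPrimeCore p ↥N : Set ↥N) ≤ pPrimeCore p ↥N := by
  haveI hn : (N.subgroupOf R).Normal := Subgroup.normal_subgroupOf_of_le_normalizer hnorm
  have e : ↥(N.subgroupOf R) ≃* ↥N := Subgroup.subgroupOfEquivOfLe hNR
  apply Cfsg.Agent.H66.centralizer_pPrimeCore_le p
  · exact Cfsg.Agent.H14.isPSolvable_of_surjective p e.toMonoidHom e.surjective
      (Cfsg.Agent.H73.isPSolvable_subgroup hsolv (N.subgroupOf R))
  · have h1 := Cfsg.Agent.H53.map_pCore_subtype_le_of_normal (p := p) (N.subgroupOf R)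
    rw [hcore] at h1
    have h2 : pCore p ↥(N.subgroupOf R) = ⊥ := by
      rw [eq_bot_iff]
      intro x hx
      have h3 := h1 (Subgroup.mem_map_of_mem _ hx)
      rw [Subgroup.mem_bot] at h3 ⊢
      exact Subtype.ext h3
    rw [← Cfsg.Agent.H14.pCore_map_equiv p e, h2, Subgroup.map_bot]

/-- The image of `G` in the holomorph acts faithfully on the copy of `V`. -/
theorem range_faithful (V : Subgroup G) [V.Normal] :
    (psi V).range ⊓ Subgroup.centralizer ((Vh V : Subgroup (Hol V)) : Set (Hol V)) = ⊥ := by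
  rw [eq_bot_iff]
  rintro _ ⟨⟨g, rfl⟩, hx⟩
  rw [Subgroup.mem_bot]
  have hx' : psi V g ∈ Subgroup.centralizer ((Vh V : Subgroup (Hol V)) : Set (Hol V)) := hx
  rw [Subgroup.mem_centralizer_iff] at hx'
  rw [← MonoidHom.mem_ker, psi_ker, Subgroup.mem_centralizer_iff]
  intro v hv
  have h1 := hx' (SemidirectProduct.inl ⟨v, hv⟩) ⟨⟨v, hv⟩, rfl⟩
  have h2 : psi V g * SemidirectProduct.inl ⟨v, hv⟩ * (psi V g)⁻¹ =
      SemidirectProduct.inl (⟨v, hv⟩ : ↥V) := by
    rw [← h1, mul_inv_cancel_right]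
  rw [psi_conj] at h2
  have h3 := congrArg Subtype.val (SemidirectProduct.inl_injective h2)
  rw [MulAut.conjNormal_apply] at h3
  simp only at h3
  conv_lhs => rw [← h3]
  group

theorem range_isPSolvable [Finite G] {p : ℕ} [Fact p.Prime] (V : Subgroup G) [V.Normal]
    (hsep : IsPSolvable p G) : IsPSolvable p ↥(psi V).range :=
  Cfsg.Agent.H14.isPSolvable_of_surjective p (psi V).rangeRestrict
    (MonoidHom.rangeRestrict_surjective _) hsep

theorem range_pCore_eq_bot [Finite G] {p : ℕ} [Fact p.Prime] (V : Subgroup G) [V.Normal]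
    (hO : pCore p (G ⧸ Subgroup.centralizer (V : Set G)) = ⊥) :
    pCore p ↥(psi V).range = ⊥ := by
  have e : G ⧸ Subgroup.centralizer (V : Set G) ≃* ↥(psi V).range :=
    (QuotientGroup.quotientMulEquivOfEq (psi_ker V).symm).trans
      (QuotientGroup.quotientKerEquivRange (psi V))
  rw [← Cfsg.Agent.H14.pCore_map_equiv p e, hO, Subgroup.map_bot]

/-- The part of the structure theorem (S0617) used for S0618. -/
def Weak617 {X : Type u} [Group X] (p : ℕ) (H : Subgroup X) : Prop :=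
  (p = 2 ∨ p = 3) ∧ ∃ E : Subgroup X, E ≤ H ∧ H ≤ Subgroup.normalizer (E : Set X) ∧
    Nonempty (↥E ≃* Matrix.SpecialLinearGroup (Fin 2) (ZMod p))

/-- The conclusion of the structure theorem S0617 gives `Weak617`. -/
theorem weak_of_concl {G : Type u} [Group G] {p : ℕ} (V H : Subgroup G) (hH1 : H ≠ ⊥)
    (h : (p = 2 ∨ p = 3) ∧ (∀ E : {E : Subgroup G // ∃ A : Subgroup G, A ≤ H ∧ Cfsg.IsBestOffenderOn p V A ∧ ⁅V, A⁆ ≠ ⊥ ∧ (∀ B : Subgroup G, B ≤ A → Cfsg.IsBestOffenderOn p V B → ⁅V, B⁆ ≠ ⊥ → B = A) ∧ E = ⁅((Cfsg.pPrimeCore p ↥H).map H.subtype), A⁆ ⊔ A}, H ≤ Subgroup.normalizer ((E : Subgroup G) : Set G) ∧ Nonempty (↥(E : Subgroup G) ≃* Matrix.SpecialLinearGroup (Fin 2) (ZMod p)) ∧ Nat.card ↥(⁅V, (E : Subgroup G)⁆) = p ^ 2) ∧ iSupIndep (fun E : {E : Subgroup G // ∃ A : Subgroup G, A ≤ H ∧ Cfsg.IsBestOffenderOn p V A ∧ ⁅V, A⁆ ≠ ⊥ ∧ (∀ B : Subgroup G, B ≤ A → Cfsg.IsBestOffenderOn p V B → ⁅V, B⁆ ≠ ⊥ → B = A) ∧ E = ⁅((Cfsg.pPrimeCore p ↥H).map H.subtype),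 A⁆ ⊔ A} => (E : Subgroup G)) ∧ (⨆ E : {E : Subgroup G // ∃ A : Subgroup G, A ≤ H ∧ Cfsg.IsBestOffenderOn p V A ∧ ⁅V, A⁆ ≠ ⊥ ∧ (∀ B : Subgroup G, B ≤ A → Cfsg.IsBestOffenderOn p V B → ⁅V, B⁆ ≠ ⊥ → B = A) ∧ E = ⁅((Cfsg.pPrimeCore p ↥H).map H.subtype), A⁆ ⊔ A}, (E : Subgroup G)) = H ∧ iSupIndep (fun o : Option {E : Subgroup G // ∃ A : Subgroup G, A ≤ H ∧ Cfsg.IsBestOffenderOn p V A ∧ ⁅V, A⁆ ≠ ⊥ ∧ (∀ B : Subgroup G, B ≤ A → Cfsg.IsBestOffenderOn p V B → ⁅V, B⁆ ≠ ⊥ → B = A) ∧ E = ⁅((Cfsg.pPrimeCore p ↥H).map H.subtype), A⁆ ⊔ A} => o.elim (V ⊓ Subgroup.centralizer (H : Set G)) (fun E => ⁅V, (E : Subgroup G)⁆)) ∧ (V ⊓ Subgroup.centralizer (H : Set G)) ⊔ (⨆ E : {E : Subgroup G // ∃ A : Subgroup G, A ≤ H ∧ Cfsg.IsBestOffenderOn p V A ∧ ⁅V, A⁆ ≠ ⊥ ∧ (∀ B : Subgroup G, B ≤ A → Cfsg.IsBestOffenderOn p V B → ⁅V, B⁆ ≠ ⊥ → B = A) ∧ E = ⁅((Cfsg.pPrimeCore p ↥H).map H.subtype), A⁆ ⊔ A}, ⁅V, (E : Subgroup G)⁆) = V) : Weak617 p H := by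
  obtain ⟨hp, hE, -, hsup, -, -⟩ := h
  refine ⟨hp, ?_⟩
  by_cases hne : Nonempty {E : Subgroup G // ∃ A : Subgroup G, A ≤ H ∧ Cfsg.IsBestOffenderOn p V A ∧ ⁅V, A⁆ ≠ ⊥ ∧ (∀ B : Subgroup G, B ≤ A → Cfsg.IsBestOffenderOn p V B → ⁅V, B⁆ ≠ ⊥ → B = A) ∧ E = ⁅((Cfsg.pPrimeCore p ↥H).map H.subtype), A⁆ ⊔ A}
  · obtain ⟨E₀⟩ := hne
    obtain ⟨h1, h2, -⟩ := hE E₀
    exact ⟨E₀, (le_iSup _ E₀).trans hsup.le, h1, h2⟩
  · exfalso
    apply hH1
    rw [not_nonempty_iff] at hne
    exact hsup.symm.trans (iSup_of_empty _)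

theorem tfail_main [Finite G] {p : ℕ} [Fact p.Prime] (hsep : IsPSolvable p G)
    (hO : pPrimeCore p G = ⊥) (hnf : ¬ IsThompsonFactorizable p G)
    (V : Subgroup G) [V.Normal] (hVdef : V = Cfsg.Agent.H14.sylowCenterV p G)
    (h617 : IsElementaryAbelian p (Vh V) →
      (thompsonSubgroup p G).map (psi V) ≤
        Subgroup.normalizer ((Vh V : Subgroup (Hol V)) : Set (Hol V)) →
      (thompsonSubgroup p G).map (psi V) ⊓
        Subgroup.centralizer ((Vh V : Subgroup (Hol V)) : Set (Hol V)) = ⊥ →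
      Subgroup.centralizer (pPrimeCore p ↥((thompsonSubgroup p G).map (psi V)) :
          Set ↥((thompsonSubgroup p G).map (psi V))) ≤
        pPrimeCore p ↥((thompsonSubgroup p G).map (psi V)) →
      (thompsonSubgroup p G).map (psi V) = ⨆ A : {A : Subgroup (Hol V) //
        A ≤ (thompsonSubgroup p G).map (psi V) ∧ IsBestOffenderOn p (Vh V) A}, (A : Subgroup (Hol V)) →
      (thompsonSubgroup p G).map (psi V) ≠ ⊥ → Weak617 p ((thompsonSubgroup p G).map (psi V))) :
    (p = 2 ∨ p = 3) ∧ ∃ E : Subgroup G, Subgroup.centralizer (V : Set G) ≤ E ∧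
      E ≤ thompsonSubgroup p G ⊔ Subgroup.centralizer (V : Set G) ∧
      thompsonSubgroup p G ⊔ Subgroup.centralizer (V : Set G) ≤ Subgroup.normalizer (E : Set G) ∧
      ∃ hn : ((Subgroup.centralizer (V : Set G)).subgroupOf E).Normal,
        Nonempty ((↥E ⧸ (Subgroup.centralizer (V : Set G)).subgroupOf E) ≃*
          Matrix.SpecialLinearGroup (Fin 2) (ZMod p)) := by
  have hV : IsElementaryAbelian p V := by rw [hVdef]; exact sylowCenterV_elemAb hsep hO
  have hO' := pCore_quotient_eq_bot (p := p) V hVdef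
  haveI hJn := thompsonSubgroup_normal p G
  have hV' := Vh_elemAb V hV
  have hHV : (thompsonSubgroup p G).map (psi V) ≤
      Subgroup.normalizer ((Vh V : Subgroup (Hol V)) : Set (Hol V)) := by
    haveI := Vh_normal V
    rw [Subgroup.normalizer_eq_top]
    exact le_top
  have hHR : (thompsonSubgroup p G).map (psi V) ≤ (psi V).range := by
    rintro _ ⟨j, -, rfl⟩
    exact ⟨j, rfl⟩
  have hf : (thompsonSubgroup p G).map (psi V) ⊓
      Subgroup.centralizer ((Vh V : Subgroup (Hol V)) : Set (Hol V)) = ⊥ := by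
    rw [eq_bot_iff, ← range_faithful V]
    exact inf_le_inf_right _ hHR
  have hnorm : (psi V).range ≤
      Subgroup.normalizer (((thompsonSubgroup p G).map (psi V) : Subgroup (Hol V)) : Set (Hol V)) := by
    rintro _ ⟨g, rfl⟩
    rw [Subgroup.mem_normalizer_iff]
    intro h
    constructor
    · rintro ⟨j, hj, rfl⟩
      refine ⟨g * j * g⁻¹, hJn.conj_mem j hj g, ?_⟩
      simp
    · rintro ⟨j, hj, hjh⟩
      refine ⟨g⁻¹ * j * g, ?_, ?_⟩
      · have := hJn.conj_mem j hj g⁻¹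
        simpa using this
      · rw [map_mul, map_mul, hjh, map_inv]
        group
  have hS1 := hS1_of_normal (p := p) (psi V).range ((thompsonSubgroup p G).map (psi V)) hHR hnorm
    (range_isPSolvable V hsep) (range_pCore_eq_bot V hO')
  have hS3 : (thompsonSubgroup p G).map (psi V) = ⨆ A : {A : Subgroup (Hol V) //
      A ≤ (thompsonSubgroup p G).map (psi V) ∧ IsBestOffenderOn p (Vh V) A}, (A : Subgroup (Hol V)) := by
    apply le_antisymm
    · conv_lhs => unfold Cfsg.thompsonSubgroup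
      rw [Subgroup.map_le_iff_le_comap]
      apply sSup_le
      intro A hA
      rw [← Subgroup.map_le_iff_le_comap]
      exact le_iSup (fun A : {A : Subgroup (Hol V) //
        A ≤ (thompsonSubgroup p G).map (psi V) ∧ IsBestOffenderOn p (Vh V) A} => (A : Subgroup (Hol V)))
        ⟨A.map (psi V), Subgroup.map_mono (le_sSup hA), bestOffender_map V hV hA⟩
    · exact iSup_le fun A => A.2.1
  have hH1 : (thompsonSubgroup p G).map (psi V) ≠ ⊥ := by
    intro h
    apply not_thompson_le_centralizer hnf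
    rw [← hVdef, ← psi_ker]
    intro j hj
    rw [MonoidHom.mem_ker]
    have : psi V j ∈ (thompsonSubgroup p G).map (psi V) := Subgroup.mem_map_of_mem _ hj
    rw [h, Subgroup.mem_bot] at this
    exact this
  obtain ⟨hp23, E₁, hE₁H, hHE₁, ⟨iso⟩⟩ := h617 hV' hHV hf hS1 hS3 hH1
  refine ⟨hp23, E₁.comap (psi V), ?_, ?_, ?_, ?_⟩
  · intro x hx
    rw [Subgroup.mem_comap]
    have : x ∈ (psi V).ker := by rw [psi_ker]; exact hx
    rw [MonoidHom.mem_ker.mp this]
    exact E₁.one_mem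
  · intro g hg
    rw [Subgroup.mem_comap] at hg
    obtain ⟨j, hj, hjg⟩ := hE₁H hg
    have hk : j⁻¹ * g ∈ Subgroup.centralizer (V : Set G) := by
      rw [← psi_ker, MonoidHom.mem_ker, map_mul, map_inv, hjg, inv_mul_cancel]
    have : g = j * (j⁻¹ * g) := by group
    rw [this]
    exact Subgroup.mul_mem_sup hj hk
  · apply sup_le
    · intro j hj
      have h1 : psi V j ∈ Subgroup.normalizer ((E₁ : Subgroup (Hol V)) : Set (Hol V)) :=
        hHE₁ (Subgroup.mem_map_of_mem _ hj)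
      exact Subgroup.le_normalizer_comap (psi V) h1
    · refine le_trans ?_ Subgroup.le_normalizer
      intro x hx
      rw [Subgroup.mem_comap]
      have : x ∈ (psi V).ker := by rw [psi_ker]; exact hx
      rw [MonoidHom.mem_ker.mp this]
      exact E₁.one_mem
  · refine ⟨inferInstance, ?_⟩
    let f : ↥(E₁.comap (psi V)) →* ↥E₁ :=
      ((psi V).comp (E₁.comap (psi V)).subtype).codRestrict E₁ (fun x => x.2)
    have hsurj : Function.Surjective f := by
      rintro ⟨e, he⟩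
      obtain ⟨j, -, rfl⟩ := hE₁H he
      exact ⟨⟨j, he⟩, rfl⟩
    have hker : (Subgroup.centralizer (V : Set G)).subgroupOf (E₁.comap (psi V)) = f.ker := by
      ext x
      rw [Subgroup.mem_subgroupOf, MonoidHom.mem_ker, ← psi_ker, MonoidHom.mem_ker]
      constructor
      · intro h
        exact Subtype.ext h
      · intro h
        exact congrArg Subtype.val h
    exact ⟨(QuotientGroup.quotientMulEquivOfEq hker).trans
      ((QuotientGroup.quotientKerEquivOfSurjective f hsurj).trans iso)⟩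

/-- The centralizer of a union of subgroups is the centralizer of their join. -/
theorem centralizer_iSup_coe {ι : Sort*} (K : ι → Subgroup G) :
    Subgroup.centralizer (⨆ i, (K i : Set G)) = Subgroup.centralizer ((⨆ i, K i : Subgroup G) : Set G) := by
  ext g
  rw [Subgroup.mem_centralizer_iff, Subgroup.mem_centralizer_iff]
  constructor
  · intro h x hx
    have hle : (⨆ i, K i) ≤ Subgroup.centralizer ({g} : Set G) := by
      apply iSup_le
      intro i y hy
      rw [Subgroup.mem_centralizer_iff]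
      intro z hz
      rw [Set.mem_singleton_iff] at hz
      subst hz
      have := h y (by rw [Set.iSup_eq_iUnion]; exact Set.mem_iUnion.mpr ⟨i, hy⟩)
      exact this.symm
    have h2 := hle hx
    rw [Subgroup.mem_centralizer_iff] at h2
    exact (h2 g (Set.mem_singleton g)).symm
  · intro h x hx
    rw [Set.iSup_eq_iUnion] at hx
    obtain ⟨i, hi⟩ := Set.mem_iUnion.mp hx
    exact h x ((le_iSup K i) hi)

end Cfsg.Agent.H14.Holo
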