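import Cfsg.Agent.H19.SxDefs
import Cfsg.Agent.S0617
import Cfsg.Agent.H14.TFail

set_option autoImplicit false
set_option linter.unusedVariables false

/-! SX-STRUCT (helper14, for helper19's EXIST project, S2948 / S2949): the consequence of
Glauberman's structure theorem S0617 in the holomorph of `V`: for a largest elementary abelian
2-subgroup `A` of `X` not centralizing `V` there are `a ∈ A` and `k ∈ J(X)` of order 3 modulo
`C_X(V)`, inverted by `a` modulo `C_X(V)`, with `[V, k]` inside a four-group. -/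

open Cfsg
open scoped commutatorElement Pointwise

namespace Cfsg.Agent.H14.Sx

open Cfsg.Agent.H14.Holo

universe u

/-- An element of order 3 in `SL(2,2)`. -/
def y0 : Matrix.SpecialLinearGroup (Fin 2) (ZMod 2) :=
  ⟨!![0, 1; 1, 1], by decide⟩

theorem sl22_facts : y0 ≠ 1 ∧ y0 ^ 3 = 1 ∧
    (∀ b : Matrix.SpecialLinearGroup (Fin 2) (ZMod 2), b ≠ 1 → b * b = 1 →
      b * y0 * b⁻¹ = y0⁻¹) ∧
    (∀ z : Matrix.SpecialLinearGroup (Fin 2) (ZMod 2), z ≠ 1 → z ^ 3 = 1 →
      z = y0 ∨ z = y0⁻¹) := by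
  decide

/-- The same facts in any group isomorphic to `SL(2,2)`. -/
theorem s3_facts {E : Type*} [Group E]
    (e : E ≃* Matrix.SpecialLinearGroup (Fin 2) (ZMod 2)) :
    ∃ y : E, y ≠ 1 ∧ y ^ 3 = 1 ∧ (∀ b : E, b ≠ 1 → b * b = 1 → b * y * b⁻¹ = y⁻¹) ∧
      (∀ z : E, z ≠ 1 → z ^ 3 = 1 → z = y ∨ z = y⁻¹) := by
  obtain ⟨h1, h2, h3, h4⟩ := sl22_facts
  refine ⟨e.symm y0, ?_, ?_, ?_, ?_⟩
  · intro h
    apply h1
    have := congrArg e h
    simpa using this
  · rw [← map_pow, h2, map_one]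
  · intro b hb hbb
    apply e.injective
    rw [map_mul, map_mul, map_inv, map_inv, e.apply_symm_apply]
    apply h3
    · intro h
      apply hb
      apply e.injective
      rw [h, map_one]
    · rw [← map_mul, hbb, map_one]
  · intro z hz hz3
    have := h4 (e z) (by intro h; apply hz; apply e.injective; rw [h, map_one])
      (by rw [← map_pow, hz3, map_one])
    rcases this with h | h
    · left
      apply e.injective
      rw [h, e.apply_symm_apply]
    · right
      apply e.injective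
      rw [h, map_inv, e.apply_symm_apply]

/-- The holomorph-level statement. -/
theorem struct_core {Y : Type u} [Group Y] [Finite Y] (V H : Subgroup Y)
    (hV : IsElementaryAbelian 2 V) (hHV : H ≤ Subgroup.normalizer (V : Set Y))
    (hf : H ⊓ Subgroup.centralizer (V : Set Y) = ⊥)
    (hS1 : Subgroup.centralizer (pPrimeCore 2 ↥H : Set ↥H) ≤ pPrimeCore 2 ↥H)
    (hS3 : H = ⨆ A : {A : Subgroup Y // A ≤ H ∧ IsBestOffenderOn 2 V A}, (A : Subgroup Y))
    (A' : Subgroup Y) (hA'H : A' ≤ H) (hA'best : IsBestOffenderOn 2 V A')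
    (hA'ne : ⁅V, A'⁆ ≠ ⊥) (hA'2 : ∀ b ∈ A', b * b = 1) :
    ∃ b ∈ A', ∃ y ∈ H, y ≠ 1 ∧ y ^ 3 = 1 ∧ b * y * b⁻¹ = y⁻¹ ∧
      (∀ g ∈ H, g * y * g⁻¹ = y ∨ g * y * g⁻¹ = y⁻¹) ∧
      ∃ W : Subgroup Y, W ≤ V ∧ Nat.card ↥W = 4 ∧ ∀ v ∈ V, y * v * y⁻¹ * v⁻¹ ∈ W := by
  haveI : Fact (Nat.Prime 2) := ⟨Nat.prime_two⟩
  have hH1 : H ≠ ⊥ := by
    intro h0
    apply hA'ne
    rw [h0] at hA'H
    rw [le_bot_iff.mp hA'H]
    exact Subgroup.commutator_bot_right V
  -- a minimal best offender inside `A'`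
  obtain ⟨B, ⟨hBA, hBbest, hBne⟩, hBmin⟩ : ∃ B : Subgroup Y,
      (B ≤ A' ∧ IsBestOffenderOn 2 V B ∧ ⁅V, B⁆ ≠ ⊥) ∧
      ∀ B' : Subgroup Y, (B' ≤ A' ∧ IsBestOffenderOn 2 V B' ∧ ⁅V, B'⁆ ≠ ⊥) → B' ≤ B →
        B ≤ B' := by
    have hfin : Set.Finite {B : Subgroup Y | B ≤ A' ∧ IsBestOffenderOn 2 V B ∧ ⁅V, B⁆ ≠ ⊥} :=
      Set.toFinite _
    obtain ⟨B, hB1, hB2⟩ := hfin.exists_minimal ⟨A', le_rfl, hA'best, hA'ne⟩
    exact ⟨B, hB1, fun B' hB' hle => hB2 hB' hle⟩
  have hBH : B ≤ H := hBA.trans hA'H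
  have hBmin' : ∀ B' : Subgroup Y, B' ≤ B → IsBestOffenderOn 2 V B' → ⁅V, B'⁆ ≠ ⊥ →
      B' = B := fun B' h1 h2 h3 => le_antisymm h1 (hBmin B' ⟨h1.trans hBA, h2, h3⟩ h1)
  obtain ⟨-, hE, -, -, -, -⟩ := Cfsg.Agent.S0617.result V H hV hHV hf hS1 hS3 hH1
  obtain ⟨hEnorm, ⟨e⟩, hEcard⟩ := hE ⟨⁅((Cfsg.pPrimeCore 2 ↥H).map H.subtype), B⁆ ⊔ B, B, hBH,
    hBbest, hBne, hBmin', rfl⟩
  simp only at hEnorm e hEcard
  have hEH : ⁅((Cfsg.pPrimeCore 2 ↥H).map H.subtype), B⁆ ⊔ B ≤ H := by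
    refine sup_le ?_ hBH
    rw [Subgroup.commutator_le]
    intro g1 hg1 g2 hg2
    have h1 : g1 ∈ H := Subgroup.map_subtype_le _ hg1
    have h2 : g2 ∈ H := hBH hg2
    exact H.mul_mem (H.mul_mem (H.mul_mem h1 h2) (H.inv_mem h1)) (H.inv_mem h2)
  -- an involution `b ∈ B`
  obtain ⟨b, hbB, hb1⟩ : ∃ b ∈ B, b ≠ 1 := by
    by_contra hcon
    push Not at hcon
    apply hBne
    have : B = ⊥ := by
      rw [eq_bot_iff]
      intro x hx
      rw [Subgroup.mem_bot]
      exact hcon x hx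
    rw [this]
    exact Subgroup.commutator_bot_right V
  have hbb : b * b = 1 := hA'2 b (hBA hbB)
  have hbE : b ∈ ⁅((Cfsg.pPrimeCore 2 ↥H).map H.subtype), B⁆ ⊔ B :=
    (le_sup_right : B ≤ _) hbB
  obtain ⟨y, hy1, hy3, hyb, hyz⟩ := s3_facts e
  refine ⟨b, hBA hbB, (y : Y), hEH y.2, ?_, ?_, ?_, ?_, ?_⟩
  · intro h
    apply hy1
    exact Subtype.ext h
  · have := congrArg Subtype.val hy3
    simpa using this
  · have h := hyb ⟨b, hbE⟩ (by intro h; apply hb1; exact congrArg Subtype.val h)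
      (Subtype.ext hbb)
    have := congrArg Subtype.val h
    simpa using this
  · intro g hg
    have hgn := hEnorm hg
    rw [Subgroup.mem_normalizer_iff] at hgn
    have hz : g * (y : Y) * g⁻¹ ∈ ⁅((Cfsg.pPrimeCore 2 ↥H).map H.subtype), B⁆ ⊔ B :=
      (hgn (y : Y)).mp y.2
    have h := hyz ⟨g * (y : Y) * g⁻¹, hz⟩
      (by
        intro h
        apply hy1
        have h' : g * (y : Y) * g⁻¹ = 1 := congrArg Subtype.val h
        apply Subtype.ext
        rw [Subgroup.coe_one]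
        have : (y : Y) = g⁻¹ * (g * (y : Y) * g⁻¹) * g := by group
        rw [this, h']
        group)
      (by
        apply Subtype.ext
        rw [Subgroup.coe_pow, Subgroup.coe_one]
        show (g * (y : Y) * g⁻¹) ^ 3 = 1
        rw [conj_pow]
        have : ((y : Y)) ^ 3 = 1 := by
          have := congrArg Subtype.val hy3
          simpa using this
        rw [this]
        group)
    rcases h with h | h
    · left
      exact congrArg Subtype.val h
    · right
      have := congrArg Subtype.val h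
      simpa using this
  · refine ⟨⁅V, ⁅((Cfsg.pPrimeCore 2 ↥H).map H.subtype), B⁆ ⊔ B⁆, ?_, ?_, ?_⟩
    · rw [Subgroup.commutator_le]
      intro v hv g hg
      have hgn := hHV (hEH hg)
      rw [Subgroup.mem_normalizer_iff] at hgn
      have h1 : g * v⁻¹ * g⁻¹ ∈ V := (hgn v⁻¹).mp (V.inv_mem hv)
      have : ⁅v, g⁆ = v * (g * v⁻¹ * g⁻¹) := by
        rw [commutatorElement_def]
        group
      rw [this]
      exact V.mul_mem hv h1
    · exact hEcard.trans (by norm_num)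
    · intro v hv
      have h1 : ⁅(y : Y), v⁆ ∈ ⁅⁅((Cfsg.pPrimeCore 2 ↥H).map H.subtype), B⁆ ⊔ B, V⁆ :=
        Subgroup.commutator_mem_commutator y.2 hv
      rw [Subgroup.commutator_comm] at h1
      rw [commutatorElement_def] at h1
      exact h1

theorem struct : Cfsg.Agent.H19.Sx.StStruct.{u} := by
  intro X _ _ V _ hV hsep hO A hA hAC
  haveI : Fact (Nat.Prime 2) := ⟨Nat.prime_two⟩
  haveI hJn := thompsonSubgroup_normal 2 X
  have hV' := Vh_elemAb V hV
  have hHV : (thompsonSubgroup 2 X).map (psi V) ≤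
      Subgroup.normalizer ((Vh V : Subgroup (Hol V)) : Set (Hol V)) := by
    haveI := Vh_normal V
    rw [Subgroup.normalizer_eq_top]
    exact le_top
  have hHR : (thompsonSubgroup 2 X).map (psi V) ≤ (psi V).range := by
    rintro _ ⟨j, -, rfl⟩
    exact ⟨j, rfl⟩
  have hf : (thompsonSubgroup 2 X).map (psi V) ⊓
      Subgroup.centralizer ((Vh V : Subgroup (Hol V)) : Set (Hol V)) = ⊥ := by
    rw [eq_bot_iff, ← range_faithful V]
    exact inf_le_inf_right _ hHR
  have hnorm : (psi V).range ≤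
      Subgroup.normalizer (((thompsonSubgroup 2 X).map (psi V) : Subgroup (Hol V)) :
        Set (Hol V)) := by
    rintro _ ⟨g, rfl⟩
    rw [Subgroup.mem_normalizer_iff]
    intro h
    constructor
    · rintro ⟨j, hj, rfl⟩
      refine ⟨g * j * g⁻¹, hJn.conj_mem j hj g, ?_⟩
      simp
    · rintro ⟨j, hj, hjh⟩
      refine ⟨g⁻¹ * j * g, ?_, ?_⟩
      · have := hJn.conj_mem j hj g⁻¹
        simpa using this
      · rw [map_mul, map_mul, hjh, map_inv]
        group
  have hS1 := hS1_of_normal (p := 2) (psi V).range ((thompsonSubgroup 2 X).map (psi V)) hHR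
    hnorm (range_isPSolvable V hsep) (range_pCore_eq_bot V hO)
  have hS3 : (thompsonSubgroup 2 X).map (psi V) = ⨆ A : {A : Subgroup (Hol V) //
      A ≤ (thompsonSubgroup 2 X).map (psi V) ∧ IsBestOffenderOn 2 (Vh V) A},
      (A : Subgroup (Hol V)) := by
    apply le_antisymm
    · conv_lhs => unfold Cfsg.thompsonSubgroup
      rw [Subgroup.map_le_iff_le_comap]
      apply sSup_le
      intro A hA
      rw [← Subgroup.map_le_iff_le_comap]
      exact le_iSup (fun A : {A : Subgroup (Hol V) //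
        A ≤ (thompsonSubgroup 2 X).map (psi V) ∧ IsBestOffenderOn 2 (Vh V) A} =>
          (A : Subgroup (Hol V)))
        ⟨A.map (psi V), Subgroup.map_mono (le_sSup hA), bestOffender_map V hV hA⟩
    · exact iSup_le fun A => A.2.1
  have hAJ : A ≤ thompsonSubgroup 2 X := le_sSup hA
  have hA'H : A.map (psi V) ≤ (thompsonSubgroup 2 X).map (psi V) := Subgroup.map_mono hAJ
  have hA'ne : ⁅Vh V, A.map (psi V)⁆ ≠ ⊥ := by
    intro h0
    apply hAC
    intro a ha
    rw [← psi_ker, MonoidHom.mem_ker]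
    have h1 : psi V a ∈ (thompsonSubgroup 2 X).map (psi V) ⊓
        Subgroup.centralizer ((Vh V : Subgroup (Hol V)) : Set (Hol V)) := by
      refine Subgroup.mem_inf.mpr ⟨hA'H (Subgroup.mem_map_of_mem _ ha), ?_⟩
      rw [Subgroup.mem_centralizer_iff]
      intro v hv
      have h2 : ⁅v, psi V a⁆ ∈ ⁅Vh V, A.map (psi V)⁆ :=
        Subgroup.commutator_mem_commutator hv (Subgroup.mem_map_of_mem _ ha)
      rw [h0, Subgroup.mem_bot, commutatorElement_eq_one_iff_mul_comm] at h2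
      exact h2
    rw [hf] at h1
    exact h1
  have hA'2 : ∀ b ∈ A.map (psi V), b * b = 1 := by
    rintro _ ⟨a, ha, rfl⟩
    rw [← map_mul]
    have h2 := hA.1.2 a ha
    rw [pow_two] at h2
    rw [h2, map_one]
  obtain ⟨b, hb, y, hy, hy1, hy3, hby, hgy, W, hWV, hW4, hWy⟩ :=
    struct_core (Vh V) _ hV' hHV hf hS1 hS3 (A.map (psi V)) hA'H (bestOffender_map V hV hA)
      hA'ne hA'2
  obtain ⟨a, ha, rfl⟩ := hb
  obtain ⟨k, hk, rfl⟩ := hy
  refine ⟨a, ha, k, hk, ?_, ?_, ?_, ?_, ?_⟩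
  · intro hkC
    apply hy1
    rw [← psi_ker, MonoidHom.mem_ker] at hkC
    exact hkC
  · rw [← psi_ker, MonoidHom.mem_ker, map_pow]
    exact hy3
  · rw [← psi_ker, MonoidHom.mem_ker, map_mul, map_mul, map_mul, map_inv, hby]
    group
  · intro g hg
    rcases hgy (psi V g) (Subgroup.mem_map_of_mem _ hg) with h | h
    · left
      rw [← psi_ker, MonoidHom.mem_ker, map_mul, map_mul, map_mul, map_inv, map_inv, h]
      group
    · right
      rw [← psi_ker, MonoidHom.mem_ker, map_mul, map_mul, map_mul, map_inv, h]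
      group
  · refine ⟨(W.comap (SemidirectProduct.inl : ↥V →* Hol V)).map V.subtype, ?_, ?_⟩
    · have e1 : Nat.card ↥((W.comap (SemidirectProduct.inl : ↥V →* Hol V)).map V.subtype) =
          Nat.card ↥(W.comap (SemidirectProduct.inl : ↥V →* Hol V)) :=
        Nat.card_congr ((W.comap (SemidirectProduct.inl : ↥V →* Hol V)).equivMapOfInjective _
          V.subtype_injective).symm.toEquiv
      have e2 : Nat.card ↥(W.comap (SemidirectProduct.inl : ↥V →* Hol V)) = Nat.card ↥W := by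
        apply Nat.card_congr
        refine Equiv.ofBijective
          (fun v : ↥(W.comap (SemidirectProduct.inl : ↥V →* Hol V)) =>
            (⟨SemidirectProduct.inl (v : ↥V), Subgroup.mem_comap.mp v.2⟩ : ↥W)) ⟨?_, ?_⟩
        · intro v1 v2 h12
          have h3 : (SemidirectProduct.inl (v1 : ↥V) : Hol V) =
              SemidirectProduct.inl (v2 : ↥V) := congrArg Subtype.val h12
          exact Subtype.ext (SemidirectProduct.inl_injective h3)
        · intro w
          obtain ⟨v, hv⟩ := hWV w.2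
          refine ⟨⟨v, ?_⟩, ?_⟩
          · rw [Subgroup.mem_comap, hv]
            exact w.2
          · exact Subtype.ext hv
      rw [e1, e2, hW4]
    · intro v hv
      have h1 := hWy (SemidirectProduct.inl (⟨v, hv⟩ : ↥V)) ⟨_, rfl⟩
      rw [psi_conj, ← map_inv, ← map_mul] at h1
      refine ⟨MulAut.conjNormal k (⟨v, hv⟩ : ↥V) * (⟨v, hv⟩ : ↥V)⁻¹, ?_, ?_⟩
      · exact h1
      · rw [Subgroup.coe_subtype, Subgroup.coe_mul, MulAut.conjNormal_apply, Subgroup.coe_inv]

example : Cfsg.Agent.H19.Sx.StStruct.{u} := struct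

end Cfsg.Agent.H14.Sx

#print axioms Cfsg.Agent.H14.Sx.struct
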