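import Mathlib
import Cfsg.Prelude.Def_JComponents
import Cfsg.Prelude.Def_Local
import Cfsg.Prelude.Def_PLocal

/-!
# The "pure involution" step for S2944 (helper14, for helper52's project): piece statements

`StPure` (group level): under the hypotheses of Glauberman's structure theorem S0617 for
`J(X)` acting on the normal elementary abelian 2-subgroup `V` (as in `H52.Sn.StGL`), if
`k ∈ J(X)` has odd order, does not centralize `V` and `[V, k]` lies in a subgroup of order 4,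
then some `j ∈ J(X)` with `j² ∈ C := C_X(V)` inverts `k` modulo `C`, and `[n, j] ∈ ⟨k⟩ C`
for every `n` normalizing `⟨k⟩ C`.

It is proved from the holomorph-level statement `StCore` (the structure `H = E₁ × … × E_r`,
`E_i ≅ SL(2,2)`, `V = C_V(H) × [V,E₁] × … × [V,E_r]` delivered by S0617), which in turn uses the
four-group lemma `StFour`.
-/

set_option autoImplicit false
open Cfsg

namespace Cfsg.Agent.H14.Sp

universe u

/-- SP-FOUR: automorphisms of a four-group `W` induced by conjugation.  `x` of odd order acting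
non-trivially, `t`, `t'` involutions acting non-trivially.  Then `x` is fixed-point-free on `W`,
`w ↦ x w x⁻¹ w⁻¹` is onto `W`, `t` inverts `x` on `W`, and `t' t⁻¹` acts on `W` as a power of
`x`. -/
def StFour : Prop := ∀ {Y : Type u} [Group Y] (W : Subgroup Y) (x t t' : Y),
  Nat.card ↥W = 4 → (∀ w ∈ W, w * w = 1) →
  (∀ w ∈ W, x * w * x⁻¹ ∈ W) → (∀ w ∈ W, t * w * t⁻¹ ∈ W) → (∀ w ∈ W, t' * w * t'⁻¹ ∈ W) →
  Odd (orderOf x) → t * t = 1 → t' * t' = 1 →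
  (∃ w ∈ W, x * w * x⁻¹ ≠ w) → (∃ w ∈ W, t * w * t⁻¹ ≠ w) → (∃ w ∈ W, t' * w * t'⁻¹ ≠ w) →
  (∀ w ∈ W, x * w * x⁻¹ = w → w = 1) ∧
  (∀ w ∈ W, ∃ u ∈ W, x * u * x⁻¹ * u⁻¹ = w) ∧
  (∀ w ∈ W, (t * x * t⁻¹ * x) * w * (t * x * t⁻¹ * x)⁻¹ = w) ∧
  ∃ m : ℕ, ∀ w ∈ W, (t' * t⁻¹) * w * (t' * t⁻¹)⁻¹ = x ^ m * w * (x ^ m)⁻¹

/-- SP-CORE: the pure involution, from the conclusion of S0617 (in any finite group `Y`; used
with `Y` the holomorph of `V`).  `H` acts faithfully on the elementary abelian 2-group `V`,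
`H = ⨆ E i` with independent `H`-invariant `E i ≅ SL(2,2)`, `|[V, E i]| = 4`,
`V = C_V(H) × ∏ [V, E i]`.  If `x ∈ H` has odd order, `x ≠ 1` and `[V, x]` lies in a subgroup
of order at most 4, then there is an involution `t ∈ H` inverting `x` such that
`[y, t] ∈ ⟨x⟩` for every `y` normalizing `H`, `V` and `⟨x⟩`. -/
def StCore : Prop := ∀ {Y : Type u} [Group Y] [Finite Y] {ι : Type u} (V H : Subgroup Y)
    (E : ι → Subgroup Y),
  IsElementaryAbelian 2 V →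
  H ≤ Subgroup.normalizer (V : Set Y) → H ⊓ Subgroup.centralizer (V : Set Y) = ⊥ →
  (∀ i, H ≤ Subgroup.normalizer ((E i : Subgroup Y) : Set Y)) →
  (∀ i, Nonempty (↥(E i) ≃* Matrix.SpecialLinearGroup (Fin 2) (ZMod 2))) →
  (∀ i, Nat.card ↥(⁅V, E i⁆) = 4) →
  iSupIndep E → (⨆ i, E i) = H →
  iSupIndep (fun o : Option ι => o.elim (V ⊓ Subgroup.centralizer (H : Set Y))
    (fun i => ⁅V, E i⁆)) →
  (V ⊓ Subgroup.centralizer (H : Set Y)) ⊔ (⨆ i, ⁅V, E i⁆) = V →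
  ∀ x ∈ H, Odd (orderOf x) → x ≠ 1 →
  ∀ W : Subgroup Y, Nat.card ↥W ≤ 4 → (∀ v ∈ V, x * v * x⁻¹ * v⁻¹ ∈ W) →
  ∃ t ∈ H, t * t = 1 ∧ t * x * t⁻¹ = x⁻¹ ∧
    ∀ y : Y, y ∈ Subgroup.normalizer (H : Set Y) → y ∈ Subgroup.normalizer (V : Set Y) →
      (y * x * y⁻¹ = x ∨ y * x * y⁻¹ = x⁻¹) → ∃ m : ℕ, y * t * y⁻¹ * t⁻¹ = x ^ m

/-- SP-PURE: the pure involution at the group level (same hypotheses as `H52.Sn.StGL`). -/
def StPure : Prop := ∀ {X : Type u} [Group X] [Finite X] (V : Subgroup X) [V.Normal],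
  IsElementaryAbelian 2 V → IsPSolvable 2 X →
  pCore 2 (X ⧸ Subgroup.centralizer (V : Set X)) = ⊥ →
  ∀ k ∈ thompsonSubgroup 2 X, Odd (orderOf k) → k ∉ Subgroup.centralizer (V : Set X) →
  ∀ W : Subgroup X, Nat.card ↥W = 4 → (∀ v ∈ V, k * v * k⁻¹ * v⁻¹ ∈ W) →
  ∃ j ∈ thompsonSubgroup 2 X, j * j ∈ Subgroup.centralizer (V : Set X) ∧
    j * k * j⁻¹ * k ∈ Subgroup.centralizer (V : Set X) ∧
    ∀ n : X, (n * k * n⁻¹ * k⁻¹ ∈ Subgroup.centralizer (V : Set X) ∨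
        n * k * n⁻¹ * k ∈ Subgroup.centralizer (V : Set X)) →
      ∃ m : ℕ, n * j * n⁻¹ * j⁻¹ * k ^ m ∈ Subgroup.centralizer (V : Set X)

end Cfsg.Agent.H14.Sp
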