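import Cfsg.Agent.H14.SpDefs
import Cfsg.Agent.H53.SpCore
import Cfsg.Agent.H80.SpFour
import Cfsg.Agent.S0617
import Cfsg.Agent.H14.TFail

set_option autoImplicit false
set_option linter.unusedVariables false
set_option linter.style.haveILetI false

/-! The S0617 structural input "(S)" for the uniqueness of the maximal 2-local overgroup
(helper14, for helper58's S2950 project UQ): if `k ∈ J(X)` has odd order, acts nontrivially on the
normal elementary abelian 2-subgroup `V` and `[V, k]` lies in a subgroup `W` of order 4, then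
`W = [V, E_i]` for one factor `E_i` of Glauberman's structure theorem; hence `W ≤ V` and `J(X)`
normalizes `W`. -/

open Cfsg
open scoped commutatorElement Pointwise

namespace Cfsg.Agent.H14.Uq

open Cfsg.Agent.H14.Holo Cfsg.Agent.H14.Sp
open Cfsg.Agent.H53.Sp (cent_iff conj_comm_mem faithful_aux)

universe u

/-- Holomorph level (first half of helper53's SP-CORE): a subgroup `W` of order at most 4
containing `[V, x]`, `x ≠ 1` of odd order in `H`, is one of the planes `[V, E i]`. -/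
theorem exists_factor {Y : Type u} [Group Y] [Finite Y] {ι : Type u} (V H : Subgroup Y)
    (E : ι → Subgroup Y) (hVe : IsElementaryAbelian 2 V)
    (hHV : H ≤ Subgroup.normalizer (V : Set Y))
    (hfaith : H ⊓ Subgroup.centralizer (V : Set Y) = ⊥)
    (hEn : ∀ i, H ≤ Subgroup.normalizer ((E i : Subgroup Y) : Set Y))
    (hEiso : ∀ i, Nonempty (↥(E i) ≃* Matrix.SpecialLinearGroup (Fin 2) (ZMod 2)))
    (hWcard : ∀ i, Nat.card ↥(⁅V, E i⁆) = 4)
    (hEind : iSupIndep E) (hEsup : (⨆ i, E i) = H)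
    (hVind : iSupIndep (fun o : Option ι => o.elim (V ⊓ Subgroup.centralizer (H : Set Y))
      (fun i => ⁅V, E i⁆)))
    (hVsup : (V ⊓ Subgroup.centralizer (H : Set Y)) ⊔ (⨆ i, ⁅V, E i⁆) = V)
    (x : Y) (hxH : x ∈ H) (hxodd : Odd (orderOf x)) (hx1 : x ≠ 1)
    (W : Subgroup Y) (hWc : Nat.card ↥W ≤ 4) (hxW : ∀ v ∈ V, x * v * x⁻¹ * v⁻¹ ∈ W) :
    ∃ i, ⁅V, E i⁆ = W ∧ ∀ h ∈ H, ∀ w ∈ ⁅V, E i⁆, h * w * h⁻¹ ∈ ⁅V, E i⁆ := by
  classical
  have h4 : StFour.{u} := Cfsg.Agent.H80.Sp.four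
  obtain ⟨hVcomm, hV2⟩ := hVe
  have hc : ∀ a ∈ V, ∀ b ∈ V, a * b = b * a := fun a ha b hb =>
    congrArg Subtype.val (mul_comm' (⟨a, ha⟩ : V) ⟨b, hb⟩)
  have hEH : ∀ i, E i ≤ H := fun i => hEsup ▸ le_iSup E i
  have hnV : ∀ h ∈ H, ∀ v ∈ V, h * v * h⁻¹ ∈ V := fun h hh v hv =>
    (Subgroup.mem_normalizer_iff.mp (hHV hh) v).mp hv
  have hnE : ∀ i, ∀ h ∈ H, ∀ e ∈ E i, h * e * h⁻¹ ∈ E i := fun i h hh e he =>
    (Subgroup.mem_normalizer_iff.mp (hEn i hh) e).mp he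
  have hWV : ∀ i, ⁅V, E i⁆ ≤ V := by
    intro i
    rw [Subgroup.commutator_le]
    intro v hv e he
    rw [commutatorElement_def]
    have : v * e * v⁻¹ * e⁻¹ = v * (e * v⁻¹ * e⁻¹) := by group
    rw [this]
    exact V.mul_mem hv (hnV e (hEH i he) v⁻¹ (V.inv_mem hv))
  have hnW : ∀ i, ∀ h ∈ H, ∀ w ∈ ⁅V, E i⁆, h * w * h⁻¹ ∈ ⁅V, E i⁆ := fun i h hh =>
    conj_comm_mem (hnV h hh) (hnE i h hh)
  have hV0 : ∀ h ∈ H, h ∈ Subgroup.centralizer
      ((V ⊓ Subgroup.centralizer (H : Set Y) : Subgroup Y) : Set Y) := by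
    intro h hh
    rw [Subgroup.mem_centralizer_iff]
    intro v hv
    exact ((Subgroup.mem_centralizer_iff.mp hv.2) h hh).symm
  have hdisj : ∀ l i, l ≠ i → ⁅V, E l⁆ ⊓ ⁅V, E i⁆ = ⊥ := by
    intro l i hli
    have := hVind.pairwiseDisjoint
      (show (some l : Option ι) ≠ some i from fun h => hli (Option.some.inj h))
    exact disjoint_iff.mp this
  have hEcent : ∀ l i, l ≠ i → ∀ e ∈ E l,
      e ∈ Subgroup.centralizer ((⁅V, E i⁆ : Subgroup Y) : Set Y) := by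
    intro l i hli e he
    rw [cent_iff]
    intro w hw
    have h1 : e * w * e⁻¹ * w⁻¹ ∈ ⁅V, E i⁆ :=
      Subgroup.mul_mem _ (hnW i e (hEH l he) w hw) (Subgroup.inv_mem _ hw)
    have h2 : e * w * e⁻¹ * w⁻¹ ∈ ⁅V, E l⁆ := by
      have : e * w * e⁻¹ * w⁻¹ = (⁅w, e⁆)⁻¹ := by
        rw [commutatorElement_def]
        group
      rw [this]
      exact Subgroup.inv_mem _ (Subgroup.commutator_mem_commutator (hWV i hw) he)
    have h3 : e * w * e⁻¹ * w⁻¹ ∈ ⁅V, E l⁆ ⊓ ⁅V, E i⁆ := ⟨h2, h1⟩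
    rw [hdisj l i hli, Subgroup.mem_bot] at h3
    exact mul_inv_eq_one.mp h3
  have hF : ∀ g ∈ H, (∀ i, g ∈ Subgroup.centralizer ((⁅V, E i⁆ : Subgroup Y) : Set Y)) →
      g = 1 := fun g hg hW =>
    faithful_aux V H _ (fun i => ⁅V, E i⁆) hfaith hVsup g hg (hV0 g hg) hW
  obtain ⟨i, hxi⟩ : ∃ i, x ∉ Subgroup.centralizer ((⁅V, E i⁆ : Subgroup Y) : Set Y) := by
    by_contra h
    push Not at h
    exact hx1 (hF x hxH h)
  obtain ⟨w₀, hw₀, hxw₀⟩ : ∃ w ∈ ⁅V, E i⁆, x * w * x⁻¹ ≠ w := by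
    by_contra h
    push Not at h
    exact hxi (cent_iff.mpr h)
  obtain ⟨e⟩ := hEiso i
  have hdet : Matrix.det (!![1, 1; 0, 1] : Matrix (Fin 2) (Fin 2) (ZMod 2)) = 1 := by
    rw [Matrix.det_fin_two_of]
    decide
  set M : Matrix.SpecialLinearGroup (Fin 2) (ZMod 2) := ⟨!![1, 1; 0, 1], hdet⟩ with hM
  have hM2 : M * M = 1 := by
    apply Subtype.ext
    show (!![1, 1; 0, 1] : Matrix (Fin 2) (Fin 2) (ZMod 2)) * !![1, 1; 0, 1] = 1
    decide
  have hM1 : M ≠ 1 := by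
    intro h
    have h' : (!![1, 1; 0, 1] : Matrix (Fin 2) (Fin 2) (ZMod 2)) 0 1 =
        (1 : Matrix (Fin 2) (Fin 2) (ZMod 2)) 0 1 :=
      congrArg (fun A : Matrix.SpecialLinearGroup (Fin 2) (ZMod 2) => A.1 0 1) h
    exact absurd h' (by decide)
  set t : Y := ((e.symm M : E i) : Y) with ht
  have htE : t ∈ E i := (e.symm M).2
  have htH : t ∈ H := hEH i htE
  have htt : t * t = 1 := by
    have h1 : e.symm M * e.symm M = 1 := by rw [← map_mul, hM2, map_one]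
    have h2 := congrArg (fun z : E i => (z : Y)) h1
    simpa using h2
  have ht1 : t ≠ 1 := by
    intro h
    apply hM1
    have h1 : e.symm M = 1 := Subtype.ext h
    have h2 := congrArg e h1
    simpa using h2
  have htcent : ∀ l, l ≠ i → t ∈ Subgroup.centralizer ((⁅V, E l⁆ : Subgroup Y) : Set Y) :=
    fun l hl => hEcent i l (Ne.symm hl) t htE
  obtain ⟨w₁, hw₁, htw₁⟩ : ∃ w ∈ ⁅V, E i⁆, t * w * t⁻¹ ≠ w := by
    by_contra h
    push Not at h
    apply ht1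
    apply hF t htH
    intro l
    by_cases hl : l = i
    · rw [hl]; exact cent_iff.mpr h
    · exact htcent l hl
  have hW2 : ∀ w ∈ ⁅V, E i⁆, w * w = 1 := by
    intro w hw
    have := hV2 w (hWV i hw)
    rwa [pow_two] at this
  obtain ⟨F1, F2, F3, -⟩ := h4 (⁅V, E i⁆) x t t (hWcard i) hW2 (hnW i x hxH) (hnW i t htH)
    (hnW i t htH) hxodd htt htt ⟨w₀, hw₀, hxw₀⟩ ⟨w₁, hw₁, htw₁⟩ ⟨w₁, hw₁, htw₁⟩
  have hWiW : ⁅V, E i⁆ = W := by
    apply Subgroup.eq_of_le_of_card_ge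
    · intro w hw
      obtain ⟨u, hu, rfl⟩ := F2 w hw
      exact hxW u (hWV i hu)
    · rw [hWcard i]; exact hWc
  exact ⟨i, hWiW, hnW i⟩

/-- The structural input (S), at the group level (same hypotheses as `H52.Sn.StGL`). -/
theorem normW {X : Type u} [Group X] [Finite X] (V : Subgroup X) [V.Normal]
    (hV : IsElementaryAbelian 2 V) (hsep : IsPSolvable 2 X)
    (hO : pCore 2 (X ⧸ Subgroup.centralizer (V : Set X)) = ⊥)
    (k : X) (hk : k ∈ thompsonSubgroup 2 X) (hko : Odd (orderOf k))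
    (hkC : k ∉ Subgroup.centralizer (V : Set X))
    (W : Subgroup X) (hW : Nat.card ↥W = 4) (hWk : ∀ v ∈ V, k * v * k⁻¹ * v⁻¹ ∈ W) :
    W ≤ V ∧ ∀ g ∈ thompsonSubgroup 2 X, ∀ w ∈ W, g * w * g⁻¹ ∈ W := by
  haveI : Fact (Nat.Prime 2) := ⟨Nat.prime_two⟩
  haveI hJn := thompsonSubgroup_normal 2 X
  have hV' := Vh_elemAb V hV
  have hHV : (thompsonSubgroup 2 X).map (psi V) ≤
      Subgroup.normalizer ((Vh V : Subgroup (Hol V)) : Set (Hol V)) := by
    haveI := Vh_normal V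
    rw [Subgroup.normalizer_eq_top]
    exact le_top
  have hHR : (thompsonSubgroup 2 X).map (psi V) ≤ (psi V).range := by
    rintro _ ⟨j, -, rfl⟩
    exact ⟨j, rfl⟩
  have hf : (thompsonSubgroup 2 X).map (psi V) ⊓
      Subgroup.centralizer ((Vh V : Subgroup (Hol V)) : Set (Hol V)) = ⊥ := by
    rw [eq_bot_iff, ← range_faithful V]
    exact inf_le_inf_right _ hHR
  have hnorm : (psi V).range ≤
      Subgroup.normalizer (((thompsonSubgroup 2 X).map (psi V) : Subgroup (Hol V)) :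
        Set (Hol V)) := by
    rintro _ ⟨g, rfl⟩
    rw [Subgroup.mem_normalizer_iff]
    intro h
    constructor
    · rintro ⟨j, hj, rfl⟩
      refine ⟨g * j * g⁻¹, hJn.conj_mem j hj g, ?_⟩
      simp
    · rintro ⟨j, hj, hjh⟩
      refine ⟨g⁻¹ * j * g, ?_, ?_⟩
      · have := hJn.conj_mem j hj g⁻¹
        simpa using this
      · rw [map_mul, map_mul, hjh, map_inv]
        group
  have hS1 := hS1_of_normal (p := 2) (psi V).range ((thompsonSubgroup 2 X).map (psi V)) hHR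
    hnorm (range_isPSolvable V hsep) (range_pCore_eq_bot V hO)
  have hS3 : (thompsonSubgroup 2 X).map (psi V) = ⨆ A : {A : Subgroup (Hol V) //
      A ≤ (thompsonSubgroup 2 X).map (psi V) ∧ IsBestOffenderOn 2 (Vh V) A},
      (A : Subgroup (Hol V)) := by
    apply le_antisymm
    · conv_lhs => unfold Cfsg.thompsonSubgroup
      rw [Subgroup.map_le_iff_le_comap]
      apply sSup_le
      intro A hA
      rw [← Subgroup.map_le_iff_le_comap]
      exact le_iSup (fun A : {A : Subgroup (Hol V) //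
        A ≤ (thompsonSubgroup 2 X).map (psi V) ∧ IsBestOffenderOn 2 (Vh V) A} =>
          (A : Subgroup (Hol V)))
        ⟨A.map (psi V), Subgroup.map_mono (le_sSup hA), bestOffender_map V hV hA⟩
    · exact iSup_le fun A => A.2.1
  -- the element `x = psi k`
  have hxH : psi V k ∈ (thompsonSubgroup 2 X).map (psi V) := Subgroup.mem_map_of_mem _ hk
  have hx1 : psi V k ≠ 1 := by
    intro h1
    apply hkC
    rw [← psi_ker, MonoidHom.mem_ker]
    exact h1
  have hxodd : Odd (orderOf (psi V k)) := Odd.of_dvd_nat hko (orderOf_map_dvd (psi V) k)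
  have hH1 : (thompsonSubgroup 2 X).map (psi V) ≠ ⊥ := by
    intro h0
    rw [h0, Subgroup.mem_bot] at hxH
    exact hx1 hxH
  obtain ⟨-, hE, hind, hsup, hindV, hsupV⟩ :=
    Cfsg.Agent.S0617.result _ _ hV' hHV hf hS1 hS3 hH1
  -- the image of `W ⊓ V` in the holomorph
  have hinj : Function.Injective
      (fun a : ↥(W.subgroupOf V) => (⟨(a.1 : X), Subgroup.mem_subgroupOf.mp a.2⟩ : ↥W)) := by
    intro a b hab
    have h1 : ((a.1 : ↥V) : X) = ((b.1 : ↥V) : X) := by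
      have h2 := congrArg (fun z : ↥W => (z : X)) hab
      exact h2
    exact Subtype.ext (Subtype.ext h1)
  have e1 : Nat.card ↥((W.subgroupOf V).map (SemidirectProduct.inl : ↥V →* Hol V)) =
      Nat.card ↥(W.subgroupOf V) :=
    Nat.card_congr ((W.subgroupOf V).equivMapOfInjective _
      SemidirectProduct.inl_injective).symm.toEquiv
  have hWY : Nat.card ↥((W.subgroupOf V).map (SemidirectProduct.inl : ↥V →* Hol V)) ≤ 4 := by
    rw [e1, ← hW]
    exact Nat.card_le_card_of_injective _ hinj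
  have hcomm : ∀ v ∈ Vh V, psi V k * v * (psi V k)⁻¹ * v⁻¹ ∈
      (W.subgroupOf V).map (SemidirectProduct.inl : ↥V →* Hol V) := by
    rintro _ ⟨v, rfl⟩
    rw [psi_conj, ← map_inv, ← map_mul]
    refine Subgroup.mem_map_of_mem _ ?_
    rw [Subgroup.mem_subgroupOf]
    have h1 := hWk (v : X) v.2
    have e : ((MulAut.conjNormal k v * v⁻¹ : ↥V) : X) = k * (v : X) * k⁻¹ * (v : X)⁻¹ := by
      rw [Subgroup.coe_mul, MulAut.conjNormal_apply, Subgroup.coe_inv]
    rw [e]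
    exact h1
  obtain ⟨i, hWi, hnW⟩ := exists_factor (Vh V) ((thompsonSubgroup 2 X).map (psi V))
    (fun E : {E : Subgroup (Hol V) // ∃ A : Subgroup (Hol V),
      A ≤ (thompsonSubgroup 2 X).map (psi V) ∧ Cfsg.IsBestOffenderOn 2 (Vh V) A ∧
      ⁅Vh V, A⁆ ≠ ⊥ ∧ (∀ B : Subgroup (Hol V), B ≤ A → Cfsg.IsBestOffenderOn 2 (Vh V) B →
        ⁅Vh V, B⁆ ≠ ⊥ → B = A) ∧
      E = ⁅((Cfsg.pPrimeCore 2 ↥((thompsonSubgroup 2 X).map (psi V))).map
        ((thompsonSubgroup 2 X).map (psi V)).subtype), A⁆ ⊔ A} => (E : Subgroup (Hol V)))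
    hV' hHV hf (fun i => (hE i).1) (fun i => (hE i).2.1)
    (fun i => by
      have := (hE i).2.2
      norm_num at this
      exact this)
    hind hsup hindV hsupV (psi V k) hxH hxodd hx1 _ hWY hcomm
  -- `W ≤ V`
  have hc4 : Nat.card ↥(W.subgroupOf V) = 4 := by
    rw [← e1, ← hWi]
    have := (hE i).2.2
    norm_num at this
    exact this
  have hbij := hinj.bijective_of_nat_card_le (by rw [hc4, hW])
  have hWV : W ≤ V := by
    intro w hw
    obtain ⟨a, ha⟩ := hbij.2 ⟨w, hw⟩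
    have h1 : ((a.1 : ↥V) : X) = w := congrArg (fun z : ↥W => (z : X)) ha
    rw [← h1]
    exact (a.1 : ↥V).2
  refine ⟨hWV, ?_⟩
  intro g hg w hw
  have h1 : (SemidirectProduct.inl (⟨w, hWV hw⟩ : ↥V) : Hol V) ∈
      (W.subgroupOf V).map (SemidirectProduct.inl : ↥V →* Hol V) :=
    Subgroup.mem_map_of_mem _ (Subgroup.mem_subgroupOf.mpr hw)
  rw [← hWi] at h1
  have h2 := hnW (psi V g) (Subgroup.mem_map_of_mem _ hg) _ h1
  rw [hWi, psi_conj] at h2
  obtain ⟨v', hv', hv'eq⟩ := h2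
  have h3 : v' = MulAut.conjNormal g (⟨w, hWV hw⟩ : ↥V) := SemidirectProduct.inl_injective hv'eq
  have hv'' : v' ∈ W.subgroupOf V := hv'
  rw [h3, Subgroup.mem_subgroupOf, MulAut.conjNormal_apply] at hv''
  exact hv''

end Cfsg.Agent.H14.Uq

#print axioms Cfsg.Agent.H14.Uq.normW
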