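import Cfsg.Agent.H52.SoAsm
import Cfsg.Agent.H14.SnGL
import Cfsg.Agent.H89.SnGLA
import Cfsg.Agent.H5.SnRed
import Cfsg.Agent.H91.SnFinA
import Cfsg.Agent.H63.SnIfSyl
import Cfsg.Agent.H63.SnIfV
import Cfsg.Agent.H63.SnIfZ
import Cfsg.Agent.H71.SnIfS
import Cfsg.Agent.H71.SnIfK
import Cfsg.Agent.H80.SnIfN
import Cfsg.Agent.H25.SoNC
import Cfsg.Agent.H36.SoWid
import Cfsg.Agent.H14.UqNormW

set_option autoImplicit false
set_option linter.unusedVariables false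
set_option linter.style.haveILetI false

/-! The structural input "(S)" at the level of `G` (helper14, for helper58's S2950 project UQ):
for `L` in the family of `T` and a `J(T)`-component `K ≤ L`, the Thompson subgroup `J(↥L)` of `L`
(which contains every `L`-conjugate of `J(T)`) normalizes `W_K`. -/

open Cfsg
open scoped commutatorElement Pointwise

namespace Cfsg.Agent.H14.Uq

open Cfsg.Agent.H52.Sn

universe u

/-- `J(L)` normalizes `W_K` for every `J(T)`-component `K ≤ L ∈ ℒ(T)`. -/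
theorem normW_G {G : Type u} [Group G] [Finite G]
    (hL : IsCharacteristicTwoType G)
    (hNsol : ∀ N : Subgroup G, IsTwoLocal N → Group.IsSolvable ↥N)
    (hZN : ∀ S : Sylow 2 G, Subgroup.centralizer (omegaCenterOf (S : Subgroup G) : Set G) ≤
      Subgroup.normalizer ((S : Subgroup G) : Set G))
    (T : Subgroup G) (hT : IsPGroup 2 ↥T) (hT1 : T ≠ ⊥) (L : Subgroup G) (hLT : L ∈ jOvergroups T)
    (K : Subgroup G) (hKc : IsJComponent T K) (hKL : K ≤ L) :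
    (thompsonSubgroup 2 ↥L).map L.subtype ≤ Subgroup.normalizer (Cfsg.wOf K : Set G) := by
  haveI : Fact (Nat.Prime 2) := ⟨Nat.prime_two⟩
  have F1 := facts (Cfsg.Agent.H14.Sn.gl Cfsg.Agent.H89.Sn.gla) Cfsg.Agent.H5.Sn.red
    Cfsg.Agent.H63.Sn.ifSyl Cfsg.Agent.H63.Sn.ifV Cfsg.Agent.H63.Sn.ifZ Cfsg.Agent.H71.Sn.ifS
    Cfsg.Agent.H71.Sn.ifK Cfsg.Agent.H80.Sn.ifN hL hNsol hZN T hT hT1 L hLT K hKc hKL
  have hO1 := (Cfsg.Agent.H91.Sn.finA _ _ _ _ _ _ _ F1.hT F1.hTi F1.hC F1.hQ F1.hM F1.hTC F1.hJM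
    F1.hcomm F1.hKgen F1.hKJ F1.hOK F1.hO).1
  have hnc1 := Cfsg.Agent.H25.So.nc _ _ _ _ _ _ _ F1
  have hw1 := Cfsg.Agent.H36.So.wid T L K _ hKc hKL F1 hO1 hnc1
  obtain ⟨hVn, hVel, hQV⟩ := Cfsg.Agent.H63.Sn.ifV L
  have hCT := Cfsg.Agent.H63.Sn.ifZ hZN T L hLT
  have hPS := Cfsg.Agent.H71.Sn.ifS hNsol T L hT1 hLT
  obtain ⟨hred1, hred2⟩ := Cfsg.Agent.H5.Sn.red (T.subgroupOf L)
    ((omegaCenterOf (pCoreOf 2 L)).subgroupOf L) F1.hT F1.hTi hQV hCT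
  have hc1 : Nat.card ↥⁅(omegaCenterOf (pCoreOf 2 L)).subgroupOf L, K.subgroupOf L⁆ = 4 := by
    rw [← hKc.2.2.2.2.1, ← hw1]
    exact Nat.card_congr (Subgroup.equivMapOfInjective _ _ (Subgroup.subtype_injective L)).toEquiv
  -- an odd-order element of `K` not centralizing `V`
  obtain ⟨k, hkK, hko, hkC⟩ : ∃ k : ↥L, k ∈ K.subgroupOf L ∧ Odd (orderOf k) ∧
      k ∉ Subgroup.centralizer
        (((omegaCenterOf (pCoreOf 2 L)).subgroupOf L : Subgroup ↥L) : Set ↥L) := by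
    by_contra hcon
    push Not at hcon
    apply hnc1
    rw [← F1.hKgen, Subgroup.closure_le]
    rintro g ⟨hg1, hg2⟩
    exact hcon g hg1 hg2
  have hKM : K.subgroupOf L ≤ thompsonSubgroup 2 ↥L := by
    haveI := F1.hM
    rw [← F1.hKJ]
    exact (Subgroup.commutator_mono le_rfl F1.hJM).trans (Subgroup.commutator_le_right _ _)
  have hWk : ∀ v ∈ (omegaCenterOf (pCoreOf 2 L)).subgroupOf L, k * v * k⁻¹ * v⁻¹ ∈
      ⁅(omegaCenterOf (pCoreOf 2 L)).subgroupOf L, K.subgroupOf L⁆ := by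
    intro v hv
    have h1 : ⁅k, v⁆ ∈ ⁅K.subgroupOf L, (omegaCenterOf (pCoreOf 2 L)).subgroupOf L⁆ :=
      Subgroup.commutator_mem_commutator hkK hv
    rw [Subgroup.commutator_comm] at h1
    rw [commutatorElement_def] at h1
    exact h1
  obtain ⟨-, hnW⟩ := normW ((omegaCenterOf (pCoreOf 2 L)).subgroupOf L) hVel hPS hred1 k
    (hKM hkK) hko hkC _ hc1 hWk
  -- transport to `G`
  have key : ∀ g ∈ thompsonSubgroup 2 ↥L, ∀ w ∈ Cfsg.wOf K, (g : G) * w * (g : G)⁻¹ ∈ Cfsg.wOf K := by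
    intro g hg w hw
    rw [← hw1] at hw ⊢
    obtain ⟨w', hw', rfl⟩ := hw
    exact ⟨g * w' * g⁻¹, hnW g hg w' hw', by simp⟩
  rintro _ ⟨g, hg, rfl⟩
  rw [Subgroup.mem_normalizer_iff]
  intro w
  constructor
  · intro hw
    exact key g hg w hw
  · intro hw
    have h2 := key g⁻¹ (Subgroup.inv_mem _ hg) _ hw
    have e : ((g⁻¹ : ↥L) : G) * ((L.subtype g) * w * (L.subtype g)⁻¹) * ((g⁻¹ : ↥L) : G)⁻¹ = w := by
      simp
      group
    rw [e] at h2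
    exact h2

/-- (S): every `L`-conjugate of `J(T)` normalizes `W_K`. -/
theorem conj_thompson_le_normalizer_wOf {G : Type u} [Group G] [Finite G]
    (hL : IsCharacteristicTwoType G)
    (hNsol : ∀ N : Subgroup G, IsTwoLocal N → Group.IsSolvable ↥N)
    (hZN : ∀ S : Sylow 2 G, Subgroup.centralizer (omegaCenterOf (S : Subgroup G) : Set G) ≤
      Subgroup.normalizer ((S : Subgroup G) : Set G))
    (T : Subgroup G) (hT : IsPGroup 2 ↥T) (hT1 : T ≠ ⊥) (L : Subgroup G) (hLT : L ∈ jOvergroups T)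
    (K : Subgroup G) (hKc : IsJComponent T K) (hKL : K ≤ L) (x : G) (hx : x ∈ L) :
    (thompsonSubgroupOf 2 T).map (MulAut.conj x).toMonoidHom ≤
      Subgroup.normalizer (Cfsg.wOf K : Set G) := by
  refine le_trans ?_ (normW_G hL hNsol hZN T hT hT1 L hLT K hKc hKL)
  obtain ⟨-, -, -, hJM⟩ := Cfsg.Agent.H63.Sn.ifSyl T L hLT.1
  haveI hMn : (thompsonSubgroup 2 ↥L).Normal := Cfsg.Agent.H14.Holo.thompsonSubgroup_normal 2 ↥L
  rintro _ ⟨j, hj, rfl⟩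
  have hjT : j ∈ T := (Subgroup.map_subtype_le _ : thompsonSubgroupOf 2 T ≤ T) hj
  have hjL : j ∈ L := hLT.1.1 hjT
  have h1 : (⟨j, hjL⟩ : ↥L) ∈ thompsonSubgroup 2 ↥L := hJM (Subgroup.mem_subgroupOf.mpr hj)
  have h2 := hMn.conj_mem _ h1 ⟨x, hx⟩
  exact ⟨_, h2, by simp⟩

end Cfsg.Agent.H14.Uq

#print axioms Cfsg.Agent.H14.Uq.normW_G
#print axioms Cfsg.Agent.H14.Uq.conj_thompson_le_normalizer_wOf
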