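import Mathlib
import Cfsg.Agent.H42.TiDefs
import Cfsg.Agent.H7.OrthStd

/-!
# S5972 team project (helper14): definitions and piece statements

Elements of prime order of `Ω_{2d+1}(q)`, `q` odd, and totally singular `m`-spaces.

The case of an odd prime `r ≠ p` is reduced to the symplectic theory of S5955 (`H42/TiDefs`) by the
FORM TRICK: if `T` is an isometry of a symmetric form `B` with `T ^ r = 1`, then on
`U = range (T - 1)` the form `A x y = B x ((T - T⁻¹) y)` is alternating, nondegenerate and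
`T`-invariant, and a `T`-invariant subspace of `U` is totally isotropic for `A` iff it is for `B`.
-/

set_option autoImplicit false

namespace Cfsg.Agent.H14.Ot

open Cfsg.Agent.H45 Cfsg.Agent.H42.Spd Cfsg.Agent.H42.Ti Module Polynomial

universe u v

section Basic

variable {F : Type u} [Field F] {V : Type v} [AddCommGroup V] [Module F V]

/-- Orthogonal context: `T` is an isometry with `T ^ r = 1` of a nondegenerate symmetric bilinear
form, `r` an odd prime invertible in `F`, and `2` is invertible in `F`. -/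
structure OCtx (r : ℕ) (B : V →ₗ[F] V →ₗ[F] F) (T : Module.End F V) : Prop where
  prime : r.Prime
  ne_two : r ≠ 2
  cast_ne : (r : F) ≠ 0
  two_ne : (2 : F) ≠ 0
  symm : ∀ x y, B x y = B y x
  nondeg : ∀ x, (∀ y, B x y = 0) → x = 0
  isom : ∀ x y, B (T x) (T y) = B x y
  pow : T ^ r = 1

end Basic

/-! ## Generic linear algebra and symmetric forms -/

/-- O-SPLIT: for `T ^ r = 1` with `r` invertible, `V = ker (T - 1) ⊕ range (T - 1)` and every
invariant subspace splits accordingly. -/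
def StOSplit : Prop :=
  ∀ (F : Type u) [Field F] (V : Type v) [AddCommGroup V] [Module F V] [FiniteDimensional F V]
    (r : ℕ) (T : Module.End F V), (r : F) ≠ 0 → T ^ r = 1 →
    LinearMap.ker (T - 1) ⊓ LinearMap.range (T - 1) = ⊥ ∧
    LinearMap.ker (T - 1) ⊔ LinearMap.range (T - 1) = ⊤ ∧
    ∀ W : Submodule F V, W ∈ T.invtSubmodule →
      (W ⊓ LinearMap.ker (T - 1)) ⊔ (W ⊓ LinearMap.range (T - 1)) = W

/-- O-HALF: a totally isotropic subspace of a nondegenerate subspace `K` (symmetric form) has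
dimension at most `dim K / 2`. -/
def StOHalf : Prop :=
  ∀ (F : Type u) [Field F] (V : Type v) [AddCommGroup V] [Module F V] [FiniteDimensional F V]
    (B : V →ₗ[F] V →ₗ[F] F), (∀ x y, B x y = B y x) →
    ∀ K U : Submodule F V, K ⊓ perp B K = ⊥ → U ≤ K → TI B U →
    2 * Module.finrank F U ≤ Module.finrank F K

/-- O-WITT: over a finite field of odd characteristic, a nondegenerate subspace `K` of dimension
at least `2 j + 1` (symmetric form) contains a totally isotropic subspace of dimension `j`. -/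
def StOWitt : Prop :=
  ∀ (F : Type u) [Field F] [Fintype F] (V : Type v) [AddCommGroup V] [Module F V]
    [FiniteDimensional F V] (B : V →ₗ[F] V →ₗ[F] F), (2 : F) ≠ 0 → (∀ x y, B x y = B y x) →
    ∀ (K : Submodule F V) (j : ℕ), K ⊓ perp B K = ⊥ → 2 * j + 1 ≤ Module.finrank F K →
    ∃ J : Submodule F V, J ≤ K ∧ TI B J ∧ Module.finrank F J = j

/-! ## The form trick -/

/-- O-TRICK: the non-fixed part `range (T - 1)` of an orthogonal isometry of odd prime order
carries an invariant nondegenerate ALTERNATING form `A` with the same invariant totally isotropic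
subspaces (`V' = range (T - 1)`, `ι` the inclusion, `A x y = B x ((T - T ^ (r - 1)) y)`). -/
def StOTrick : Prop :=
  ∀ (F : Type u) [Field F] [Fintype F] (V : Type v) [AddCommGroup V] [Module F V]
    [FiniteDimensional F V] (r : ℕ) (B : V →ₗ[F] V →ₗ[F] F) (T : Module.End F V),
    OCtx r B T →
    ∃ (V' : Type v) (_ : AddCommGroup V') (_ : Module F V') (_ : FiniteDimensional F V')
      (A : V' →ₗ[F] V' →ₗ[F] F) (T' : Module.End F V') (ι : V' →ₗ[F] V),
      Ctx r A T' ∧ Function.Injective ι ∧ (∀ x, ι (T' x) = T (ι x)) ∧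
      LinearMap.range ι = LinearMap.range (T - 1) ∧
      LinearMap.ker (T' - 1) = ⊥ ∧
      (∀ x : V', ∀ k ∈ LinearMap.ker (T - 1), B (ι x) k = 0) ∧
      (∀ W' : Submodule F V', W' ∈ T'.invtSubmodule → (TI A W' ↔ TI B (W'.map ι)))

/-! ## Transfer of the symplectic pieces -/

/-- O-UPPER: the dimension of an invariant totally isotropic subspace is `i s + w` with
`2 w ≤ dim C_V(T)`, and for `i` even moreover `s ≤ ∑_φ ⌊dim V_φ / (2 i)⌋`. -/
def StOUpper : Prop :=
  ∀ (F : Type u) [Field F] [Fintype F] (V : Type v) [AddCommGroup V] [Module F V]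
    [FiniteDimensional F V] (r : ℕ) (B : V →ₗ[F] V →ₗ[F] F) (T : Module.End F V),
    OCtx r B T → ∀ W : Submodule F V, W ∈ T.invtSubmodule → TI B W →
    ∃ s w : ℕ, Module.finrank F W = ii F r * s + w ∧ 2 * w ≤ kk T ⊤ ∧
      (Even (ii F r) → ∀ Φs : Finset F[X], IsCycSet F r Φs →
        s ≤ ∑ φ ∈ Φs, Module.finrank F ↥(LinearMap.ker (aeval T φ)) / (2 * ii F r))

/-- O-BUILD: invariant totally isotropic subspaces of dimension `i s + j`. -/
def StOBuild : Prop :=
  ∀ (F : Type u) [Field F] [Fintype F] (V : Type v) [AddCommGroup V] [Module F V]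
    [FiniteDimensional F V] (r : ℕ) (B : V →ₗ[F] V →ₗ[F] F) (T : Module.End F V),
    OCtx r B T → ∀ s j : ℕ, 2 * j + 1 ≤ kk T ⊤ →
    (Odd (ii F r) → kk T ⊤ + 2 * ii F r * s ≤ Module.finrank F V) →
    (Even (ii F r) → s = 0 ∨
      kk T ⊤ + ii F r * ((r - 1) / ii F r + 2 * s - 1) ≤ Module.finrank F V) →
    ∃ U : Submodule F V, U ∈ T.invtSubmodule ∧ TI B U ∧ Module.finrank F U = ii F r * s + j

/-- O-MODC: the non-fixed part has dimension divisible by `c`. -/
def StOModc : Prop :=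
  ∀ (F : Type u) [Field F] [Fintype F] (V : Type v) [AddCommGroup V] [Module F V]
    [FiniteDimensional F V] (r : ℕ) (B : V →ₗ[F] V →ₗ[F] F) (T : Module.End F V),
    OCtx r B T → ∃ s : ℕ, Module.finrank F V = kk T ⊤ + cc F r * s

/-! ## Existence: from symplectic to orthogonal matrices -/

/-- O-TRANSPORT: a fixed-point-free symplectic matrix `y` of odd prime order `r` in dimension
`2 e ≤ 2 d` gives an element `x` of `Ω_{2d+1}(q)` with `x ^ r = 1`, fixed space of dimension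
`2 d + 1 - 2 e`, and the same kernel dimensions for all polynomials not vanishing at `1`. -/
def StOTransport : Prop :=
  ∀ (F : Type u) [Field F] [Fintype F] (p : ℕ) [Fact p.Prime] [CharP F p] (r : ℕ), r.Prime →
    r ≠ 2 → r ≠ p → (2 : F) ≠ 0 → ∀ d e : ℕ, e ≤ d →
    ∀ y : ↥(Matrix.symplecticGroup (Fin e) F), y ^ r = 1 →
    LinearMap.ker (Matrix.toLin' (y : Matrix (Fin e ⊕ Fin e) (Fin e ⊕ Fin e) F) - 1) = ⊥ →
    ∃ x : Matrix.GeneralLinearGroup (Unit ⊕ (Fin d ⊕ Fin d)) F,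
      x ∈ Cfsg.Geo.omegaGL (Cfsg.quadFormOdd d F) ∧ x ^ r = 1 ∧
      Module.finrank F ↥(LinearMap.ker (Matrix.toLin'
        (x : Matrix (Unit ⊕ (Fin d ⊕ Fin d)) (Unit ⊕ (Fin d ⊕ Fin d)) F) - 1)) + 2 * e =
          2 * d + 1 ∧
      ∀ φ : F[X], φ.eval 1 ≠ 0 →
        Module.finrank F ↥(LinearMap.ker (aeval (Matrix.toLin'
          (x : Matrix (Unit ⊕ (Fin d ⊕ Fin d)) (Unit ⊕ (Fin d ⊕ Fin d)) F)) φ)) =
        Module.finrank F ↥(LinearMap.ker (aeval (Matrix.toLin'
          (y : Matrix (Fin e ⊕ Fin e) (Fin e ⊕ Fin e) F)) φ))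

/-! ## Counting totally singular subspaces -/

/-- O-ZEROS: a nondegenerate quadratic form in `2 e + 1` variables over a finite field of odd
characteristic has exactly `q ^ (2 e)` zeros. -/
def StOZeros : Prop :=
  ∀ (F : Type u) [Field F] [Fintype F] (C : Type v) [AddCommGroup C] [Module F C]
    [FiniteDimensional F C] (Q : QuadraticForm F C) (e : ℕ), (2 : F) ≠ 0 →
    Module.finrank F C = 2 * e + 1 → (∀ x, (∀ y, QuadraticMap.polar ⇑Q x y = 0) → x = 0) →
    Nat.card {v : C // Q v = 0} = Fintype.card F ^ (2 * e)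

/-- O-TUPLES: the number of linearly independent `m`-tuples of pairwise orthogonal singular
vectors of the standard quadratic space of dimension `2 d + 1`. -/
def StOTuples : Prop :=
  ∀ (F : Type u) [Field F] [Fintype F] (d m : ℕ), (2 : F) ≠ 0 → m ≤ d →
    Nat.card {v : Fin m → (Unit ⊕ (Fin d ⊕ Fin d) → F) // LinearIndependent F v ∧
        (∀ a, Cfsg.quadFormOdd d F (v a) = 0) ∧
        ∀ a b, QuadraticMap.polar (Cfsg.quadFormOdd d F) (v a) (v b) = 0} =
      ∏ j ∈ Finset.range m, (Fintype.card F ^ (2 * d - j) - Fintype.card F ^ j)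

/-- O-FIB: every totally singular `m`-space has `|GL_m(q)|` ordered bases. -/
def StOFib : Prop :=
  ∀ (F : Type u) [Field F] [Fintype F] (d m : ℕ), (2 : F) ≠ 0 →
    Nat.card {v : Fin m → (Unit ⊕ (Fin d ⊕ Fin d) → F) // LinearIndependent F v ∧
        (∀ a, Cfsg.quadFormOdd d F (v a) = 0) ∧
        ∀ a b, QuadraticMap.polar (Cfsg.quadFormOdd d F) (v a) (v b) = 0} =
      Nat.card {W : Submodule F (Unit ⊕ (Fin d ⊕ Fin d) → F) // Module.finrank F ↥W = m ∧
        (∀ w ∈ W, Cfsg.quadFormOdd d F w = 0)} *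
      ∏ j ∈ Finset.range m, (Fintype.card F ^ m - Fintype.card F ^ j)

/-! ## Involutions -/

/-- O-INVLOW: every isometry `x` with `x ^ 2 = 1` fixes a totally singular `m`-space, `m < d`. -/
def StOInvLow : Prop :=
  ∀ (F : Type u) [Field F] [Fintype F] (d m : ℕ), (2 : F) ≠ 0 → m < d →
    ∀ x : Matrix.GeneralLinearGroup (Unit ⊕ (Fin d ⊕ Fin d)) F,
    x ∈ Cfsg.isometryGroup F (Cfsg.quadFormOdd d F) → x ^ 2 = 1 →
    ∃ W : Submodule F (Unit ⊕ (Fin d ⊕ Fin d) → F), Module.finrank F ↥W = m ∧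
      (∀ w ∈ W, Cfsg.quadFormOdd d F w = 0) ∧
      W.map (Matrix.toLin' (x : Matrix (Unit ⊕ (Fin d ⊕ Fin d)) (Unit ⊕ (Fin d ⊕ Fin d)) F)) ≤ W

/-- O-INVOMEGA: if `-1` is a square, every `x ∈ Ω` with `x ^ 2 = 1` fixes a totally singular
`m`-space for every `m ≤ d`. -/
def StOInvOmega : Prop :=
  ∀ (F : Type u) [Field F] [Fintype F] (d m : ℕ), (2 : F) ≠ 0 → IsSquare (-1 : F) → m ≤ d →
    ∀ x : Matrix.GeneralLinearGroup (Unit ⊕ (Fin d ⊕ Fin d)) F,
    x ∈ Cfsg.Geo.omegaGL (Cfsg.quadFormOdd d F) → x ^ 2 = 1 →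
    ∃ W : Submodule F (Unit ⊕ (Fin d ⊕ Fin d) → F), Module.finrank F ↥W = m ∧
      (∀ w ∈ W, Cfsg.quadFormOdd d F w = 0) ∧
      W.map (Matrix.toLin' (x : Matrix (Unit ⊕ (Fin d ⊕ Fin d)) (Unit ⊕ (Fin d ⊕ Fin d)) F)) ≤ W

/-- O-INVEX: if `-1` is not a square, some involution of `Ω` fixes no totally singular
`d`-space. -/
def StOInvEx : Prop :=
  ∀ (F : Type u) [Field F] [Fintype F] (d : ℕ), (2 : F) ≠ 0 → ¬ IsSquare (-1 : F) → 1 ≤ d →
    ∃ x : Matrix.GeneralLinearGroup (Unit ⊕ (Fin d ⊕ Fin d)) F,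
      x ∈ Cfsg.Geo.omegaGL (Cfsg.quadFormOdd d F) ∧ orderOf x = 2 ∧
      ∀ W : Submodule F (Unit ⊕ (Fin d ⊕ Fin d) → F), (∀ w ∈ W, Cfsg.quadFormOdd d F w = 0) →
        W.map (Matrix.toLin'
          (x : Matrix (Unit ⊕ (Fin d ⊕ Fin d)) (Unit ⊕ (Fin d ⊕ Fin d)) F)) ≤ W →
        Module.finrank F ↥W < d

end Cfsg.Agent.H14.Ot
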