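import Mathlib
import Cfsg.Agent.H1.MaxInv

/-!
# Coprime automorphism groups of abelian `p`-groups (S3775)
-/

set_option autoImplicit false

namespace Cfsg.Agent.H14.AbelCoprime

variable {A : Type*} [CommGroup A]

/-- Invariance of a subgroup under a group of automorphisms. -/
def Inv (X : Subgroup (MulAut A)) (B : Subgroup A) : Prop := ∀ x ∈ X, ∀ b ∈ B, x b ∈ B

theorem inv_iff (X : Subgroup (MulAut A)) (B : Subgroup A) :
    (∀ x ∈ X, B.map x.toMonoidHom = B) ↔ Inv X B := by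
  constructor
  · intro h x hx b hb
    have : x b ∈ B.map x.toMonoidHom := Subgroup.mem_map_of_mem _ hb
    rwa [h x hx] at this
  · intro h x hx
    apply le_antisymm
    · rintro _ ⟨b, hb, rfl⟩
      exact h x hx b hb
    · intro b hb
      refine ⟨x⁻¹ b, h x⁻¹ (X.inv_mem hx) b hb, ?_⟩
      show x (x⁻¹ b) = b
      rw [← MulAut.mul_apply, mul_inv_cancel, MulAut.one_apply]

theorem inv_sup {X : Subgroup (MulAut A)} {B C : Subgroup A} (hB : Inv X B) (hC : Inv X C) :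
    Inv X (B ⊔ C) := by
  intro x hx a ha
  obtain ⟨b, hb, c, hc, rfl⟩ := Subgroup.mem_sup.mp ha
  rw [map_mul]
  exact Subgroup.mul_mem_sup (hB x hx b hb) (hC x hx c hc)

theorem inv_inf {X : Subgroup (MulAut A)} {B C : Subgroup A} (hB : Inv X B) (hC : Inv X C) :
    Inv X (B ⊓ C) := by
  intro x hx a ha
  exact Subgroup.mem_inf.mpr ⟨hB x hx a (Subgroup.mem_inf.mp ha).1, hC x hx a (Subgroup.mem_inf.mp ha).2⟩

theorem inv_bot (X : Subgroup (MulAut A)) : Inv X (⊥ : Subgroup A) := by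
  intro x hx a ha
  rw [Subgroup.mem_bot] at ha ⊢
  rw [ha, map_one]

theorem inv_comap_pow {X : Subgroup (MulAut A)} {B : Subgroup A} (hB : Inv X B) (k : ℕ) :
    Inv X (B.comap (powMonoidHom k)) := by
  intro x hx a ha
  rw [Subgroup.mem_comap] at ha ⊢
  have := hB x hx _ ha
  simpa [powMonoidHom_apply, map_pow] using this

theorem inv_map_pow {X : Subgroup (MulAut A)} {B : Subgroup A} (hB : Inv X B) (k : ℕ) :
    Inv X (B.map (powMonoidHom k)) := by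
  rintro x hx _ ⟨b, hb, rfl⟩
  refine ⟨x b, hB x hx b hb, ?_⟩
  simp [powMonoidHom_apply, map_pow]

/-- Maschke's theorem for an elementary abelian invariant section `Ω / D`. -/
theorem sec_maschke [Finite A] {p : ℕ} [Fact p.Prime] (X : Subgroup (MulAut A))
    (hX : (Nat.card X).Coprime p) (D M Ω : Subgroup A) (hDM : D ≤ M) (hMΩ : M ≤ Ω)
    (hD : Inv X D) (hM : Inv X M) (hΩ : Inv X Ω) (hexp : ∀ a ∈ Ω, a ^ p ∈ D) :
    ∃ F : Subgroup A, Inv X F ∧ D ≤ F ∧ F ≤ Ω ∧ F ⊓ M ≤ D ∧ Ω ≤ F ⊔ M := by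
  classical
  have hp : p.Prime := Fact.out
  haveI : Finite X := by
    apply Nat.finite_of_card_ne_zero
    intro h0
    rw [h0, Nat.coprime_zero_left] at hX
    exact hp.ne_one hX
  let N : Subgroup ↥Ω := D.subgroupOf Ω
  let res : ↥X → (↥Ω →* ↥Ω) := fun x =>
    ((x : MulAut A).toMonoidHom.comp Ω.subtype).codRestrict Ω (fun a => hΩ x x.2 a a.2)
  have hres : ∀ (x : ↥X) (a : ↥Ω), ((res x a : ↥Ω) : A) = (x : MulAut A) (a : A) := fun x a => rfl
  have hresN : ∀ x : ↥X, N ≤ N.comap (res x) := by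
    intro x a ha
    rw [Subgroup.mem_comap]
    show ((res x a : ↥Ω) : A) ∈ D
    rw [hres]
    exact hD x x.2 a ha
  let φ : ↥X → (↥Ω ⧸ N) →* (↥Ω ⧸ N) := fun x => QuotientGroup.map N N (res x) (hresN x)
  have hφ : ∀ (x : ↥X) (a : ↥Ω), φ x (QuotientGroup.mk a) = QuotientGroup.mk (res x a) :=
    fun x a => rfl
  have hone : ∀ v, φ 1 v = v := by
    intro v
    induction v using QuotientGroup.induction_on with
    | H a =>
      rw [hφ]
      congr 1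
  have hmul : ∀ a b v, φ (a * b) v = φ a (φ b v) := by
    intro a b v
    induction v using QuotientGroup.induction_on with
    | H w =>
      rw [hφ, hφ, hφ]
      congr 1
  have hcomm : ∀ x y : ↥Ω ⧸ N, x * y = y * x := fun x y => mul_comm x y
  have hexp' : ∀ x : ↥Ω ⧸ N, x ^ p = 1 := by
    intro v
    induction v using QuotientGroup.induction_on with
    | H a =>
      rw [← QuotientGroup.mk_pow, QuotientGroup.eq_one_iff]
      show ((a ^ p : ↥Ω) : A) ∈ D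
      rw [Subgroup.coe_pow]
      exact hexp a a.2
  let W : Subgroup (↥Ω ⧸ N) := (M.subgroupOf Ω).map (QuotientGroup.mk' N)
  have hW : ∀ a, ∀ v ∈ W, φ a v ∈ W := by
    rintro a _ ⟨m, hm, rfl⟩
    refine ⟨res a m, ?_, rfl⟩
    show ((res a m : ↥Ω) : A) ∈ M
    rw [hres]
    exact hM a a.2 m hm
  obtain ⟨U, hUinv, hWU, hWU'⟩ := Cfsg.Agent.H1.MaxInv.maschke_mul p hcomm hexp' hX φ hone hmul W hW
  refine ⟨(U.comap (QuotientGroup.mk' N)).map Ω.subtype, ?_, ?_, ?_, ?_, ?_⟩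
  · rintro x hx _ ⟨a, ha, rfl⟩
    refine ⟨res ⟨x, hx⟩ a, ?_, rfl⟩
    rw [SetLike.mem_coe, Subgroup.mem_comap] at ha ⊢
    exact hUinv ⟨x, hx⟩ _ ha
  · intro d hd
    refine ⟨⟨d, hMΩ (hDM hd)⟩, ?_, rfl⟩
    rw [SetLike.mem_coe, Subgroup.mem_comap]
    have : (QuotientGroup.mk' N) ⟨d, hMΩ (hDM hd)⟩ = 1 := by
      rw [QuotientGroup.mk'_apply, QuotientGroup.eq_one_iff]
      exact hd
    rw [this]
    exact U.one_mem
  · rintro _ ⟨a, -, rfl⟩
    exact a.2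
  · rintro _ ⟨⟨a, ha⟩, hm⟩
    have haU : (QuotientGroup.mk' N) a ∈ U := ha.1
    have haW : (QuotientGroup.mk' N) a ∈ W := by
      refine ⟨a, ?_, rfl⟩
      have := ha.2
      subst this
      exact hm
    have : (QuotientGroup.mk' N) a ∈ W ⊓ U := ⟨haW, haU⟩
    rw [hWU, Subgroup.mem_bot, QuotientGroup.mk'_apply, QuotientGroup.eq_one_iff] at this
    have h2 := ha.2
    subst h2
    exact this
  · intro a ha
    have hmem : (QuotientGroup.mk' N) ⟨a, ha⟩ ∈ W ⊔ U := by rw [hWU']; trivial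
    obtain ⟨w, ⟨m, hm, rfl⟩, u, hu, hwu⟩ := Subgroup.mem_sup.mp hmem
    have hu' : (QuotientGroup.mk' N) (m⁻¹ * ⟨a, ha⟩) = u := by
      rw [map_mul, map_inv, ← hwu, inv_mul_cancel_left]
    have h1 : ((m⁻¹ * ⟨a, ha⟩ : ↥Ω) : A) ∈ (U.comap (QuotientGroup.mk' N)).map Ω.subtype := by
      refine ⟨m⁻¹ * ⟨a, ha⟩, ?_, rfl⟩
      rw [SetLike.mem_coe, Subgroup.mem_comap, hu']
      exact hu
    have h2 : a = ((m⁻¹ * ⟨a, ha⟩ : ↥Ω) : A) * (m : A) := by
      rw [Subgroup.coe_mul, Subgroup.coe_inv]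
      show a = (m : A)⁻¹ * a * (m : A)
      rw [mul_comm, mul_inv_cancel_left]
    rw [h2]
    exact Subgroup.mul_mem_sup h1 hm

/-- Key decomposition: an invariant subgroup `U` of `A ^ (p ^ n)` (where `A` has exponent
dividing `p ^ (n + 1)`) is the `Ω₁` of an invariant direct factor. -/
theorem exists_decomp [Finite A] {p : ℕ} [Fact p.Prime] (X : Subgroup (MulAut A))
    (hX : (Nat.card X).Coprime p) (n : ℕ) (hn : ∀ a : A, a ^ p ^ (n + 1) = 1)
    (U : Subgroup A) (hU : Inv X U) (hUV : ∀ u ∈ U, ∃ a : A, a ^ p ^ n = u) (hU1 : U ≠ ⊥) :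
    ∃ B D : Subgroup A, Inv X B ∧ Inv X D ∧ B ≠ ⊥ ∧ B ⊓ D = ⊥ ∧ B ⊔ D = ⊤ ∧
      (∀ b ∈ B, b ^ p = 1 → b ∈ U) := by
  classical
  have hp : p.Prime := Fact.out
  -- Step 1: minimal invariant `B` with `B ^ (p ^ n) = U`.
  let S : Set (Subgroup A) := {B | Inv X B ∧ (∀ b ∈ B, b ^ p ^ n ∈ U) ∧ (∀ u ∈ U, ∃ b ∈ B, b ^ p ^ n = u)}
  have hSne : S.Nonempty := by
    refine ⟨U.comap (powMonoidHom (p ^ n)), inv_comap_pow hU _, ?_, ?_⟩
    · intro b hb
      exact hb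
    · intro u hu
      obtain ⟨a, rfl⟩ := hUV u hu
      exact ⟨a, hu, rfl⟩
  obtain ⟨B, hBmin⟩ := (Set.toFinite S).exists_minimal hSne
  obtain ⟨hBinv, hBU, hUB⟩ := hBmin.prop
  -- Claim 1
  have hcl1 : ∀ b ∈ B, b ^ p ^ n = 1 → ∃ c ∈ B, c ^ p = b := by
    have hDinv : Inv X (B.map (powMonoidHom p)) := inv_map_pow hBinv p
    have hMinv : Inv X (B ⊓ (⊥ : Subgroup A).comap (powMonoidHom (p ^ n))) :=
      inv_inf hBinv (inv_comap_pow (inv_bot X) _)
    have hDM : B.map (powMonoidHom p) ≤ B ⊓ (⊥ : Subgroup A).comap (powMonoidHom (p ^ n)) := by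
      rintro _ ⟨c, hc, rfl⟩
      refine Subgroup.mem_inf.mpr ⟨B.pow_mem hc p, ?_⟩
      rw [Subgroup.mem_comap, Subgroup.mem_bot]
      show (c ^ p) ^ p ^ n = 1
      rw [← pow_mul, ← pow_succ']
      exact hn c
    obtain ⟨F, hFinv, hDF, hFB, hFM, hBF⟩ := sec_maschke X hX (B.map (powMonoidHom p))
      (B ⊓ (⊥ : Subgroup A).comap (powMonoidHom (p ^ n))) B hDM inf_le_left hDinv hMinv hBinv
      (fun a ha => ⟨a, ha, rfl⟩)
    have hFS : F ∈ S := by
      refine ⟨hFinv, fun b hb => hBU b (hFB hb), ?_⟩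
      intro u hu
      obtain ⟨b, hb, rfl⟩ := hUB u hu
      obtain ⟨f, hf, m, hm, rfl⟩ := Subgroup.mem_sup.mp (hBF hb)
      refine ⟨f, hf, ?_⟩
      have hm1 : m ^ p ^ n = 1 := by
        have := (Subgroup.mem_inf.mp hm).2
        rw [Subgroup.mem_comap, Subgroup.mem_bot] at this
        exact this
      rw [mul_pow, hm1, mul_one]
    have hBF' : B ≤ F := hBmin.le_of_le hFS hFB
    intro b hb hb1
    have hbM : b ∈ B ⊓ (⊥ : Subgroup A).comap (powMonoidHom (p ^ n)) := by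
      refine Subgroup.mem_inf.mpr ⟨hb, ?_⟩
      rw [Subgroup.mem_comap, Subgroup.mem_bot]
      exact hb1
    obtain ⟨c, hc, hcb⟩ := hFM (Subgroup.mem_inf.mpr ⟨hBF' hb, hbM⟩)
    exact ⟨c, hc, hcb⟩
  -- Claim 2
  have hcl2 : ∀ k, k ≤ n + 1 → ∀ b ∈ B, b ^ p ^ (n + 1 - k) = 1 → ∃ c ∈ B, c ^ p ^ k = b := by
    intro k
    induction k with
    | zero =>
      intro _ b hb _
      exact ⟨b, hb, by simp⟩
    | succ k ih =>
      intro hk b hb hb1
      have hbn : b ^ p ^ n = 1 := by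
        have : n = (n + 1 - (k + 1)) + k := by omega
        rw [this, pow_add, pow_mul, hb1, one_pow]
      obtain ⟨c, hc, rfl⟩ := hcl1 b hb hbn
      have hc1 : c ^ p ^ (n + 1 - k) = 1 := by
        have : n + 1 - k = (n + 1 - (k + 1)) + 1 := by omega
        rw [this, pow_succ', pow_mul]
        exact hb1
      obtain ⟨d, hd, rfl⟩ := ih (by omega) c hc hc1
      exact ⟨d, hd, by rw [pow_succ, pow_mul]⟩
  have hBom : ∀ b ∈ B, b ^ p = 1 → b ∈ U := by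
    intro b hb hb1
    have : b ^ p ^ (n + 1 - n) = 1 := by
      have : n + 1 - n = 1 := by omega
      rw [this, pow_one]
      exact hb1
    obtain ⟨c, hc, rfl⟩ := hcl2 n (by omega) b hb this
    exact hBU c hc
  have hB1 : B ≠ ⊥ := by
    intro hB
    apply hU1
    rw [eq_bot_iff]
    intro u hu
    obtain ⟨b, hb, rfl⟩ := hUB u hu
    rw [hB, Subgroup.mem_bot] at hb
    rw [hb, one_pow]
    exact Subgroup.one_mem _
  -- Step 2: maximal invariant `D` with `B ⊓ D = ⊥`.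
  let T : Set (Subgroup A) := {D | Inv X D ∧ B ⊓ D = ⊥}
  have hTne : T.Nonempty := ⟨⊥, inv_bot X, inf_bot_eq B⟩
  obtain ⟨D, hDmax⟩ := (Set.toFinite T).exists_maximal hTne
  obtain ⟨hDinv, hBD⟩ := hDmax.prop
  refine ⟨B, D, hBinv, hDinv, hB1, hBD, ?_, hBom⟩
  by_contra hne
  obtain ⟨a, ha⟩ : ∃ a : A, a ∉ B ⊔ D := by
    by_contra h
    push_neg at h
    exact hne (eq_top_iff.mpr fun a _ => h a)
  -- an element outside `B ⊔ D` whose `p`-th power is inside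
  obtain ⟨a, ha, hap⟩ : ∃ a : A, a ∉ B ⊔ D ∧ a ^ p ∈ B ⊔ D := by
    have hex : ∃ k, a ^ p ^ k ∈ B ⊔ D := ⟨n + 1, by rw [hn a]; exact Subgroup.one_mem _⟩
    have hk0 : Nat.find hex ≠ 0 := by
      intro h0
      have := Nat.find_spec hex
      rw [h0, pow_zero, pow_one] at this
      exact ha this
    obtain ⟨k, hk⟩ := Nat.exists_eq_succ_of_ne_zero hk0
    refine ⟨a ^ p ^ k, Nat.find_min hex (by omega), ?_⟩
    have := Nat.find_spec hex
    rw [hk, pow_succ, pow_mul] at this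
    exact this
  obtain ⟨b, hb, d, hd, hbd⟩ := Subgroup.mem_sup.mp hap
  have hbn : b ^ p ^ n = 1 := by
    have h1 : (b * d) ^ p ^ n = 1 := by
      rw [hbd, ← pow_mul, ← pow_succ']
      exact hn a
    rw [mul_pow] at h1
    have h2 : b ^ p ^ n ∈ B ⊓ D := by
      refine Subgroup.mem_inf.mpr ⟨B.pow_mem hb _, ?_⟩
      rw [eq_inv_of_mul_eq_one_left h1]
      exact D.inv_mem (D.pow_mem hd _)
    rw [hBD, Subgroup.mem_bot] at h2
    exact h2
  obtain ⟨c, hc, rfl⟩ := hcl1 b hb hbn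
  have ha' : a * c⁻¹ ∉ B ⊔ D := by
    intro h
    apply ha
    have : a = a * c⁻¹ * c := by group
    rw [this]
    exact (B ⊔ D).mul_mem h ((le_sup_left : B ≤ B ⊔ D) hc)
  have hap' : (a * c⁻¹) ^ p ∈ D := by
    rw [mul_pow, inv_pow, ← hbd, mul_comm (c ^ p) d, mul_inv_cancel_right]
    exact hd
  -- Maschke in `Ω / D`
  have hDΩ : D ≤ D.comap (powMonoidHom p) := by
    intro x hx
    rw [Subgroup.mem_comap]
    exact D.pow_mem hx p
  have hΩinv : Inv X (D.comap (powMonoidHom p)) := inv_comap_pow hDinv p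
  have hMinv : Inv X ((B ⊔ D) ⊓ D.comap (powMonoidHom p)) := inv_inf (inv_sup hBinv hDinv) hΩinv
  obtain ⟨F, hFinv, hDF, hFΩ, hFM, hΩF⟩ := sec_maschke X hX D ((B ⊔ D) ⊓ D.comap (powMonoidHom p))
    (D.comap (powMonoidHom p)) (le_inf le_sup_right hDΩ) inf_le_right hDinv hMinv hΩinv
    (fun a ha => ha)
  have hBF : B ⊓ F = ⊥ := by
    rw [eq_bot_iff]
    intro x hx
    have hxB := (Subgroup.mem_inf.mp hx).1
    have hxF := (Subgroup.mem_inf.mp hx).2
    have hxD : x ∈ D := hFM (Subgroup.mem_inf.mpr ⟨hxF, Subgroup.mem_inf.mpr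
      ⟨(le_sup_left : B ≤ B ⊔ D) hxB, hFΩ hxF⟩⟩)
    rw [← hBD]
    exact Subgroup.mem_inf.mpr ⟨hxB, hxD⟩
  have hFD : F ≤ D := hDmax.le_of_ge (show F ∈ T from ⟨hFinv, hBF⟩) hDF
  have : a * c⁻¹ ∈ F ⊔ (B ⊔ D) ⊓ D.comap (powMonoidHom p) := hΩF hap'
  exact ha' ((sup_le (hFD.trans le_sup_right) inf_le_left) this)

/-- Existence of an exponent bound `p ^ N` for a finite `p`-group. -/
theorem exists_exp [Finite A] {p : ℕ} [Fact p.Prime] (hA : IsPGroup p A) :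
    ∃ N : ℕ, ∀ a : A, a ^ p ^ N = 1 := by
  obtain ⟨N, hN⟩ := IsPGroup.iff_card.mp hA
  exact ⟨N, fun a => by rw [← hN]; exact pow_card_eq_one'⟩

/-- (iii) ⇒ (ii). -/
theorem omega_of_irred [Finite A] {p : ℕ} [Fact p.Prime] (hA : IsPGroup p A)
    (X : Subgroup (MulAut A))
    (h3 : ∀ B : Subgroup A, Inv X B → (∀ b ∈ B, b ^ p = 1) → B = ⊥ ∨ ∀ a : A, a ∈ B ↔ a ^ p = 1)
    (B : Subgroup A) (hB : Inv X B) : ∃ i : ℕ, ∀ a : A, a ∈ B ↔ a ^ p ^ i = 1 := by
  classical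
  obtain ⟨N, hN⟩ := exists_exp hA
  by_cases hall : ∀ i : ℕ, ∀ a : A, a ^ p ^ i = 1 → a ∈ B
  · exact ⟨N, fun a => ⟨fun _ => hN a, hall N a⟩⟩
  · push_neg at hall
    have hi0 : Nat.find hall ≠ 0 := by
      intro h0
      obtain ⟨a, ha1, ha2⟩ := Nat.find_spec hall
      rw [h0, pow_zero, pow_one] at ha1
      rw [ha1] at ha2
      exact ha2 B.one_mem
    obtain ⟨j, hj⟩ := Nat.exists_eq_succ_of_ne_zero hi0
    have hjB : ∀ a : A, a ^ p ^ j = 1 → a ∈ B := by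
      intro a ha
      by_contra hab
      exact Nat.find_min hall (show j < Nat.find hall by omega) ⟨a, ha, hab⟩
    obtain ⟨y, hy1, hy2⟩ := Nat.find_spec hall
    rw [hj] at hy1
    refine ⟨j, fun a => ⟨?_, hjB a⟩⟩
    -- the section
    have hCinv : Inv X ((B ⊓ (⊥ : Subgroup A).comap (powMonoidHom (p ^ (j + 1)))).map
        (powMonoidHom (p ^ j))) :=
      inv_map_pow (inv_inf hB (inv_comap_pow (inv_bot X) _)) _
    have hCexp : ∀ c ∈ (B ⊓ (⊥ : Subgroup A).comap (powMonoidHom (p ^ (j + 1)))).map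
        (powMonoidHom (p ^ j)), c ^ p = 1 := by
      rintro _ ⟨c, hc, rfl⟩
      have := (Subgroup.mem_inf.mp hc).2
      rw [Subgroup.mem_comap, Subgroup.mem_bot] at this
      show (c ^ p ^ j) ^ p = 1
      rw [← pow_mul, ← pow_succ]
      exact this
    have hkey : ∀ b ∈ B, b ^ p ^ (j + 1) = 1 → b ^ p ^ j = 1 := by
      rcases h3 _ hCinv hCexp with hC | hC
      · intro b hb hb1
        have : b ^ p ^ j ∈ (B ⊓ (⊥ : Subgroup A).comap (powMonoidHom (p ^ (j + 1)))).map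
            (powMonoidHom (p ^ j)) := by
          refine ⟨b, Subgroup.mem_inf.mpr ⟨hb, ?_⟩, rfl⟩
          rw [Subgroup.mem_comap, Subgroup.mem_bot]
          exact hb1
        rw [hC, Subgroup.mem_bot] at this
        exact this
      · exfalso
        apply hy2
        have hy3 : (y ^ p ^ j) ^ p = 1 := by
          rw [← pow_mul, ← pow_succ]
          exact hy1
        obtain ⟨c, hc, hcy⟩ := (hC _).mpr hy3
        have hcy' : c ^ p ^ j = y ^ p ^ j := hcy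
        have h1 : (y * c⁻¹) ^ p ^ j = 1 := by
          rw [mul_pow, inv_pow, hcy', mul_inv_cancel]
        have h2 : y = y * c⁻¹ * c := by group
        rw [h2]
        exact B.mul_mem (hjB _ h1) (Subgroup.mem_inf.mp hc).1
    intro ha
    by_contra hne
    have hex : ∃ m, a ^ p ^ m = 1 := ⟨N, hN a⟩
    have hm : j < Nat.find hex := by
      by_contra hle
      push_neg at hle
      apply hne
      have h1 := Nat.find_spec hex
      have : j = Nat.find hex + (j - Nat.find hex) := by omega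
      rw [this, pow_add, pow_mul, h1, one_pow]
    obtain ⟨t, ht⟩ : ∃ t, Nat.find hex = t + (j + 1) := ⟨Nat.find hex - (j + 1), by omega⟩
    have h1 : (a ^ p ^ t) ^ p ^ (j + 1) = 1 := by
      rw [← pow_mul, ← pow_add, ← ht]
      exact Nat.find_spec hex
    have h2 := hkey _ (B.pow_mem ha _) h1
    rw [← pow_mul, ← pow_add] at h2
    exact Nat.find_min hex (show t + j < Nat.find hex by omega) h2

/-- (i) ⇒ (iii). -/
theorem irred_of_indecomp [Finite A] {p : ℕ} [Fact p.Prime] (hA : IsPGroup p A)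
    (X : Subgroup (MulAut A)) (hX : (Nat.card X).Coprime p)
    (h1 : ¬ ∃ B C : Subgroup A, B ≠ ⊥ ∧ C ≠ ⊥ ∧ Inv X B ∧ Inv X C ∧ B ⊓ C = ⊥ ∧ B ⊔ C = ⊤)
    (U : Subgroup A) (hU : Inv X U) (hUexp : ∀ b ∈ U, b ^ p = 1) :
    U = ⊥ ∨ ∀ a : A, a ∈ U ↔ a ^ p = 1 := by
  classical
  by_cases hU1 : U = ⊥
  · exact Or.inl hU1
  right
  have hex : ∃ N : ℕ, ∀ a : A, a ^ p ^ N = 1 := exists_exp hA
  have hN0 : Nat.find hex ≠ 0 := by
    intro h0
    apply hU1
    rw [eq_bot_iff]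
    intro u _
    have := Nat.find_spec hex u
    rw [h0, pow_zero, pow_one] at this
    rw [this]
    exact Subgroup.one_mem _
  obtain ⟨n, hn⟩ := Nat.exists_eq_succ_of_ne_zero hN0
  have hexp : ∀ a : A, a ^ p ^ (n + 1) = 1 := by
    have := Nat.find_spec hex
    rwa [hn] at this
  have hnot : ¬ ∀ a : A, a ^ p ^ n = 1 := Nat.find_min hex (show n < Nat.find hex by omega)
  push_neg at hnot
  obtain ⟨a₀, ha₀⟩ := hnot
  -- general consequence of indecomposability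
  have hgen : ∀ U' : Subgroup A, Inv X U' → (∀ u ∈ U', ∃ a : A, a ^ p ^ n = u) → U' ≠ ⊥ →
      ∀ a : A, a ^ p = 1 → a ∈ U' := by
    intro U' hU' hUV hU'1 a ha
    obtain ⟨B, D, hBinv, hDinv, hB1, hBD, hBD', hBom⟩ := exists_decomp X hX n hexp U' hU' hUV hU'1
    have hD : D = ⊥ := by
      by_contra hD
      exact h1 ⟨B, D, hB1, hD, hBinv, hDinv, hBD, hBD'⟩
    rw [hD, sup_bot_eq] at hBD'
    exact hBom a (by rw [hBD']; trivial) ha
  have hV1 : ∀ a : A, a ^ p = 1 → a ∈ (powMonoidHom (p ^ n) : A →* A).range := by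
    apply hgen
    · rintro x hx _ ⟨a, rfl⟩
      exact ⟨x a, by simp [powMonoidHom_apply, map_pow]⟩
    · rintro _ ⟨a, rfl⟩
      exact ⟨a, rfl⟩
    · intro h
      have : a₀ ^ p ^ n ∈ (powMonoidHom (p ^ n) : A →* A).range := ⟨a₀, rfl⟩
      rw [h, Subgroup.mem_bot] at this
      exact ha₀ this
  intro a
  refine ⟨hUexp a, ?_⟩
  apply hgen U hU _ hU1
  intro u hu
  obtain ⟨a, ha⟩ := hV1 u (hUexp u hu)
  exact ⟨a, ha⟩

/-- The full equivalence in terms of `Inv`. -/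
theorem main [Finite A] {p : ℕ} [Fact p.Prime] (hA : IsPGroup p A)
    (X : Subgroup (MulAut A)) (hX : (Nat.card X).Coprime p) :
    ((¬ ∃ B C : Subgroup A, B ≠ ⊥ ∧ C ≠ ⊥ ∧ Inv X B ∧ Inv X C ∧ B ⊓ C = ⊥ ∧ B ⊔ C = ⊤) ↔
      (∀ B : Subgroup A, Inv X B → ∃ i : ℕ, ∀ a : A, a ∈ B ↔ a ^ p ^ i = 1)) ∧
    ((∀ B : Subgroup A, Inv X B → ∃ i : ℕ, ∀ a : A, a ∈ B ↔ a ^ p ^ i = 1) ↔
      (∀ B : Subgroup A, Inv X B → (∀ b ∈ B, b ^ p = 1) → B = ⊥ ∨ ∀ a : A, a ∈ B ↔ a ^ p = 1)) := by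
  have h23 : (∀ B : Subgroup A, Inv X B → ∃ i : ℕ, ∀ a : A, a ∈ B ↔ a ^ p ^ i = 1) →
      (∀ B : Subgroup A, Inv X B → (∀ b ∈ B, b ^ p = 1) → B = ⊥ ∨ ∀ a : A, a ∈ B ↔ a ^ p = 1) := by
    intro h2 B hB hBexp
    obtain ⟨i, hi⟩ := h2 B hB
    rcases Nat.eq_zero_or_pos i with h0 | hpos
    · left
      rw [eq_bot_iff]
      intro b hb
      have := (hi b).mp hb
      rw [h0, pow_zero, pow_one] at this
      rw [Subgroup.mem_bot]
      exact this
    · right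
      intro a
      refine ⟨hBexp a, fun ha => (hi a).mpr ?_⟩
      have : i = 1 + (i - 1) := by omega
      rw [this, pow_add, pow_one, pow_mul, ha, one_pow]
  have h32 := omega_of_irred hA X
  have h21 : (∀ B : Subgroup A, Inv X B → ∃ i : ℕ, ∀ a : A, a ∈ B ↔ a ^ p ^ i = 1) →
      ¬ ∃ B C : Subgroup A, B ≠ ⊥ ∧ C ≠ ⊥ ∧ Inv X B ∧ Inv X C ∧ B ⊓ C = ⊥ ∧ B ⊔ C = ⊤ := by
    rintro h2 ⟨B, C, hB1, hC1, hB, hC, hBC, -⟩
    obtain ⟨i, hi⟩ := h2 B hB
    obtain ⟨j, hj⟩ := h2 C hC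
    have hmono : ∀ (s t : ℕ) (a : A), s ≤ t → a ^ p ^ s = 1 → a ^ p ^ t = 1 := by
      intro s t a hst ha
      have : t = s + (t - s) := by omega
      rw [this, pow_add, pow_mul, ha, one_pow]
    rcases le_total i j with hij | hij
    · apply hB1
      rw [eq_bot_iff, ← hBC]
      intro b hb
      exact Subgroup.mem_inf.mpr ⟨hb, (hj b).mpr (hmono i j b hij ((hi b).mp hb))⟩
    · apply hC1
      rw [eq_bot_iff, ← hBC]
      intro b hb
      exact Subgroup.mem_inf.mpr ⟨(hi b).mpr (hmono j i b hij ((hj b).mp hb)), hb⟩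
  refine ⟨⟨fun h1 => h32 (fun U hU hUexp => irred_of_indecomp hA X hX h1 U hU hUexp), h21⟩,
    ⟨h23, h32⟩⟩

end Cfsg.Agent.H14.AbelCoprime
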