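import Mathlib
import Cfsg.Agent.H77.TmDefs
import Cfsg.Agent.H49.MinusForm
import Cfsg.Agent.H49.Plus
import Cfsg.Agent.H49.SimpleForms

/-!
# COUNT sub-tree of S5987 / S5973 (helper14): totally singular subspaces of a quadratic space

Characteristic-free counting of totally singular subspaces by AVERAGING: for a quadratic form
`Q` with nondegenerate polar form on `V` (`dim V = D`, `|F| = q`) and a totally singular `U`
of dimension `j`,
`#{w ∈ U^⊥ : Q w = 0} + q^(D-1) = #{w ∈ V : Q w = 0} + q^(D-1-j)`.
Hence the number of totally singular `m`-spaces is determined by the number of zeros of `Q`.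
-/

set_option autoImplicit false

namespace Cfsg.Agent.H14.Cq

open Cfsg.Agent.H77.Tq Cfsg.Agent.H77.Tm Module

universe u v

/-! ## Generic pieces (any characteristic) -/

/-- CQ-PERP: the orthogonal complement of a subspace `U` for a nondegenerate polar form has
`q^(D - dim U)` elements. -/
def StPerp : Prop :=
  ∀ (F : Type u) [Field F] [Fintype F] (V : Type v) [AddCommGroup V] [Module F V]
    [FiniteDimensional F V] (Q : QuadraticForm F V),
    (∀ x, (∀ y, QuadraticMap.polar ⇑Q x y = 0) → x = 0) →
    ∀ U : Submodule F V,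
    Nat.card {w : V // ∀ u ∈ U, QuadraticMap.polar ⇑Q u w = 0} =
      Fintype.card F ^ (Module.finrank F V - Module.finrank F U)

/-- CQ-AVG: the averaging identity for a totally singular subspace `U`. -/
def StAvg : Prop :=
  ∀ (F : Type u) [Field F] [Fintype F] (V : Type v) [AddCommGroup V] [Module F V]
    [FiniteDimensional F V] (Q : QuadraticForm F V),
    (∀ x, (∀ y, QuadraticMap.polar ⇑Q x y = 0) → x = 0) →
    ∀ U : Submodule F V, (∀ u ∈ U, Q u = 0) →
    Nat.card {w : V // Q w = 0 ∧ ∀ u ∈ U, QuadraticMap.polar ⇑Q u w = 0} +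
        Fintype.card F ^ (Module.finrank F V - 1) =
      Nat.card {w : V // Q w = 0} +
        Fintype.card F ^ (Module.finrank F V - 1 - Module.finrank F U)

/-- CQ-EXT: the number of singular vectors orthogonal to, but outside, the span of a linearly
independent totally singular `m`-tuple. -/
def StExt : Prop :=
  ∀ (F : Type u) [Field F] [Fintype F] (V : Type v) [AddCommGroup V] [Module F V]
    [FiniteDimensional F V] (Q : QuadraticForm F V),
    (∀ x, (∀ y, QuadraticMap.polar ⇑Q x y = 0) → x = 0) →
    ∀ (m : ℕ) (v : Fin m → V), LinearIndependent F v → (∀ a, Q (v a) = 0) →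
    (∀ a b, QuadraticMap.polar ⇑Q (v a) (v b) = 0) →
    Nat.card {w : V // Q w = 0 ∧ (∀ a, QuadraticMap.polar ⇑Q (v a) w = 0) ∧
        w ∉ Submodule.span F (Set.range v)} +
        Fintype.card F ^ (Module.finrank F V - 1) + Fintype.card F ^ m =
      Nat.card {w : V // Q w = 0} + Fintype.card F ^ (Module.finrank F V - 1 - m)

/-- CQ-TUPLES: the number of linearly independent `m`-tuples of pairwise orthogonal singular
vectors (truncated subtraction; the product vanishes beyond the Witt index). -/
def StTuples : Prop :=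
  ∀ (F : Type u) [Field F] [Fintype F] (V : Type v) [AddCommGroup V] [Module F V]
    [FiniteDimensional F V] (Q : QuadraticForm F V),
    (∀ x, (∀ y, QuadraticMap.polar ⇑Q x y = 0) → x = 0) → ∀ m : ℕ,
    Nat.card {v : Fin m → V // LinearIndependent F v ∧ (∀ a, Q (v a) = 0) ∧
        ∀ a b, QuadraticMap.polar ⇑Q (v a) (v b) = 0} =
      ∏ j ∈ Finset.range m, (Nat.card {w : V // Q w = 0} +
        Fintype.card F ^ (Module.finrank F V - 1 - j) - Fintype.card F ^ (Module.finrank F V - 1) -
        Fintype.card F ^ j)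

/-- CQ-FIB: every totally singular `m`-space has `|GL_m(q)|` ordered bases, and the span of a
linearly independent totally singular tuple is totally singular. -/
def StFib : Prop :=
  ∀ (F : Type u) [Field F] [Fintype F] (V : Type v) [AddCommGroup V] [Module F V]
    [FiniteDimensional F V] (Q : QuadraticForm F V) (m : ℕ),
    Nat.card {v : Fin m → V // LinearIndependent F v ∧ (∀ a, Q (v a) = 0) ∧
        ∀ a b, QuadraticMap.polar ⇑Q (v a) (v b) = 0} =
      Nat.card {W : Submodule F V // Module.finrank F ↥W = m ∧ ∀ w ∈ W, Q w = 0} *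
        ∏ j ∈ Finset.range m, (Fintype.card F ^ m - Fintype.card F ^ j)

/-! ## Zeros of the standard forms -/

/-- CQ-HYPC: the number of solutions of `∑ xᵢ yᵢ = c`, `c ≠ 0`, `d ≥ 1`. -/
def StHypC : Prop :=
  ∀ (F : Type u) [Field F] [Fintype F] (d : ℕ) (c : F), 1 ≤ d → c ≠ 0 →
    Nat.card {v : Fin d ⊕ Fin d → F // Cfsg.quadFormPlus d F v = c} + Fintype.card F ^ (d - 1) =
      Fintype.card F ^ (2 * d - 1)

/-- CQ-ZPLUS: the number of zeros of the plus form. -/
def StZPlus : Prop :=
  ∀ (F : Type u) [Field F] [Fintype F] (d : ℕ), 1 ≤ d →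
    Nat.card {v : Fin d ⊕ Fin d → F // Cfsg.quadFormPlus d F v = 0} + Fintype.card F ^ (d - 1) =
      Fintype.card F ^ (2 * d - 1) + Fintype.card F ^ d

/-- CQ-ZMINUS: the number of zeros of the minus form. -/
def StZMinus : Prop :=
  ∀ (F : Type u) [Field F] [Fintype F] (k : ℕ) (a b : F), Aniso a b →
    Nat.card {v : MI k → F // Cfsg.quadFormMinus k F a b v = 0} + Fintype.card F ^ (k + 1) =
      Fintype.card F ^ (2 * k + 1) + Fintype.card F ^ k

/-! ## The standard spaces -/

/-- The number of totally singular `m`-spaces of the plus space. -/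
noncomputable def NP (F : Type u) [Field F] (d m : ℕ) : ℕ :=
  Nat.card {W : Submodule F (Fin d ⊕ Fin d → F) // Module.finrank F ↥W = m ∧
    (∀ w ∈ W, Cfsg.quadFormPlus d F w = 0)}

/-- CQ-CARDM: the number of totally singular `m`-spaces of the minus space, `m ≤ k`. -/
def StCardM : Prop :=
  ∀ (F : Type u) [Field F] [Fintype F] (k : ℕ) (a b : F) (m : ℕ), Aniso a b → m ≤ k →
    NM F k a b m * ∏ j ∈ Finset.range m, (Fintype.card F ^ m - Fintype.card F ^ j) =
      ∏ j ∈ Finset.range m, (Fintype.card F ^ j *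
        ((Fintype.card F ^ (k + 1 - j) + 1) * (Fintype.card F ^ (k - j) - 1)))

/-- CQ-CARDP: the number of totally singular `m`-spaces of the plus space, `m ≤ d`. -/
def StCardP : Prop :=
  ∀ (F : Type u) [Field F] [Fintype F] (d m : ℕ), m ≤ d →
    NP F d m * ∏ j ∈ Finset.range m, (Fintype.card F ^ m - Fintype.card F ^ j) =
      ∏ j ∈ Finset.range m, (Fintype.card F ^ j *
        ((Fintype.card F ^ (d - j) - 1) * (Fintype.card F ^ (d - 1 - j) + 1)))

/-- CQ-CNTPP: the number of totally singular `m`-spaces of the plus space, `m < d`, is prime to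
the characteristic. -/
def StCntPP : Prop :=
  ∀ (F : Type u) [Field F] [Fintype F] (p : ℕ) [Fact p.Prime] [CharP F p] (d m : ℕ), m < d →
    ¬ p ∣ NP F d m

/-- CQ-CNTPL: a prime `r ≠ p` dividing the number of totally singular `m`-spaces of the plus
space divides `q^(d-j) - 1` or `q^(d-1-j) + 1` for some `j < m`. -/
def StCntPl : Prop :=
  ∀ (F : Type u) [Field F] [Fintype F] (p : ℕ) [Fact p.Prime] [CharP F p] (d m r : ℕ), m ≤ d →
    r.Prime → r ≠ p → r ∣ NP F d m →
    ∃ j, j < m ∧ (r ∣ Fintype.card F ^ (d - j) - 1 ∨ r ∣ Fintype.card F ^ (d - 1 - j) + 1)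

end Cfsg.Agent.H14.Cq
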