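import Mathlib
import Cfsg.Agent.H14.CqDefs
import Cfsg.Agent.H98.OtFib

/-!
# Piece CQ-FIB (helper14), generic version of helper98's H98/OtFib.lean

Every totally singular `m`-space has `∏_{j<m} (q^m - q^j)` ordered bases.
-/

set_option autoImplicit false

namespace Cfsg.Agent.H14.Cq

open Module

universe u v

theorem fib : StFib.{u, v} := by
  classical
  intro F _ _ V _ _ _ Q m
  haveI : Finite V := Module.finite_of_finite F
  let f : {v : Fin m → V // LinearIndependent F v ∧ (∀ a, Q (v a) = 0) ∧
        ∀ a b, QuadraticMap.polar ⇑Q (v a) (v b) = 0} →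
      {W : Submodule F V // Module.finrank F ↥W = m ∧ ∀ w ∈ W, Q w = 0} :=
    fun v => ⟨Submodule.span F (Set.range v.1),
      by rw [finrank_span_eq_card v.2.1, Fintype.card_fin],
      fun w hw => Cfsg.Agent.H98.Ot.span_ts Q m v.1 v.2.2.1 v.2.2.2 w hw⟩
  have hfib : ∀ W : {W : Submodule F V // Module.finrank F ↥W = m ∧ ∀ w ∈ W, Q w = 0},
      Nat.card {v // f v = W} =
        ∏ j ∈ Finset.range m, (Fintype.card F ^ m - Fintype.card F ^ j) := by
    intro W
    have hcl := card_linearIndependent (K := F) (V := W.1) (k := m) (le_of_eq W.2.1.symm)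
    rw [W.2.1, Fin.prod_univ_eq_prod_range (fun j => Fintype.card F ^ m - Fintype.card F ^ j) m]
      at hcl
    rw [← hcl]
    refine Nat.card_congr ?_
    refine
      { toFun := fun v => ⟨fun i => ⟨v.1.1 i, ?_⟩, ?_⟩
        invFun := fun s => ⟨⟨fun i => (s.1 i : V), ?_, ?_, ?_⟩, ?_⟩
        left_inv := ?_
        right_inv := ?_ }
    · have h1 : Submodule.span F (Set.range v.1.1) = W.1 := congrArg Subtype.val v.2
      rw [← h1]
      exact Submodule.subset_span ⟨i, rfl⟩
    · refine LinearIndependent.of_comp W.1.subtype ?_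
      exact v.1.2.1
    · exact s.2.map' W.1.subtype (Submodule.ker_subtype _)
    · intro a
      exact W.2.2 _ (s.1 a).2
    · intro a b
      unfold QuadraticMap.polar
      rw [W.2.2 _ (s.1 a).2, W.2.2 _ (s.1 b).2, W.2.2 _ (W.1.add_mem (s.1 a).2 (s.1 b).2)]
      simp
    · refine Subtype.ext ?_
      show Submodule.span F (Set.range fun i => (s.1 i : V)) = W.1
      have hLI : LinearIndependent F (fun i => (s.1 i : V)) :=
        s.2.map' W.1.subtype (Submodule.ker_subtype _)
      refine Submodule.eq_of_le_of_finrank_eq ?_ ?_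
      · rw [Submodule.span_le]
        rintro _ ⟨i, rfl⟩
        exact (s.1 i).2
      · rw [finrank_span_eq_card hLI, Fintype.card_fin, W.2.1]
    · intro v
      exact Subtype.ext (Subtype.ext rfl)
    · intro s
      exact Subtype.ext rfl
  have : Fintype {W : Submodule F V // Module.finrank F ↥W = m ∧ ∀ w ∈ W, Q w = 0} :=
    Fintype.ofFinite _
  rw [← Nat.card_congr (Equiv.sigmaFiberEquiv f), Nat.card_sigma,
    Finset.sum_congr rfl (fun W _ => hfib W), Finset.sum_const, Finset.card_univ,
    smul_eq_mul, Nat.card_eq_fintype_card]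

example : StFib.{u, v} := fib

end Cfsg.Agent.H14.Cq
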