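import Mathlib
import Cfsg.Agent.H95.FHDefs

/-!
# helper14: S1142 (Feit–Higman) -- number theory pieces, common tools
-/

set_option autoImplicit false

namespace Cfsg.Agent.H14.FH

open Cfsg.Agent.H95.FH

/-- `1 - cos² (2πj/n) > 0` for `1 ≤ j`, `2 j < n`. -/
theorem one_sub_cos_sq_pos (n j : ℕ) (hj : 1 ≤ j) (hjn : 2 * j < n) :
    0 < 1 - Real.cos (2 * Real.pi * j / n) ^ 2 := by
  have hn0 : (0 : ℝ) < n := by exact_mod_cast (by omega : 0 < n)
  have hj0 : (0 : ℝ) < j := by exact_mod_cast (by omega : 0 < j)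
  have hjn' : (2 : ℝ) * j < n := by exact_mod_cast hjn
  have h1 : 0 < 2 * Real.pi * j / n := by positivity
  have h2 : 2 * Real.pi * j / n < Real.pi := by
    rw [div_lt_iff₀ hn0]
    nlinarith [Real.pi_pos]
  have hs := Real.sin_pos_of_pos_of_lt_pi h1 h2
  have := Real.sin_sq_add_cos_sq (2 * Real.pi * j / n)
  nlinarith

/-- The hypothesis `N = m * closed p q n j` with the denominator cleared. -/
theorem closed_eq (p q n N m j : ℕ) (hp : 2 ≤ p) (hq : 2 ≤ q) (hj : 1 ≤ j)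
    (hjn : 2 * j < n) (h : (N : ℝ) = m * closed p q n j) :
    (N : ℝ) * (4 * p * q * (1 - Real.cos (2 * Real.pi * j / n) ^ 2)) =
      m * n * ((p : ℝ) + q + 2 * Real.sqrt ((p : ℝ) * q) * Real.cos (2 * Real.pi * j / n)) *
      ((p : ℝ) * q + 1 - 2 * Real.sqrt ((p : ℝ) * q) * Real.cos (2 * Real.pi * j / n)) := by
  have hpos := one_sub_cos_sq_pos n j hj hjn
  have hp0 : (0 : ℝ) < p := by exact_mod_cast (by omega : 0 < p)
  have hq0 : (0 : ℝ) < q := by exact_mod_cast (by omega : 0 < q)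
  have hne : 4 * (p : ℝ) * q * (1 - Real.cos (2 * Real.pi * j / n) ^ 2) ≠ 0 := by positivity
  rw [h]
  unfold closed
  field_simp

end Cfsg.Agent.H14.FH
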