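import Mathlib
import Cfsg.Agent.H95.FHDefs
import Cfsg.Agent.H14.FHNTBase

/-!
# helper14: S1142-NTEVEN -- the even case of the number theory of Feit–Higman
-/

set_option autoImplicit false

namespace Cfsg.Agent.H14.FH

open Cfsg.Agent.H95.FH

theorem irrational_sqrt_three : Irrational (Real.sqrt 3) := by
  have h := Nat.Prime.irrational_sqrt Nat.prime_three
  exact_mod_cast h

/-- `n = 12` is impossible. -/
theorem not12 (p q N : ℕ) (hp : 2 ≤ p) (hq : 2 ≤ q)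
    (hyp : ∀ j : ℕ, 1 ≤ j → 2 * j < 12 → ∃ m : ℕ, 0 < m ∧ (N : ℝ) = m * closed p q 12 j) :
    False := by
  obtain ⟨m₁, hm₁, hN₁⟩ := hyp 1 (by norm_num) (by norm_num)
  obtain ⟨m₂, hm₂, hN₂⟩ := hyp 2 (by norm_num) (by norm_num)
  obtain ⟨m₄, hm₄, hN₄⟩ := hyp 4 (by norm_num) (by norm_num)
  obtain ⟨m₅, hm₅, hN₅⟩ := hyp 5 (by norm_num) (by norm_num)
  have e1 := closed_eq p q 12 N m₁ 1 hp hq (by norm_num) (by norm_num) hN₁
  have e2 := closed_eq p q 12 N m₂ 2 hp hq (by norm_num) (by norm_num) hN₂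
  have e4 := closed_eq p q 12 N m₄ 4 hp hq (by norm_num) (by norm_num) hN₄
  have e5 := closed_eq p q 12 N m₅ 5 hp hq (by norm_num) (by norm_num) hN₅
  have c1 : Real.cos (2 * Real.pi * ((1 : ℕ) : ℝ) / ((12 : ℕ) : ℝ)) = Real.sqrt 3 / 2 := by
    rw [← Real.cos_pi_div_six]; congr 1; push_cast; ring
  have c2 : Real.cos (2 * Real.pi * ((2 : ℕ) : ℝ) / ((12 : ℕ) : ℝ)) = 1 / 2 := by
    rw [← Real.cos_pi_div_three]; congr 1; push_cast; ring
  have c4 : Real.cos (2 * Real.pi * ((4 : ℕ) : ℝ) / ((12 : ℕ) : ℝ)) = -(1 / 2) := by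
    rw [← Real.cos_pi_div_three, ← Real.cos_pi_sub]; congr 1; push_cast; ring
  have c5 : Real.cos (2 * Real.pi * ((5 : ℕ) : ℝ) / ((12 : ℕ) : ℝ)) = -(Real.sqrt 3 / 2) := by
    rw [← Real.cos_pi_div_six, ← Real.cos_pi_sub]; congr 1; push_cast; ring
  rw [c1] at e1
  rw [c2] at e2
  rw [c4] at e4
  rw [c5] at e5
  push_cast at e1 e2 e4 e5
  have hp0 : (2 : ℝ) ≤ p := by exact_mod_cast hp
  have hq0 : (2 : ℝ) ≤ q := by exact_mod_cast hq
  have hx2 : Real.sqrt ((p : ℝ) * q) ^ 2 = p * q := Real.sq_sqrt (by positivity)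
  have hxpos : 0 < Real.sqrt ((p : ℝ) * q) := Real.sqrt_pos.mpr (by positivity)
  have h3 : Real.sqrt 3 ^ 2 = 3 := Real.sq_sqrt (by norm_num)
  generalize Real.sqrt ((p : ℝ) * q) = x at *
  generalize hs : Real.sqrt 3 = s at *
  have k1 : ((p : ℝ) - 1) * (q - 1) * x * (m₂ + m₄) =
      (m₄ - m₂) * ((p + q) * (p * q + 1) - p * q) := by
    linear_combination (-(1 : ℝ) / 12) * e2 + (1 / 12) * e4 + ((m₂ : ℝ) - m₄) * hx2
  have k2 : ((p : ℝ) - 1) * (q - 1) * (x * s) * (m₁ + m₅) =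
      (m₅ - m₁) * ((p + q) * (p * q + 1) - 3 * p * q) := by
    linear_combination (-(1 : ℝ) / 12) * e1 + (1 / 12) * e5 + ((m₁ : ℝ) - m₅) * x ^ 2 * h3 +
      3 * ((m₁ : ℝ) - m₅) * hx2
  have hm₁' : (0 : ℝ) < m₁ := by exact_mod_cast hm₁
  have hm₂' : (0 : ℝ) < m₂ := by exact_mod_cast hm₂
  have hm₄' : (0 : ℝ) < m₄ := by exact_mod_cast hm₄
  have hm₅' : (0 : ℝ) < m₅ := by exact_mod_cast hm₅
  have hF : (0 : ℝ) < ((p : ℝ) - 1) * (q - 1) := by
    apply mul_pos <;> linarith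
  have hd1 : ((p : ℝ) - 1) * (q - 1) * (m₂ + m₄) ≠ 0 := by positivity
  have hd2 : ((p : ℝ) - 1) * (q - 1) * (m₁ + m₅) ≠ 0 := by positivity
  -- `x` and `x * s` are rational
  have r1 : x = (((m₄ - m₂) * ((p + q) * (p * q + 1) - p * q) /
      ((p - 1) * (q - 1) * (m₂ + m₄)) : ℚ) : ℝ) := by
    push_cast
    rw [eq_div_iff hd1]
    linear_combination k1
  have r2 : x * s = (((m₅ - m₁) * ((p + q) * (p * q + 1) - 3 * p * q) /
      ((p - 1) * (q - 1) * (m₁ + m₅)) : ℚ) : ℝ) := by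
    push_cast
    rw [eq_div_iff hd2]
    linear_combination k2
  have hirr : Irrational s := hs ▸ irrational_sqrt_three
  apply hirr
  refine ⟨((m₅ - m₁) * ((p + q) * (p * q + 1) - 3 * p * q) /
      ((p - 1) * (q - 1) * (m₁ + m₅)) : ℚ) / ((m₄ - m₂) * ((p + q) * (p * q + 1) - p * q) /
      ((p - 1) * (q - 1) * (m₂ + m₄)) : ℚ), ?_⟩
  rw [Rat.cast_div, ← r1, ← r2]
  field_simp

theorem nteven : NTEvenStmt := by
  intro p q n N hn hp hq hev hyp
  by_cases hn2 : n = 2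
  · exact Or.inl hn2
  right
  obtain ⟨h, rfl⟩ := hev
  have hh2 : 2 ≤ h := by omega
  obtain ⟨m, hm, hN⟩ := hyp 1 le_rfl (by omega)
  obtain ⟨m', hm', hN'⟩ := hyp (h - 1) (by omega) (by omega)
  have e1 := closed_eq p q (h + h) N m 1 hp hq le_rfl (by omega) hN
  have e2 := closed_eq p q (h + h) N m' (h - 1) hp hq (by omega) (by omega) hN'
  have hh0 : (0 : ℝ) < h := by exact_mod_cast (by omega : 0 < h)
  have hcos : Real.cos (2 * Real.pi * ((h - 1 : ℕ) : ℝ) / ((h + h : ℕ) : ℝ)) =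
      -Real.cos (2 * Real.pi * ((1 : ℕ) : ℝ) / ((h + h : ℕ) : ℝ)) := by
    rw [← Real.cos_pi_sub]
    congr 1
    rw [Nat.cast_sub (by omega : 1 ≤ h)]
    push_cast
    field_simp
    ring
  rw [hcos] at e2
  have hp0 : (2 : ℝ) ≤ p := by exact_mod_cast hp
  have hq0 : (2 : ℝ) ≤ q := by exact_mod_cast hq
  have hx2 : Real.sqrt ((p : ℝ) * q) ^ 2 = p * q := Real.sq_sqrt (by positivity)
  have hm0 : (0 : ℚ) < m := by exact_mod_cast hm
  have hm0' : (0 : ℚ) < m' := by exact_mod_cast hm'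
  have hhq : (0 : ℚ) < h := by exact_mod_cast (by omega : 0 < h)
  have hpq : (2 : ℚ) ≤ p := by exact_mod_cast hp
  have hqq : (2 : ℚ) ≤ q := by exact_mod_cast hq
  -- the square of the cosine is rational
  have key : (((4 * p * q * N * (m + m') - 8 * p * q * (h + h) * m * m' : ℚ)) : ℝ) *
      Real.cos (2 * Real.pi * ((1 : ℕ) : ℝ) / ((h + h : ℕ) : ℝ)) ^ 2 =
      ((4 * p * q * N * (m + m') - 2 * (p + q) * (p * q + 1) * (h + h) * m * m' : ℚ) : ℝ) := by
    push_cast at e1 e2 ⊢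
    linear_combination (-(m' : ℝ)) * e1 - (m : ℝ) * e2 +
      8 * ((h : ℝ) + h) * m * m' * Real.cos (2 * Real.pi * 1 / ((h : ℝ) + h)) ^ 2 * hx2
  have hA : (4 * p * q * N * (m + m') - 8 * p * q * (h + h) * m * m' : ℚ) ≠ 0 := by
    intro hA0
    have hB0 : (4 * p * q * N * (m + m') - 2 * (p + q) * (p * q + 1) * (h + h) * m * m' : ℚ)
        = 0 := by
      have hreal : (((4 * p * q * N * (m + m') - 2 * (p + q) * (p * q + 1) * (h + h) * m * m' : ℚ))
          : ℝ) = 0 := by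
        rw [← key, hA0]; simp
      exact_mod_cast hreal
    have hprod : ((2 : ℚ) * (p + q) * (p * q + 1) - 8 * p * q) * ((h + h) * m * m') = 0 := by
      linear_combination hA0 - hB0
    have hpos1 : (0 : ℚ) < (2 : ℚ) * (p + q) * (p * q + 1) - 8 * p * q := by
      nlinarith [mul_nonneg (by linarith : (0 : ℚ) ≤ (p : ℚ) - 2) (by linarith : (0 : ℚ) ≤ (q : ℚ)),
        mul_pos (by linarith : (0 : ℚ) < (p : ℚ)) (by linarith : (0 : ℚ) < (q : ℚ))]
    have hpos2 : (0 : ℚ) < ((h : ℚ) + h) * m * m' := by positivity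
    exact absurd hprod (ne_of_gt (mul_pos hpos1 hpos2))
  have hA' : (((4 * p * q * N * (m + m') - 8 * p * q * (h + h) * m * m' : ℚ)) : ℝ) ≠ 0 := by
    exact_mod_cast hA
  have hCsq : Real.cos (2 * Real.pi * ((1 : ℕ) : ℝ) / ((h + h : ℕ) : ℝ)) ^ 2 =
      (((4 * p * q * N * (m + m') - 2 * (p + q) * (p * q + 1) * (h + h) * m * m' : ℚ) /
        (4 * p * q * N * (m + m') - 8 * p * q * (h + h) * m * m' : ℚ) : ℚ) : ℝ) := by
    rw [Rat.cast_div, eq_div_iff hA']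
    linear_combination key
  -- Niven
  have hθeq : 2 * (2 * Real.pi * ((1 : ℕ) : ℝ) / ((h + h : ℕ) : ℝ)) = 2 * Real.pi / h := by
    push_cast
    field_simp
    ring
  have hθr : ∃ r : ℚ, 2 * (2 * Real.pi * ((1 : ℕ) : ℝ) / ((h + h : ℕ) : ℝ)) = r * Real.pi := by
    refine ⟨2 / h, ?_⟩
    rw [hθeq]
    push_cast
    ring
  have hθc : ∃ r : ℚ, Real.cos (2 * (2 * Real.pi * ((1 : ℕ) : ℝ) / ((h + h : ℕ) : ℝ))) = r := by
    refine ⟨2 * ((4 * p * q * N * (m + m') - 2 * (p + q) * (p * q + 1) * (h + h) * m * m' : ℚ) /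
        (4 * p * q * N * (m + m') - 8 * p * q * (h + h) * m * m' : ℚ)) - 1, ?_⟩
    rw [Real.cos_two_mul, hCsq]
    push_cast
    ring
  have hθb : 2 * (2 * Real.pi * ((1 : ℕ) : ℝ) / ((h + h : ℕ) : ℝ)) ∈ Set.Icc 0 Real.pi := by
    rw [hθeq]
    constructor
    · positivity
    · rw [div_le_iff₀ hh0]
      have : (2 : ℝ) ≤ h := by exact_mod_cast hh2
      nlinarith [Real.pi_pos]
  have hniv := niven_angle_eq hθr hθc hθb
  rw [hθeq] at hniv
  simp only [Set.mem_insert_iff, Set.mem_singleton_iff] at hniv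
  have hpi := Real.pi_pos
  have hcast : ∀ k : ℕ, (h : ℝ) * Real.pi = (k : ℝ) * Real.pi → h = k := by
    intro k hk
    have := mul_right_cancel₀ Real.pi_ne_zero hk
    exact_mod_cast this
  rcases hniv with h0 | h1 | h1 | h1 | h1
  · exfalso
    have : 0 < 2 * Real.pi / h := by positivity
    linarith
  · -- n = 12
    exfalso
    rw [div_eq_iff hh0.ne'] at h1
    have h6 : h = 6 := by
      apply hcast 6
      push_cast
      linarith
    subst h6
    exact not12 p q N hp hq hyp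
  · rw [div_eq_iff hh0.ne'] at h1
    have h4 : h = 4 := by
      apply hcast 4
      push_cast
      linarith
    omega
  · rw [div_eq_iff hh0.ne'] at h1
    have h3 : h = 3 := by
      apply hcast 3
      push_cast
      linarith
    omega
  · rw [div_eq_iff hh0.ne'] at h1
    have h2 : h = 2 := by
      apply hcast 2
      push_cast
      linarith
    omega

end Cfsg.Agent.H14.FH
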