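import Mathlib
import Cfsg.Agent.H77.FxDefs
import Cfsg.Agent.H45.IsoConj
import Cfsg.Agent.H60.SpnEven
import Cfsg.Agent.H54.SpnHyp
import Cfsg.Agent.H75.SpnCompl

/-!
# helper14: S5975-SYMPBASIS -- a nondegenerate alternating form over a finite field is standard
-/

set_option autoImplicit false

namespace Cfsg.Agent.H14.Fx

open Cfsg.Agent.H45 Cfsg.Agent.H42.Spd Cfsg.Agent.H42.Spn Cfsg.Agent.H77.Fx Module

universe u

theorem sympBasis : StSympBasis.{u} := by
  intro L _ _ V _ _ _ B halt hnd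
  have hiso : Iso B (1 : Module.End L V) := ⟨halt, hnd, fun x y => rfl⟩
  have hskew : ∀ x y, B x y = -B y x := Cfsg.Agent.H75.Spn.iso_skew hiso
  -- even dimension
  have htop : (⊤ : Submodule L V) ⊓ perp B ⊤ = ⊥ := by
    rw [eq_bot_iff]
    intro x hx
    rw [Submodule.mem_bot]
    apply hnd
    intro y
    have h0 : B y x = 0 := hx.2 y Submodule.mem_top
    rw [hskew, h0, neg_zero]
  have heven : Even (Module.finrank L (⊤ : Submodule L V)) :=
    Cfsg.Agent.H60.Spn.even Cfsg.Agent.H54.Spn.isoHyp Cfsg.Agent.H75.Spn.isoCompl L V B 1 hiso ⊤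
      htop
  rw [finrank_top] at heven
  obtain ⟨m, hm⟩ := heven
  have hgood : Good (RingHom.id L) (-1) B (1 : Module.End L V) := by
    refine ⟨?_, hnd, fun _ => halt, fun x y => rfl, Module.End.isSemisimple_id⟩
    intro x y
    rw [RingHom.id_apply, hskew]
    ring
  have hgood' : Good (RingHom.id L) (-1) (stdB m L)
      (1 : Module.End L (Fin m ⊕ Fin m → L)) := by
    refine ⟨?_, stdB_nondeg m, fun _ => stdB_alt m, fun x y => rfl, Module.End.isSemisimple_id⟩
    intro x y
    rw [RingHom.id_apply, stdB_skew]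
    ring
  have hfr : Module.finrank L (Fin m ⊕ Fin m → L) = m + m := by simp
  obtain ⟨e, -, he⟩ := isoConj_of_charpoly_eq (RingHom.id L) (fun _ => rfl) (-1) (m + m)
    (stdB m L) B 1 1 hfr hgood' hgood
    (by rw [LinearMap.charpoly_one, LinearMap.charpoly_one, hfr, hm])
  refine ⟨m, e, fun w w' => ?_⟩
  rw [he, stdB_apply]

example : Cfsg.Agent.H77.Fx.StSympBasis.{u} := sympBasis

end Cfsg.Agent.H14.Fx
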