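import Cfsg.Agent.H14.Thompson
import Cfsg.Agent.H14.PSolv
import Cfsg.Agent.H14.Uniserial
import Cfsg.Agent.H47.Offender
import Cfsg.Agent.H66.HHA

/-!
# Transport of the action on a normal elementary abelian subgroup to the holomorph

For `V ⊴ G` we map `G` to the holomorph `V ⋊ Aut(V)`; the image acts faithfully on the
copy of `V`, so the faithful-action results on best offenders (helper47, K–S 9.3) apply.
-/

set_option autoImplicit false
open Cfsg
open scoped commutatorElement Pointwise

namespace Cfsg.Agent.H14.Holo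

universe u

variable {G : Type u} [Group G]

/-- The holomorph of a subgroup. -/
abbrev Hol (V : Subgroup G) := SemidirectProduct ↥V (MulAut ↥V) (MonoidHom.id (MulAut ↥V))

instance (V : Subgroup G) [Finite G] : Finite (Hol V) :=
  Finite.of_equiv _ (SemidirectProduct.equivProd (φ := MonoidHom.id (MulAut ↥V))).symm

/-- The map of `G` to the holomorph of a normal subgroup `V`. -/
def psi (V : Subgroup G) [V.Normal] : G →* Hol V :=
  SemidirectProduct.inr.comp (MulAut.conjNormal : G →* MulAut ↥V)

/-- The copy of `V` in its holomorph. -/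
def Vh (V : Subgroup G) : Subgroup (Hol V) := (SemidirectProduct.inl : ↥V →* Hol V).range

theorem psi_conj (V : Subgroup G) [V.Normal] (g : G) (v : ↥V) :
    psi V g * SemidirectProduct.inl v * (psi V g)⁻¹ =
      SemidirectProduct.inl (MulAut.conjNormal g v) := by
  have h := SemidirectProduct.inl_aut (φ := MonoidHom.id (MulAut ↥V)) (MulAut.conjNormal g) v
  rw [MonoidHom.id_apply] at h
  rw [h]
  simp [psi]

theorem psi_ker (V : Subgroup G) [V.Normal] :
    (psi V).ker = Subgroup.centralizer (V : Set G) := by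
  ext g
  rw [MonoidHom.mem_ker, Subgroup.mem_centralizer_iff]
  constructor
  · intro h v hv
    have h1 : (MulAut.conjNormal g : MulAut ↥V) = 1 := by
      apply SemidirectProduct.inr_injective (φ := MonoidHom.id (MulAut ↥V))
      rw [map_one]
      exact h
    have h2 : (MulAut.conjNormal g : MulAut ↥V) ⟨v, hv⟩ = ⟨v, hv⟩ := by rw [h1]; rfl
    have h3 := congrArg Subtype.val h2
    rw [MulAut.conjNormal_apply] at h3
    simp only at h3
    conv_lhs => rw [← h3]
    group
  · intro h
    have h1 : (MulAut.conjNormal g : MulAut ↥V) = 1 := by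
      ext v
      rw [MulAut.conjNormal_apply, MulAut.one_apply, ← h v v.2]
      simp
    show SemidirectProduct.inr (MulAut.conjNormal g : MulAut ↥V) = 1
    rw [h1, map_one]

theorem Vh_normal (V : Subgroup G) : (Vh V).Normal := by
  unfold Vh
  rw [SemidirectProduct.range_inl_eq_ker_rightHom]
  infer_instance

theorem Vh_elemAb {p : ℕ} (V : Subgroup G) (hV : IsElementaryAbelian p V) :
    IsElementaryAbelian p (Vh V) := by
  haveI := hV.1
  refine ⟨?_, ?_⟩
  · unfold Vh
    infer_instance
  · rintro _ ⟨v, rfl⟩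
    rw [← map_pow]
    have : v ^ p = 1 := by
      apply Subtype.ext
      rw [Subgroup.coe_pow]
      exact hV.2 v v.2
    rw [this, map_one]

theorem card_Vh (V : Subgroup G) : Nat.card (Vh V) = Nat.card V := by
  unfold Vh
  exact (Nat.card_congr (MonoidHom.ofInjective
    (SemidirectProduct.inl_injective (φ := MonoidHom.id (MulAut ↥V)))).toEquiv).symm

/-- Fixed points correspond. -/
theorem fixed_eq (V : Subgroup G) [V.Normal] (A : Subgroup G) :
    Vh V ⊓ Subgroup.centralizer ((A.map (psi V) : Subgroup (Hol V)) : Set (Hol V)) =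
      ((V ⊓ Subgroup.centralizer (A : Set G)).subgroupOf V).map
        (SemidirectProduct.inl : ↥V →* Hol V) := by
  ext x
  constructor
  · rintro ⟨⟨v, rfl⟩, hx⟩
    refine ⟨v, ?_, rfl⟩
    rw [SetLike.mem_coe, Subgroup.mem_subgroupOf]
    refine Subgroup.mem_inf.mpr ⟨v.2, ?_⟩
    rw [Subgroup.mem_centralizer_iff]
    intro a ha
    have hx' : (SemidirectProduct.inl v : Hol V) ∈
        Subgroup.centralizer ((A.map (psi V) : Subgroup (Hol V)) : Set (Hol V)) := hx
    rw [Subgroup.mem_centralizer_iff] at hx'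
    have h1 := hx' (psi V a) (Subgroup.mem_map_of_mem _ ha)
    have h2 : psi V a * SemidirectProduct.inl v * (psi V a)⁻¹ = SemidirectProduct.inl v := by
      rw [h1, mul_inv_cancel_right]
    rw [psi_conj] at h2
    have h3 := congrArg Subtype.val (SemidirectProduct.inl_injective h2)
    rw [MulAut.conjNormal_apply] at h3
    conv_rhs => rw [← h3]
    group
  · rintro ⟨v, hv, rfl⟩
    rw [SetLike.mem_coe, Subgroup.mem_subgroupOf] at hv
    refine Subgroup.mem_inf.mpr ⟨⟨v, rfl⟩, ?_⟩
    rw [Subgroup.mem_centralizer_iff]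
    rintro _ ⟨a, ha, rfl⟩
    have hc := (Subgroup.mem_inf.mp hv).2
    rw [Subgroup.mem_centralizer_iff] at hc
    have h1 : (MulAut.conjNormal a : MulAut ↥V) v = v := by
      apply Subtype.ext
      rw [MulAut.conjNormal_apply, hc a ha]
      simp
    have h2 := psi_conj V a v
    rw [h1] at h2
    conv_rhs => rw [← h2]
    group

theorem card_fixed (V : Subgroup G) [V.Normal] (A : Subgroup G) :
    Nat.card ↥(Vh V ⊓ Subgroup.centralizer ((A.map (psi V) : Subgroup (Hol V)) : Set (Hol V))) =
      Nat.card ↥(V ⊓ Subgroup.centralizer (A : Set G)) := by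
  rw [fixed_eq, Subgroup.card_map_of_injective SemidirectProduct.inl_injective]
  exact Nat.card_congr (Subgroup.subgroupOfEquivOfLe inf_le_left).toEquiv

/-- Order of the image. -/
theorem card_map_psi (V : Subgroup G) [V.Normal] (A : Subgroup G) :
    Nat.card (A.map (psi V)) * Nat.card ↥(A ⊓ Subgroup.centralizer (V : Set G)) = Nat.card A := by
  rw [← Subgroup.relIndex_ker, psi_ker, ← Subgroup.inf_relIndex_left]
  exact Cfsg.Agent.H14.relIndex_mul_card' inf_le_left

/-- Product formula when one subgroup centralizes the other. -/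
theorem card_sup_mul_card_inf (B F : Subgroup G) (h : B ≤ Subgroup.normalizer (F : Set G)) :
    Nat.card ↥(B ⊔ F) * Nat.card ↥(B ⊓ F) = Nat.card B * Nat.card F := by
  have h1 : F.relIndex (B ⊔ F) * Nat.card F = Nat.card ↥(B ⊔ F) :=
    Cfsg.Agent.H14.relIndex_mul_card' le_sup_right
  have h2 : (B ⊓ F).relIndex B * Nat.card ↥(B ⊓ F) = Nat.card B :=
    Cfsg.Agent.H14.relIndex_mul_card' inf_le_left
  rw [Cfsg.Agent.H1.relIndex_sup_of_le_normalizer B F h] at h1
  rw [Subgroup.inf_relIndex_left] at h2
  rw [← h1, ← h2]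
  ring

/-- Images of elementary abelian subgroups of largest order are best offenders on `V`. -/
theorem bestOffender_map [Finite G] {p : ℕ} (V : Subgroup G) [V.Normal]
    (hV : IsElementaryAbelian p V) {A : Subgroup G}
    (hA : A ∈ maxElementaryAbelianSubgroups p G) :
    IsBestOffenderOn p (Vh V) (A.map (psi V)) := by
  haveI := hA.1.1
  refine ⟨?_, ?_, ?_⟩
  · intro B' hB'
    -- the preimage of `B'` in `A`
    obtain ⟨B, hB⟩ : ∃ B : Subgroup G, B = A ⊓ B'.comap (psi V) := ⟨_, rfl⟩
    have hBA : B ≤ A := by rw [hB]; exact inf_le_left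
    have hBmap : B.map (psi V) = B' := by
      apply le_antisymm
      · rintro _ ⟨b, hb, rfl⟩
        rw [hB] at hb
        exact (Subgroup.mem_inf.mp hb).2
      · intro b' hb'
        obtain ⟨a, ha, rfl⟩ := hB' hb'
        refine ⟨a, ?_, rfl⟩
        rw [hB]
        exact Subgroup.mem_inf.mpr ⟨ha, hb'⟩
    have hBC : B ⊓ Subgroup.centralizer (V : Set G) = A ⊓ Subgroup.centralizer (V : Set G) := by
      apply le_antisymm (inf_le_inf_right _ hBA)
      intro x hx
      refine Subgroup.mem_inf.mpr ⟨?_, (Subgroup.mem_inf.mp hx).2⟩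
      rw [hB]
      refine Subgroup.mem_inf.mpr ⟨(Subgroup.mem_inf.mp hx).1, ?_⟩
      rw [Subgroup.mem_comap]
      have : x ∈ (psi V).ker := by rw [psi_ker]; exact (Subgroup.mem_inf.mp hx).2
      rw [MonoidHom.mem_ker.mp this]
      exact B'.one_mem
    have e1 := card_map_psi V B
    have e2 := card_map_psi V A
    rw [hBC] at e1
    rw [hBmap] at e1
    -- `B ⊔ C_V(B)` is elementary abelian
    have hF : IsElementaryAbelian p (V ⊓ Subgroup.centralizer (B : Set G)) :=
      Cfsg.Agent.H14.elemAb_mono hV inf_le_left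
    have hBel : IsElementaryAbelian p B := Cfsg.Agent.H14.elemAb_mono hA.1 hBA
    have hsup := hA.2 _ (Cfsg.Agent.H14.elemAb_sup hBel hF inf_le_right)
    have hnorm : B ≤ Subgroup.normalizer ((V ⊓ Subgroup.centralizer (B : Set G) : Subgroup G) : Set G) := by
      have h1 : B ≤ Subgroup.centralizer ((V ⊓ Subgroup.centralizer (B : Set G) : Subgroup G) : Set G) := by
        rw [Subgroup.le_centralizer_iff]
        exact inf_le_right
      exact h1.trans (Subgroup.centralizer_le_normalizer _)
    have e3 := card_sup_mul_card_inf B (V ⊓ Subgroup.centralizer (B : Set G)) hnorm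
    have hinf : B ⊓ (V ⊓ Subgroup.centralizer (B : Set G)) ≤ V ⊓ Subgroup.centralizer (A : Set G) := by
      intro x hx
      have hxB := (Subgroup.mem_inf.mp hx).1
      have hxV := (Subgroup.mem_inf.mp (Subgroup.mem_inf.mp hx).2).1
      refine Subgroup.mem_inf.mpr ⟨hxV, ?_⟩
      exact (Subgroup.le_centralizer_iff_isMulCommutative.mpr hA.1.1) (hBA hxB)
    have e4 : Nat.card ↥(B ⊓ (V ⊓ Subgroup.centralizer (B : Set G))) ≤
        Nat.card ↥(V ⊓ Subgroup.centralizer (A : Set G)) := Subgroup.card_le_of_le hinf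
    have hpos : 0 < Nat.card ↥(A ⊓ Subgroup.centralizer (V : Set G)) := Nat.card_pos
    rw [← hBmap, card_fixed, card_fixed, hBmap]
    have key : Nat.card B * Nat.card ↥(V ⊓ Subgroup.centralizer (B : Set G)) ≤
        Nat.card A * Nat.card ↥(V ⊓ Subgroup.centralizer (A : Set G)) := by
      rw [← e3]
      exact Nat.mul_le_mul hsup e4
    rw [← e1, ← e2] at key
    have key2 : (Nat.card B' * Nat.card ↥(V ⊓ Subgroup.centralizer (B : Set G))) *
          Nat.card ↥(A ⊓ Subgroup.centralizer (V : Set G)) ≤
        (Nat.card (A.map (psi V)) * Nat.card ↥(V ⊓ Subgroup.centralizer (A : Set G))) *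
          Nat.card ↥(A ⊓ Subgroup.centralizer (V : Set G)) := by
      calc _ = Nat.card B' * Nat.card ↥(A ⊓ Subgroup.centralizer (V : Set G)) *
              Nat.card ↥(V ⊓ Subgroup.centralizer (B : Set G)) := by ring
        _ ≤ _ := key
        _ = _ := by ring
    exact Nat.le_of_mul_le_mul_right key2 hpos
  · have h1 : A.map (psi V) ≤ Subgroup.centralizer ((A.map (psi V) : Subgroup (Hol V)) : Set (Hol V)) :=
      Subgroup.le_centralizer_iff_isMulCommutative.mpr inferInstance
    rw [Subgroup.commutator_eq_bot_iff_le_centralizer.mpr h1]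
    exact bot_le
  · rintro _ ⟨a, ha, rfl⟩
    rw [← map_pow, hA.1.2 a ha, map_one]
    exact Subgroup.one_mem _

/-- The image of `G` in the holomorph of `V` has self-centralizing `p'`-core when
`G` is `p`-solvable and `O_p(G / C_G(V)) = 1`. -/
theorem range_hS1 [Finite G] {p : ℕ} [Fact p.Prime] (V : Subgroup G) [V.Normal]
    (hsep : IsPSolvable p G)
    (hO : pCore p (G ⧸ Subgroup.centralizer (V : Set G)) = ⊥) :
    Subgroup.centralizer (pPrimeCore p ↥(psi V).range : Set ↥(psi V).range) ≤
      pPrimeCore p ↥(psi V).range := by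
  apply Cfsg.Agent.H66.centralizer_pPrimeCore_le p
  · exact Cfsg.Agent.H14.isPSolvable_of_surjective p (psi V).rangeRestrict
      (MonoidHom.rangeRestrict_surjective _) hsep
  · have e : G ⧸ Subgroup.centralizer (V : Set G) ≃* ↥(psi V).range :=
      (QuotientGroup.quotientMulEquivOfEq (psi_ker V).symm).trans
        (QuotientGroup.quotientKerEquivRange (psi V))
    rw [← Cfsg.Agent.H14.pCore_map_equiv p e, hO, Subgroup.map_bot]

/-- The offender equality for the elementary abelian subgroups of largest order. -/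
theorem card_offender_eq [Finite G] {p : ℕ} [Fact p.Prime] (V : Subgroup G) [V.Normal]
    (hV : IsElementaryAbelian p V) (hsep : IsPSolvable p G)
    (hO : pCore p (G ⧸ Subgroup.centralizer (V : Set G)) = ⊥) {A : Subgroup G}
    (hA : A ∈ maxElementaryAbelianSubgroups p G) :
    Nat.card A * Nat.card ↥(V ⊓ Subgroup.centralizer (A : Set G)) =
      Nat.card V * Nat.card ↥(A ⊓ Subgroup.centralizer (V : Set G)) := by
  have hHV : (psi V).range ≤ Subgroup.normalizer ((Vh V : Subgroup (Hol V)) : Set (Hol V)) := by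
    haveI := Vh_normal V
    rw [Subgroup.normalizer_eq_top]
    exact le_top
  have hf : (psi V).range ⊓ Subgroup.centralizer ((Vh V : Subgroup (Hol V)) : Set (Hol V)) = ⊥ := by
    rw [eq_bot_iff]
    rintro _ ⟨⟨g, rfl⟩, hx⟩
    rw [Subgroup.mem_bot]
    have hx' : psi V g ∈ Subgroup.centralizer ((Vh V : Subgroup (Hol V)) : Set (Hol V)) := hx
    rw [Subgroup.mem_centralizer_iff] at hx'
    rw [← MonoidHom.mem_ker, psi_ker, Subgroup.mem_centralizer_iff]
    intro v hv
    have h1 := hx' (SemidirectProduct.inl ⟨v, hv⟩) ⟨⟨v, hv⟩, rfl⟩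
    have h2 : psi V g * SemidirectProduct.inl ⟨v, hv⟩ * (psi V g)⁻¹ =
        SemidirectProduct.inl (⟨v, hv⟩ : ↥V) := by
      rw [← h1, mul_inv_cancel_right]
    rw [psi_conj] at h2
    have h3 := congrArg Subtype.val (SemidirectProduct.inl_injective h2)
    rw [MulAut.conjNormal_apply] at h3
    simp only at h3
    conv_lhs => rw [← h3]
    group
  have h := Cfsg.Agent.H47.Off.card_mul_card_fixed (Vh_elemAb V hV) hHV hf (range_hS1 V hsep hO)
    (A := A.map (psi V)) (by rintro _ ⟨a, -, rfl⟩; exact ⟨a, rfl⟩) (bestOffender_map V hV hA)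
  rw [card_fixed, card_Vh] at h
  rw [← card_map_psi V A, ← h]
  ring

end Cfsg.Agent.H14.Holo
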