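import Mathlib
import Cfsg.Agent.H52.FzDefs

/-!
# S4302, piece COUNT: images of abelian subgroups of largest order satisfy the counting inequality
-/

set_option autoImplicit false

namespace Cfsg.Agent.H14.Fz52

universe u

open Cfsg Cfsg.Agent.H14.Holo Cfsg.Agent.H29

theorem cbest_map {G : Type u} [Group G] [Finite G] (V : Subgroup G) [V.Normal]
    (hVc : ∀ a ∈ V, ∀ b ∈ V, a * b = b * a) {S A : Subgroup G} (hVS : V ≤ S)
    (hA : A ∈ nMax 0 S) :
    ∀ B : Subgroup (Hol V), B ≤ A.map (psi V) →
      Nat.card B * Nat.card ↥(Vh V ⊓ Subgroup.centralizer (B : Set (Hol V))) ≤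
        Nat.card (A.map (psi V)) *
          Nat.card ↥(Vh V ⊓ Subgroup.centralizer ((A.map (psi V) : Subgroup (Hol V)) : Set (Hol V))) := by
  intro B' hB'
  have hAcomm : ∀ a ∈ A, ∀ b ∈ A, a * b = b * a := Cfsg.Agent.H52.Wc.comm_of_mem_nMax hA
  have hAS : A ≤ S := hA.1.1
  -- the preimage of `B'` in `A`
  obtain ⟨B, hB⟩ : ∃ B : Subgroup G, B = A ⊓ B'.comap (psi V) := ⟨_, rfl⟩
  have hBA : B ≤ A := by rw [hB]; exact inf_le_left
  have hBmap : B.map (psi V) = B' := by
    apply le_antisymm
    · rintro _ ⟨b, hb, rfl⟩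
      rw [hB] at hb
      exact (Subgroup.mem_inf.mp hb).2
    · intro b' hb'
      obtain ⟨a, ha, rfl⟩ := hB' hb'
      refine ⟨a, ?_, rfl⟩
      rw [hB]
      exact Subgroup.mem_inf.mpr ⟨ha, hb'⟩
  have hBC : B ⊓ Subgroup.centralizer (V : Set G) = A ⊓ Subgroup.centralizer (V : Set G) := by
    apply le_antisymm (inf_le_inf_right _ hBA)
    intro x hx
    refine Subgroup.mem_inf.mpr ⟨?_, (Subgroup.mem_inf.mp hx).2⟩
    rw [hB]
    refine Subgroup.mem_inf.mpr ⟨(Subgroup.mem_inf.mp hx).1, ?_⟩
    rw [Subgroup.mem_comap]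
    have : x ∈ (psi V).ker := by rw [psi_ker]; exact (Subgroup.mem_inf.mp hx).2
    rw [MonoidHom.mem_ker.mp this]
    exact B'.one_mem
  have e1 := card_map_psi V B
  have e2 := card_map_psi V A
  rw [hBC] at e1
  rw [hBmap] at e1
  -- `B ⊔ C_V(B)` is abelian and lies in `S`
  have hsupS : B ⊔ (V ⊓ Subgroup.centralizer (B : Set G)) ≤ S :=
    sup_le (hBA.trans hAS) (inf_le_left.trans hVS)
  have hsupcomm : ∀ a ∈ B ⊔ (V ⊓ Subgroup.centralizer (B : Set G)),
      ∀ b ∈ B ⊔ (V ⊓ Subgroup.centralizer (B : Set G)), a * b = b * a := by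
    -- elements of `B` commute with the whole join
    have h1 : ∀ x ∈ B, B ⊔ (V ⊓ Subgroup.centralizer (B : Set G)) ≤
        Subgroup.centralizer ({x} : Set G) := by
      intro x hx
      refine sup_le ?_ ?_
      · intro y hy
        rw [Subgroup.mem_centralizer_iff]
        intro z hz
        rw [Set.mem_singleton_iff] at hz
        subst hz
        exact hAcomm z (hBA hx) y (hBA hy)
      · intro y hy
        rw [Subgroup.mem_centralizer_iff]
        intro z hz
        rw [Set.mem_singleton_iff] at hz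
        subst hz
        exact Subgroup.mem_centralizer_iff.mp (Subgroup.mem_inf.mp hy).2 z hx
    -- elements of `C_V(B)` commute with the whole join
    have h2 : ∀ x ∈ V ⊓ Subgroup.centralizer (B : Set G),
        B ⊔ (V ⊓ Subgroup.centralizer (B : Set G)) ≤ Subgroup.centralizer ({x} : Set G) := by
      intro x hx
      refine sup_le ?_ ?_
      · intro y hy
        rw [Subgroup.mem_centralizer_iff]
        intro z hz
        rw [Set.mem_singleton_iff] at hz
        subst hz
        exact (Subgroup.mem_centralizer_iff.mp (Subgroup.mem_inf.mp hx).2 y hy).symm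
      · intro y hy
        rw [Subgroup.mem_centralizer_iff]
        intro z hz
        rw [Set.mem_singleton_iff] at hz
        subst hz
        exact hVc z (Subgroup.mem_inf.mp hx).1 y (Subgroup.mem_inf.mp hy).1
    have h3 : ∀ a ∈ B ⊔ (V ⊓ Subgroup.centralizer (B : Set G)),
        B ⊔ (V ⊓ Subgroup.centralizer (B : Set G)) ≤ Subgroup.centralizer ({a} : Set G) := by
      intro a ha
      refine sup_le ?_ ?_
      · intro y hy
        rw [Subgroup.mem_centralizer_iff]
        intro z hz
        rw [Set.mem_singleton_iff] at hz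
        subst hz
        have := Subgroup.mem_centralizer_iff.mp (h1 y hy ha) y (Set.mem_singleton y)
        exact this.symm
      · intro y hy
        rw [Subgroup.mem_centralizer_iff]
        intro z hz
        rw [Set.mem_singleton_iff] at hz
        subst hz
        have := Subgroup.mem_centralizer_iff.mp (h2 y hy ha) y (Set.mem_singleton y)
        exact this.symm
    intro a ha b hb
    exact Subgroup.mem_centralizer_iff.mp (h3 a ha hb) a (Set.mem_singleton a)
  have hsup : Nat.card ↥(B ⊔ (V ⊓ Subgroup.centralizer (B : Set G))) ≤ Nat.card A :=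
    hA.2 _ (Cfsg.Agent.H52.Wc.mem_nAb_zero hsupS hsupcomm)
  have hnorm : B ≤ Subgroup.normalizer ((V ⊓ Subgroup.centralizer (B : Set G) : Subgroup G) : Set G) := by
    have h1 : B ≤ Subgroup.centralizer ((V ⊓ Subgroup.centralizer (B : Set G) : Subgroup G) : Set G) := by
      rw [Subgroup.le_centralizer_iff]
      exact inf_le_right
    exact h1.trans (Subgroup.centralizer_le_normalizer _)
  have e3 := card_sup_mul_card_inf B (V ⊓ Subgroup.centralizer (B : Set G)) hnorm
  have hinf : B ⊓ (V ⊓ Subgroup.centralizer (B : Set G)) ≤ V ⊓ Subgroup.centralizer (A : Set G) := by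
    intro x hx
    have hxB := (Subgroup.mem_inf.mp hx).1
    have hxV := (Subgroup.mem_inf.mp (Subgroup.mem_inf.mp hx).2).1
    refine Subgroup.mem_inf.mpr ⟨hxV, ?_⟩
    rw [Subgroup.mem_centralizer_iff]
    intro a ha
    exact hAcomm a ha x (hBA hxB)
  have e4 : Nat.card ↥(B ⊓ (V ⊓ Subgroup.centralizer (B : Set G))) ≤
      Nat.card ↥(V ⊓ Subgroup.centralizer (A : Set G)) := Subgroup.card_le_of_le hinf
  have hpos : 0 < Nat.card ↥(A ⊓ Subgroup.centralizer (V : Set G)) := Nat.card_pos
  rw [← hBmap, card_fixed, card_fixed, hBmap]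
  have key : Nat.card B * Nat.card ↥(V ⊓ Subgroup.centralizer (B : Set G)) ≤
      Nat.card A * Nat.card ↥(V ⊓ Subgroup.centralizer (A : Set G)) := by
    rw [← e3]
    exact Nat.mul_le_mul hsup e4
  rw [← e1, ← e2] at key
  have key2 : (Nat.card B' * Nat.card ↥(V ⊓ Subgroup.centralizer (B : Set G))) *
        Nat.card ↥(A ⊓ Subgroup.centralizer (V : Set G)) ≤
      (Nat.card (A.map (psi V)) * Nat.card ↥(V ⊓ Subgroup.centralizer (A : Set G))) *
        Nat.card ↥(A ⊓ Subgroup.centralizer (V : Set G)) := by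
    calc _ = Nat.card B' * Nat.card ↥(A ⊓ Subgroup.centralizer (V : Set G)) *
            Nat.card ↥(V ⊓ Subgroup.centralizer (B : Set G)) := by ring
      _ ≤ _ := key
      _ = _ := by ring
  exact Nat.le_of_mul_le_mul_right key2 hpos

end Cfsg.Agent.H14.Fz52
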