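import Mathlib
import Cfsg.Agent.H52.FzDefs

/-!
# S4302, piece ELEM-a: an abelian "best" `2`-subgroup contains a best offender of order `2`
-/

set_option autoImplicit false

open Cfsg
open scoped commutatorElement

namespace Cfsg.Agent.H14.Fz52

/-- If `V = ⁅V, D⁆ ⊔ C_V(D)` with `V` abelian and normalized by `D`, then `⁅V, D⁆ ≤ ⁅⁅V, D⁆, D⁆`. -/
theorem comm_le_comm_comm {G : Type*} [Group G] {V D : Subgroup G}
    (hVc : ∀ a ∈ V, ∀ b ∈ V, a * b = b * a)
    (hDV : D ≤ Subgroup.normalizer (V : Set G))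
    (hsup : V ≤ ⁅V, D⁆ ⊔ (V ⊓ Subgroup.centralizer (D : Set G))) :
    ⁅V, D⁆ ≤ ⁅⁅V, D⁆, D⁆ := by
  have hWV : ⁅V, D⁆ ≤ V := Subgroup.le_normalizer_iff_commutator_le_left.mp hDV
  have hconj : ∀ v ∈ V, ∀ d ∈ D, d * v * d⁻¹ ∈ V := fun v hv d hd =>
    (Subgroup.mem_normalizer_iff.mp (hDV hd) v).mp hv
  let K : Subgroup G :=
    { carrier := {v | v ∈ V ∧ ∀ d ∈ D, ⁅v, d⁆ ∈ ⁅⁅V, D⁆, D⁆}
      one_mem' := by
        refine ⟨V.one_mem, fun d _ => ?_⟩
        rw [commutatorElement_one_left]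
        exact Subgroup.one_mem _
      mul_mem' := by
        rintro v w ⟨hv, hv'⟩ ⟨hw, hw'⟩
        refine ⟨V.mul_mem hv hw, fun d hd => ?_⟩
        have h1 : ⁅w, d⁆ ∈ V := hWV (Subgroup.commutator_mem_commutator hw hd)
        have e : ⁅v * w, d⁆ = ⁅w, d⁆ * ⁅v, d⁆ := by
          have hc : v * ⁅w, d⁆ = ⁅w, d⁆ * v := hVc v hv _ h1
          calc ⁅v * w, d⁆ = (v * ⁅w, d⁆) * (d * v⁻¹ * d⁻¹) := by
                simp only [commutatorElement_def]; group
            _ = (⁅w, d⁆ * v) * (d * v⁻¹ * d⁻¹) := by rw [hc]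
            _ = ⁅w, d⁆ * ⁅v, d⁆ := by simp only [commutatorElement_def]; group
        rw [e]
        exact Subgroup.mul_mem _ (hw' d hd) (hv' d hd)
      inv_mem' := by
        rintro v ⟨hv, hv'⟩
        refine ⟨V.inv_mem hv, fun d hd => ?_⟩
        have h1 : d * v * d⁻¹ ∈ V := hconj v hv d hd
        have e : ⁅v⁻¹, d⁆ = (⁅v, d⁆)⁻¹ := by
          have hc : v⁻¹ * (d * v * d⁻¹) = (d * v * d⁻¹) * v⁻¹ := hVc _ (V.inv_mem hv) _ h1
          calc ⁅v⁻¹, d⁆ = v⁻¹ * (d * v * d⁻¹) := by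
                simp only [commutatorElement_def]; group
            _ = (d * v * d⁻¹) * v⁻¹ := hc
            _ = (⁅v, d⁆)⁻¹ := by simp only [commutatorElement_def]; group
        rw [e]
        exact Subgroup.inv_mem _ (hv' d hd) }
  have hK1 : ⁅V, D⁆ ≤ K := fun x hx =>
    ⟨hWV hx, fun d hd => Subgroup.commutator_mem_commutator hx hd⟩
  have hK2 : V ⊓ Subgroup.centralizer (D : Set G) ≤ K := by
    intro x hx
    refine ⟨(Subgroup.mem_inf.mp hx).1, fun d hd => ?_⟩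
    have hc := Subgroup.mem_centralizer_iff.mp (Subgroup.mem_inf.mp hx).2 d hd
    have e : ⁅x, d⁆ = 1 := by
      rw [commutatorElement_eq_one_iff_mul_comm]
      exact hc.symm
    rw [e]
    exact Subgroup.one_mem _
  have hVK : V ≤ K := hsup.trans (sup_le hK1 hK2)
  rw [Subgroup.commutator_le]
  intro v hv d hd
  exact (hVK hv).2 d hd

theorem exists_offender_two {G : Type*} [Group G] [Finite G] {V H D : Subgroup G}
    (hV : Cfsg.IsElementaryAbelian 2 V)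
    (hHV : H ≤ Subgroup.normalizer (V : Set G))
    (hf : H ⊓ Subgroup.centralizer (V : Set G) = ⊥)
    (hS1 : Subgroup.centralizer (Cfsg.pPrimeCore 2 ↥H : Set ↥H) ≤ Cfsg.pPrimeCore 2 ↥H)
    (hDV : D ≤ Subgroup.normalizer (V : Set G))
    (hfD : D ⊓ Subgroup.centralizer (V : Set G) = ⊥)
    (hDc : ∀ a ∈ D, ∀ b ∈ D, a * b = b * a) (hD2 : IsPGroup 2 ↥D) (hD1 : D ≠ ⊥)
    (hbest : ∀ B : Subgroup G, B ≤ D →
      Nat.card B * Nat.card ↥(V ⊓ Subgroup.centralizer (B : Set G)) ≤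
        Nat.card D * Nat.card ↥(V ⊓ Subgroup.centralizer (D : Set G)))
    (hall : ∀ A : Subgroup G, A ≤ D → Cfsg.IsBestOffenderOn 2 V A → A ≤ H) :
    ∃ B : Subgroup G, B ≤ D ∧ Cfsg.IsBestOffenderOn 2 V B ∧ Nat.card B = 2 := by
  haveI : Fact (Nat.Prime 2) := ⟨Nat.prime_two⟩
  have hVc : ∀ x ∈ V, ∀ y ∈ V, x * y = y * x := (Cfsg.Agent.H13.ea_iff.mp hV).1
  have hV2 : ∀ x ∈ V, x ^ 2 = 1 := (Cfsg.Agent.H13.ea_iff.mp hV).2
  have hDD : ⁅D, D⁆ = ⊥ := by
    rw [Subgroup.commutator_eq_bot_iff_le_centralizer]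
    intro a ha
    rw [Subgroup.mem_centralizer_iff]
    intro b hb
    exact hDc b hb a ha
  have hab : ⁅D, D⁆ ≤ Subgroup.centralizer (V : Set G) := by rw [hDD]; exact bot_le
  obtain ⟨B₀, hB₀D, h⟩ := Cfsg.Agent.S0598.result V D hV hDV hab V le_rfl
  rcases h with h | ⟨hB₀, hfix, hval⟩
  · exact absurd (hbest B₀ hB₀D) (not_le.mpr h)
  -- `B₀` is a best offender
  have hB₀best : Cfsg.IsBestOffenderOn 2 V B₀ := by
    refine ⟨fun B hB => ?_, ?_, ?_⟩
    · rw [← hval]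
      exact hbest B (hB.trans hB₀D)
    · exact (Subgroup.commutator_mono hB₀D hB₀D).trans hab
    · intro a ha
      rw [hB₀] at ha
      have h1 : a ^ 2 = 1 :=
        Cfsg.Agent.H47.Off.pow_eq_one_of_mem_centralizer_commutator hV hfD (L := D) (H := D)
          le_rfl hDV (Subgroup.mem_inf.mp ha).1 (Subgroup.mem_inf.mp ha).2
      rw [h1]
      exact Subgroup.one_mem _
  -- `B₀` is non-trivial
  have hB₀ne : B₀ ≠ ⊥ := by
    intro hbot
    rw [hbot] at hfix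
    have hsup : V ≤ ⁅V, D⁆ ⊔ (V ⊓ Subgroup.centralizer (D : Set G)) := by
      rw [← hfix]
      intro v hv
      refine Subgroup.mem_inf.mpr ⟨hv, ?_⟩
      rw [Subgroup.mem_centralizer_iff]
      intro x hx
      rw [SetLike.mem_coe, Subgroup.mem_bot] at hx
      rw [hx, one_mul, mul_one]
    have hle := comm_le_comm_comm hVc hDV hsup
    have hWV : ⁅V, D⁆ ≤ V := Subgroup.le_normalizer_iff_commutator_le_left.mp hDV
    have hWp : IsPGroup 2 ↥(⁅V, D⁆ : Subgroup G) := by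
      intro x
      refine ⟨1, ?_⟩
      apply Subtype.ext
      rw [pow_one, Subgroup.coe_pow, Subgroup.coe_one]
      exact hV2 _ (hWV x.2)
    have hDW : D ≤ Subgroup.normalizer ((⁅V, D⁆ : Subgroup G) : Set G) :=
      Cfsg.Agent.H14.le_normalizer_commutator hDV Subgroup.le_normalizer
    have hW : (⁅V, D⁆ : Subgroup G) = ⊥ := by
      by_contra hne
      exact absurd hle (not_le_of_gt (Cfsg.Agent.H14.commutator_lt_of_pGroup hWp hD2 hDW hne))
    have hDcent : D ≤ Subgroup.centralizer (V : Set G) := by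
      rw [Subgroup.commutator_eq_bot_iff_le_centralizer] at hW
      intro d hd
      rw [Subgroup.mem_centralizer_iff]
      intro v hv
      exact (Subgroup.mem_centralizer_iff.mp (hW hv) d hd).symm
    apply hD1
    rw [eq_bot_iff, ← hfD]
    exact le_inf le_rfl hDcent
  have hB₀H : B₀ ≤ H := hall B₀ hB₀D hB₀best
  obtain ⟨k, B, hB, _, hBsup⟩ :=
    Cfsg.Agent.H47.Off.exists_decomposition hV hHV hf hS1 hB₀H hB₀best
  have hk : k ≠ 0 := by
    rintro rfl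
    apply hB₀ne
    rw [← hBsup, eq_bot_iff]
    exact iSup_le (fun i => i.elim0)
  obtain ⟨k, rfl⟩ := Nat.exists_eq_succ_of_ne_zero hk
  exact ⟨B 0, (hB 0).1.trans hB₀D, (hB 0).2.1, (hB 0).2.2⟩

end Cfsg.Agent.H14.Fz52
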