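import Mathlib
import Cfsg.Agent.H58.FzDefs
import Cfsg.Agent.H28.Coprime

set_option autoImplicit false

namespace Cfsg.Agent.H14.Fz

universe u

/-- S4306-EX: an elementary abelian `r`-group `E` acting coprimely on an abelian group `U ≠ 1`
without common fixed points has a subgroup `K` of index `r` with `C_U(K) ≠ 1`. -/
theorem ex_holds {X : Type u} [Group X] [Finite X] : Cfsg.Agent.H58.Fz.EX X := by
  intro E U r hr hEc hEr hUc hEU hcop hU1 hfix
  haveI : Fact r.Prime := ⟨hr⟩
  have hEel : Cfsg.IsElementaryAbelian r E := by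
    refine ⟨IsMulCommutative.of_comm ?_, hEr⟩
    rintro ⟨a, ha⟩ ⟨b, hb⟩
    exact Subtype.ext (hEc a ha b hb)
  have hEp : IsPGroup r ↥E := Cfsg.Agent.H28.isPGroup_of_isElementaryAbelian r hEel
  obtain ⟨k, hk⟩ := IsPGroup.iff_card.mp hEp
  have hcb : Subgroup.centralizer (((⊥ : Subgroup X) : Subgroup X) : Set X) = ⊤ := by
    rw [eq_top_iff]
    intro g _
    rw [Subgroup.mem_centralizer_iff]
    intro h hh
    have : h = 1 := by simpa using hh
    subst this
    simp
  rcases Nat.lt_or_ge k 2 with hk2 | hk2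
  · rcases Nat.lt_or_ge k 1 with hk0 | hk1
    · -- E trivial
      exfalso
      have hk0' : k = 0 := by omega
      rw [hk0', pow_zero] at hk
      have hEbot : E = ⊥ := Subgroup.card_eq_one.mp hk
      apply hU1
      rw [← hfix, hEbot, hcb]
      simp
    · -- |E| = r
      have hk1' : k = 1 := by omega
      rw [hk1', pow_one] at hk
      refine ⟨⊥, bot_le, ?_, ?_⟩
      · rw [hk]; simp
      · rw [hcb]; simpa using hU1
  · -- |E| ≥ r^2
    have hE2 : r ^ 2 ≤ Nat.card ↥E := by
      rw [hk]; exact Nat.pow_le_pow_right hr.pos hk2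
    have hrE : r ∣ Nat.card ↥E := by
      rw [hk]; exact dvd_pow_self r (by omega)
    have hrU : ¬ r ∣ Nat.card ↥U := by
      intro h
      have h1 : r ∣ Nat.gcd (Nat.card ↥E) (Nat.card ↥U) := Nat.dvd_gcd hrE h
      rw [Nat.Coprime] at hcop
      rw [hcop] at h1
      exact hr.one_lt.ne' (Nat.dvd_one.mp h1)
    have hgen := Cfsg.Agent.H28.le_iSup_hyperplane_centralizers r E U hEel hE2 hrU hEU
    by_contra hcon
    push_neg at hcon
    apply hU1
    rw [eq_bot_iff]
    refine hgen.trans (iSup_le ?_)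
    rintro ⟨D, hDE, hDrel⟩
    by_contra hne
    apply hne
    have hcard : Nat.card ↥E = r * Nat.card ↥D := by
      have h1 := Subgroup.relIndex_mul_relIndex (⊥ : Subgroup X) D E bot_le hDE
      rw [Subgroup.relIndex_bot_left, Subgroup.relIndex_bot_left, hDrel] at h1
      rw [← h1, mul_comm]
    exact le_of_eq (hcon D hDE hcard)

end Cfsg.Agent.H14.Fz
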