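import Mathlib
import Cfsg.Agent.H58.FzDefs

set_option autoImplicit false

namespace Cfsg.Agent.H14.Fz

universe u

/-- S4306-PQI: in `⟨y, x⟩` with `y^q = 1`, `x^p = 1`, `x y x⁻¹ = y^k`, `k ≢ 1 (mod q)`, every
element outside `⟨y⟩` generates a subgroup containing a `⟨y⟩`-conjugate of `x`. -/
theorem pqi_holds {X : Type u} [Group X] [Finite X] : Cfsg.Agent.H58.Fz.PQI X := by
  intro y x p q k hp hq hk hyq hy1 hxp hxy a ha haY
  haveI : Fact q.Prime := ⟨hq⟩
  haveI : Fact p.Prime := ⟨hp⟩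
  have hoy : orderOf y = q := orderOf_eq_prime hyq hy1
  -- conjugation by powers of `x` preserves `⟨y⟩`
  have hxY : ∀ c ∈ Subgroup.zpowers y, x * c * x⁻¹ ∈ Subgroup.zpowers y := by
    intro c hc
    obtain ⟨n, rfl⟩ := Subgroup.mem_zpowers_iff.mp hc
    have h1 : x * y ^ n * x⁻¹ = (x * y * x⁻¹) ^ n := by
      rw [conj_zpow]
    rw [h1, hxy]
    exact Subgroup.zpow_mem _ (Subgroup.pow_mem _ (Subgroup.mem_zpowers y) k) n
  have hxnY : ∀ (n : ℕ), ∀ c ∈ Subgroup.zpowers y, x ^ n * c * (x ^ n)⁻¹ ∈ Subgroup.zpowers y := by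
    intro n
    induction n with
    | zero => intro c hc; simpa using hc
    | succ n ih =>
      intro c hc
      have h1 : x ^ (n + 1) * c * (x ^ (n + 1))⁻¹ = x * (x ^ n * c * (x ^ n)⁻¹) * x⁻¹ := by
        rw [pow_succ']; group
      rw [h1]
      exact hxY _ (ih c hc)
  -- every element of the closure is `c * x ^ j`
  have hdec : ∀ b ∈ Subgroup.closure ({y, x} : Set X),
      ∃ c ∈ Subgroup.zpowers y, ∃ j : ℕ, b = c * x ^ j := by
    intro b hb
    induction hb using Subgroup.closure_induction with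
    | mem b hb =>
      rcases hb with rfl | hb
      · exact ⟨b, Subgroup.mem_zpowers b, 0, by simp⟩
      · have hb' : b = x := by simpa using hb
        subst hb'
        exact ⟨1, Subgroup.one_mem _, 1, by simp⟩
    | one => exact ⟨1, Subgroup.one_mem _, 0, by simp⟩
    | mul b b' _ _ ih ih' =>
      obtain ⟨c, hc, j, rfl⟩ := ih
      obtain ⟨c', hc', j', rfl⟩ := ih'
      refine ⟨c * (x ^ j * c' * (x ^ j)⁻¹), Subgroup.mul_mem _ hc (hxnY j c' hc'), j + j', ?_⟩
      rw [pow_add]; group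
    | inv b _ ih =>
      obtain ⟨c, hc, j, rfl⟩ := ih
      have hinv : (x ^ j)⁻¹ = x ^ (j * (p - 1)) := by
        apply inv_eq_of_mul_eq_one_right
        rw [← pow_add]
        have : j + j * (p - 1) = p * j := by
          have := hp.pos
          obtain ⟨p', rfl⟩ : ∃ p', p = p' + 1 := ⟨p - 1, by omega⟩
          simp only [Nat.add_sub_cancel]
          ring
        rw [this, pow_mul, hxp, one_pow]
      refine ⟨x ^ (j * (p - 1)) * c⁻¹ * (x ^ (j * (p - 1)))⁻¹,
        hxnY _ _ (Subgroup.inv_mem _ hc), j * (p - 1), ?_⟩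
      rw [mul_inv_rev, hinv]; group
  obtain ⟨c₀, hc₀, j, rfl⟩ := hdec a ha
  set w := x ^ j with hw
  have hwY : w ∉ Subgroup.zpowers y := by
    intro h
    exact haY (Subgroup.mul_mem _ hc₀ h)
  have hw1 : w ≠ 1 := by
    intro h
    rw [h] at hwY
    exact hwY (Subgroup.one_mem _)
  have hx1 : x ≠ 1 := by
    intro h
    apply hw1
    rw [hw, h, one_pow]
  have hox : orderOf x = p := orderOf_eq_prime hxp hx1
  have hpj : ¬ p ∣ j := by
    intro h
    apply hw1
    obtain ⟨m, rfl⟩ := h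
    rw [hw, pow_mul, hxp, one_pow]
  have hcop : Nat.Coprime j (orderOf x) := by
    rw [hox]
    exact (Nat.Coprime.symm ((Nat.Prime.coprime_iff_not_dvd hp).mpr hpj))
  obtain ⟨m', hm'0⟩ := exists_pow_eq_self_of_coprime hcop
  have hm' : w ^ m' = x := hm'0
  -- `w` does not centralize any nontrivial element of `⟨y⟩`
  have hfree : ∀ d ∈ Subgroup.zpowers y, w * d * w⁻¹ = d → d = 1 := by
    intro d hd hwd
    by_contra hd1
    -- `d` generates `⟨y⟩`
    have hyd : y ∈ Subgroup.zpowers d := by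
      have hcard : Nat.card (Subgroup.zpowers y) = q := by
        rw [Nat.card_zpowers, hoy]
      have hle : Subgroup.zpowers d ≤ Subgroup.zpowers y := by
        rw [Subgroup.zpowers_le]; exact hd
      have hdvd : Nat.card (Subgroup.zpowers d) ∣ q := by
        rw [← hcard]
        exact Subgroup.card_dvd_of_le hle
      have hne1 : Nat.card (Subgroup.zpowers d) ≠ 1 := by
        rw [Nat.card_zpowers]
        intro h
        exact hd1 (orderOf_eq_one_iff.mp h)
      have hq' : Nat.card (Subgroup.zpowers d) = q := by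
        rcases (Nat.dvd_prime hq).mp hdvd with h | h
        · exact absurd h hne1
        · exact h
      have heq : Subgroup.zpowers d = Subgroup.zpowers y := by
        apply Subgroup.eq_of_le_of_card_ge hle
        rw [hq', hcard]
      rw [heq]
      exact Subgroup.mem_zpowers y
    -- so `w` commutes with `y`
    have hwy : w * y * w⁻¹ = y := by
      obtain ⟨n, rfl⟩ := Subgroup.mem_zpowers_iff.mp hyd
      have h1 : w * d ^ n * w⁻¹ = (w * d * w⁻¹) ^ n := by rw [conj_zpow]
      rw [h1, hwd]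
    have hwy' : w * y = y * w := by
      calc w * y = w * y * w⁻¹ * w := by group
        _ = y * w := by rw [hwy]
    have hxy' : x * y = y * x := by
      rw [← hm']
      exact ((Commute.pow_left (show Commute w y from hwy') m')).eq
    have h2 : y ^ k = y ^ 1 := by
      rw [pow_one, ← hxy, hxy']; group
    have h3 := (pow_eq_pow_iff_modEq).mp h2
    rw [hoy] at h3
    exact hk h3
  -- the map `c ↦ c * (w c w⁻¹)⁻¹` on `⟨y⟩` is injective, hence surjective
  let f : ↥(Subgroup.zpowers y) → ↥(Subgroup.zpowers y) := fun c =>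
    ⟨(c : X) * (w * c * w⁻¹)⁻¹, Subgroup.mul_mem _ c.2 (Subgroup.inv_mem _ (hxnY j c c.2))⟩
  have hinj : Function.Injective f := by
    intro c c' hcc
    have h1 : (c : X) * (w * c * w⁻¹)⁻¹ = (c' : X) * (w * c' * w⁻¹)⁻¹ := congrArg Subtype.val hcc
    have h2 : w * ((c' : X)⁻¹ * c) * w⁻¹ = (c' : X)⁻¹ * c := by
      have e1 : w * ((c' : X)⁻¹ * c) * w⁻¹ = (w * c' * w⁻¹)⁻¹ * (w * c * w⁻¹) := by group
      have e2 : (c' : X)⁻¹ * c = (c' : X)⁻¹ * ((c : X) * (w * c * w⁻¹)⁻¹) * (w * c * w⁻¹) := by group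
      rw [e1, e2, h1]; group
    have h3 := hfree _ (Subgroup.mul_mem _ (Subgroup.inv_mem _ c'.2) c.2) h2
    apply Subtype.ext
    have : (c' : X) = c := by
      calc (c' : X) = c' * ((c' : X)⁻¹ * c) := by rw [h3, mul_one]
        _ = c := by group
    exact this.symm
  have hsurj : Function.Surjective f := Finite.injective_iff_surjective.mp hinj
  obtain ⟨c, hc⟩ := hsurj ⟨c₀, hc₀⟩
  have hc' : (c : X) * (w * c * w⁻¹)⁻¹ = c₀ := congrArg Subtype.val hc
  refine ⟨c, c.2, ?_⟩
  have hconj : (c : X) * w * (c : X)⁻¹ = c₀ * w := by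
    rw [← hc']; group
  have h4 : (c : X) * x * (c : X)⁻¹ = (c₀ * w) ^ m' := by
    rw [← hconj, conj_pow, hm']
  rw [h4]
  exact Subgroup.pow_mem _ (Subgroup.mem_zpowers _) m'

end Cfsg.Agent.H14.Fz
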