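import Mathlib
import Cfsg.Agent.H58.FzBasic

/-!
# S4306, piece S3K (`step3K`) of the fixed-point-free `pq`-action project

Hyperplanes `K` of an elementary abelian normal `r`-subgroup `E` with `C_V(K) ≠ 1`.
-/

set_option autoImplicit false
set_option linter.style.haveILetI false
set_option linter.unusedVariables false
set_option linter.unusedSectionVars false

namespace Cfsg.Agent.H14.Fz

open Cfsg.Agent.H58.Fz Cfsg.Agent.H58.FrobAct Cfsg.Agent.H58.Ward

universe u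

variable {X : Type u} [Group X]

/-- The conjugate subgroup `g K g⁻¹`. -/
def cj (g : X) (K : Subgroup X) : Subgroup X := K.map (MulAut.conj g).toMonoidHom

theorem mem_cj (g h : X) (K : Subgroup X) : h ∈ cj g K ↔ g⁻¹ * h * g ∈ K := by
  unfold cj
  constructor
  · rintro ⟨k, hk, rfl⟩
    have e : g⁻¹ * ((MulAut.conj g).toMonoidHom k) * g = k := by
      show g⁻¹ * (g * k * g⁻¹) * g = k
      group
    rw [e]; exact hk
  · intro h1
    refine ⟨g⁻¹ * h * g, h1, ?_⟩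
    show g * (g⁻¹ * h * g) * g⁻¹ = h
    group

theorem conj_mem_cj (g k : X) (K : Subgroup X) (hk : k ∈ K) : g * k * g⁻¹ ∈ cj g K := by
  rw [mem_cj]
  have e : g⁻¹ * (g * k * g⁻¹) * g = k := by group
  rw [e]; exact hk

theorem card_cj (g : X) (K : Subgroup X) : Nat.card (cj g K) = Nat.card K :=
  Subgroup.card_map_of_injective (MulAut.conj g).injective

theorem cj_le {g : X} {K E : Subgroup X} (hKE : K ≤ E)
    (hg : g ∈ Subgroup.normalizer (E : Set X)) : cj g K ≤ E := by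
  intro h hh
  rw [mem_cj] at hh
  have h1 := conj_mem_of_mem_normalizer hg (hKE hh)
  have e : g * (g⁻¹ * h * g) * g⁻¹ = h := by group
  rwa [e] at h1

theorem cj_ne [Finite X] {g : X} {K : Subgroup X}
    (hg : g ∉ Subgroup.normalizer (K : Set X)) : cj g K ≠ K := by
  intro h
  apply hg
  apply mem_normalizer_of_conj
  intro k hk
  rw [← h]
  exact conj_mem_cj g k K hk

theorem cent_cj (g : X) (K : Subgroup X) (w : X)
    (hw : w ∈ Subgroup.centralizer (K : Set X)) :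
    g * w * g⁻¹ ∈ Subgroup.centralizer ((cj g K : Subgroup X) : Set X) := by
  rw [Subgroup.mem_centralizer_iff]
  intro h hh
  have hh' : g⁻¹ * h * g ∈ K := (mem_cj g h K).mp hh
  have h1 := (Subgroup.mem_centralizer_iff.mp hw) _ hh'
  calc h * (g * w * g⁻¹) = g * ((g⁻¹ * h * g) * w) * g⁻¹ := by group
    _ = g * (w * (g⁻¹ * h * g)) * g⁻¹ := by rw [h1]
    _ = g * w * g⁻¹ * h := by group

/-- Two distinct subgroups of index `r` (prime) generate. -/
theorem hyp_sup [Finite X] {r : ℕ} (hr : r.Prime) (K K' E : Subgroup X) (hK : K ≤ E)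
    (hK' : K' ≤ E) (hc : Nat.card E = r * Nat.card K) (hc' : Nat.card E = r * Nat.card K')
    (hne : K ≠ K') : K ⊔ K' = E := by
  have hle : K ⊔ K' ≤ E := sup_le hK hK'
  have h1 : Nat.card K ∣ Nat.card (K ⊔ K' : Subgroup X) := Subgroup.card_dvd_of_le le_sup_left
  have h2 : Nat.card (K ⊔ K' : Subgroup X) ∣ Nat.card E := Subgroup.card_dvd_of_le hle
  have hKpos : 0 < Nat.card K := Nat.card_pos
  obtain ⟨t, ht⟩ := h1
  rw [ht, hc, mul_comm r] at h2
  have h3 : t ∣ r := Nat.dvd_of_mul_dvd_mul_left hKpos h2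
  rcases (Nat.dvd_prime hr).mp h3 with h4 | h4
  · exfalso
    rw [h4, mul_one] at ht
    have h5 : K = K ⊔ K' := Subgroup.eq_of_le_of_card_ge le_sup_left ht.le
    have h6 : K' ≤ K := by rw [h5]; exact le_sup_right
    have h7 : Nat.card K' = Nat.card K := by
      have h8 := hc.symm.trans hc'
      exact (Nat.eq_of_mul_eq_mul_left hr.pos h8).symm
    exact hne (Subgroup.eq_of_le_of_card_ge h6 h7.ge).symm
  · apply Subgroup.eq_of_le_of_card_ge hle
    rw [ht, h4, hc, mul_comm]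

/-- The conjugates of `C_V(K)` under nonidentity elements of `P` (none of which normalizes the
hyperplane `K`) generate a subgroup meeting `C_V(K)` trivially. -/
theorem fam_indep [Finite X] (ind : IND X) {r : ℕ} (hr : r.Prime) (V E K P : Subgroup X)
    (hVc : ∀ a ∈ V, ∀ b ∈ V, a * b = b * a)
    (hEc : ∀ a ∈ E, ∀ b ∈ E, a * b = b * a)
    (hEV : E ≤ Subgroup.normalizer (V : Set X))
    (hcop : (Nat.card E).Coprime (Nat.card V))
    (hVE : V ⊓ Subgroup.centralizer (E : Set X) = ⊥)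
    (hKE : K ≤ E) (hidx : Nat.card E = r * Nat.card K)
    (hPE : P ≤ Subgroup.normalizer (E : Set X))
    (hPV : P ≤ Subgroup.normalizer (V : Set X))
    (hPK : ∀ σ ∈ P, σ ≠ 1 → σ ∉ Subgroup.normalizer (K : Set X)) :
    ∃ T₂ : Subgroup X,
      (∀ w ∈ V ⊓ Subgroup.centralizer (K : Set X), ∀ σ ∈ P, σ ≠ 1 → σ * w * σ⁻¹ ∈ T₂) ∧
      (V ⊓ Subgroup.centralizer (K : Set X)) ⊓ T₂ = ⊥ := by
  obtain ⟨𝒮, h𝒮⟩ : ∃ 𝒮 : Set (Subgroup X), 𝒮 = {L | ∃ σ ∈ P, σ ≠ 1 ∧
      L = V ⊓ Subgroup.centralizer ((cj σ K : Subgroup X) : Set X)} := ⟨_, rfl⟩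
  refine ⟨⨆ L ∈ 𝒮, L, ?_, ?_⟩
  · intro w hw σ hσ hσ1
    have hL : V ⊓ Subgroup.centralizer ((cj σ K : Subgroup X) : Set X) ∈ 𝒮 := by
      rw [h𝒮]; exact ⟨σ, hσ, hσ1, rfl⟩
    have h1 : σ * w * σ⁻¹ ∈ V ⊓ Subgroup.centralizer ((cj σ K : Subgroup X) : Set X) :=
      ⟨conj_mem_of_mem_normalizer (hPV hσ) hw.1, cent_cj σ K w hw.2⟩
    exact (le_iSup₂ (f := fun L (_ : L ∈ 𝒮) => L) _ hL) h1
  · apply ind V K 𝒮 hVc (hKE.trans hEV) (cop_of_le hcop hKE le_rfl)
    intro L hL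
    rw [h𝒮] at hL
    obtain ⟨σ, hσ, hσ1, rfl⟩ := hL
    refine ⟨inf_le_left, ?_, ?_⟩
    · intro g hg
      apply normalizer_inf_centralizer V (cj σ K) g (hEV (hKE hg))
      apply mem_normalizer_of_comm
      intro z hz
      exact hEc g (hKE hg) z (cj_le hKE (hPE hσ) hz)
    · rw [eq_bot_iff, ← hVE]
      intro w hw
      refine ⟨hw.1.1, ?_⟩
      have hsup : K ⊔ cj σ K = E :=
        hyp_sup hr K (cj σ K) E hKE (cj_le hKE (hPE hσ)) hidx (by rw [card_cj]; exact hidx)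
          (Ne.symm (cj_ne (hPK σ hσ hσ1)))
      have h1 : K ⊔ cj σ K ≤ Subgroup.centralizer ({w} : Set X) := by
        apply sup_le
        · intro k hk
          rw [Subgroup.mem_centralizer_iff]
          intro h hh
          rw [Set.mem_singleton_iff] at hh
          rw [hh]
          exact ((Subgroup.mem_centralizer_iff.mp hw.2) k hk).symm
        · intro k hk
          rw [Subgroup.mem_centralizer_iff]
          intro h hh
          rw [Set.mem_singleton_iff] at hh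
          rw [hh]
          exact ((Subgroup.mem_centralizer_iff.mp hw.1.2) k hk).symm
      rw [hsup] at h1
      apply Subgroup.mem_centralizer_iff.mpr
      intro e he
      exact ((Subgroup.mem_centralizer_iff.mp (h1 he)) w rfl).symm

open scoped IsMulCommutative in
/-- A variant of the norm trick: the norm of `w` over `S` is fixed by `S` and by `g` (which
normalizes `S` and fixes `w`). -/
theorem norm_trick2 [Finite X] (V S T₂ : Subgroup X) (g : X)
    (hVc : ∀ a ∈ V, ∀ b ∈ V, a * b = b * a)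
    (hSV : S ≤ Subgroup.normalizer (V : Set X)) (w : X) (hw : w ∈ V)
    (hgV : g ∈ Subgroup.normalizer (V : Set X))
    (hgS : g ∈ Subgroup.normalizer (S : Set X))
    (hgw : g * w * g⁻¹ = w)
    (hfix : ∀ n ∈ V, (∀ σ ∈ S, σ * n * σ⁻¹ = n) → g * n * g⁻¹ = n → n = 1)
    (h2 : ∀ σ ∈ S, σ ≠ 1 → σ * w * σ⁻¹ ∈ T₂) : w ∈ T₂ := by
  classical
  letI : Fintype ↥S := Fintype.ofFinite _
  haveI : IsMulCommutative V := ⟨⟨fun a b => Subtype.ext (hVc a a.2 b b.2)⟩⟩
  obtain ⟨φ, hφ⟩ : ∃ φ : ↥S →* MulAut ↥V, φ = conjAut V S hSV := ⟨_, rfl⟩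
  have hφv : ∀ (σ : S) (v : V), ((φ σ v : V) : X) = σ * v * (σ : X)⁻¹ := by
    intro σ v; rw [hφ]; rfl
  obtain ⟨w', hw'⟩ : ∃ w' : V, (w' : X) = w := ⟨⟨w, hw⟩, rfl⟩
  obtain ⟨Nw, hNw⟩ : ∃ Nw : V, Nw = ∏ σ : S, φ σ w' := ⟨_, rfl⟩
  have hfixS : ∀ τ : S, φ τ Nw = Nw := by
    intro τ
    rw [hNw, map_prod]
    have h3 : ∀ σ : S, φ τ (φ σ w') = φ (τ * σ) w' := fun σ => by rw [map_mul]; rfl
    simp_rw [h3]
    exact Equiv.prod_comp (Equiv.mulLeft τ) (fun σ => φ σ w')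
  obtain ⟨ψ, hψ⟩ : ∃ ψ : MulAut ↥V, ∀ v : V, ((ψ v : V) : X) = g * v * g⁻¹ := by
    have hzg : Subgroup.zpowers g ≤ Subgroup.normalizer (V : Set X) := by
      rw [Subgroup.zpowers_le]; exact hgV
    exact ⟨conjAut V (Subgroup.zpowers g) hzg ⟨g, Subgroup.mem_zpowers g⟩, fun v => rfl⟩
  obtain ⟨e, he⟩ : ∃ e : S ≃ S, ∀ σ : S, ((e σ : S) : X) = g * σ * g⁻¹ := by
    have hzg : Subgroup.zpowers g ≤ Subgroup.normalizer (S : Set X) := by
      rw [Subgroup.zpowers_le]; exact hgS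
    exact ⟨(conjAut S (Subgroup.zpowers g) hzg ⟨g, Subgroup.mem_zpowers g⟩).toEquiv,
      fun σ => rfl⟩
  have hψN : ψ Nw = Nw := by
    rw [hNw, map_prod]
    have h3 : ∀ σ : S, ψ (φ σ w') = φ (e σ) w' := by
      intro σ
      apply Subtype.ext
      rw [hψ, hφv, hφv, he, hw']
      have e1 : g * ((σ : X) * w * (σ : X)⁻¹) * g⁻¹ =
          (g * σ * g⁻¹) * (g * w * g⁻¹) * (g * σ * g⁻¹)⁻¹ := by group
      rw [e1, hgw]
    simp_rw [h3]
    exact Equiv.prod_comp e (fun σ => φ σ w')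
  have hN : Nw = 1 := by
    apply Subtype.ext
    apply hfix (Nw : X) Nw.2
    · intro σ hσ
      have h3 := congrArg Subtype.val (hfixS ⟨σ, hσ⟩)
      rw [hφv] at h3
      exact h3
    · have h3 := congrArg Subtype.val hψN
      rw [hψ] at h3
      exact h3
  have hsplit : w' * ∏ σ ∈ (Finset.univ : Finset S).erase 1, φ σ w' = Nw := by
    have h3 := Finset.mul_prod_erase (Finset.univ : Finset S) (fun σ => φ σ w')
      (Finset.mem_univ 1)
    rw [hNw, ← h3, map_one]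
    rfl
  have hrest : ((∏ σ ∈ (Finset.univ : Finset S).erase 1, φ σ w' : V) : X) ∈ T₂ := by
    have h3 : (∏ σ ∈ (Finset.univ : Finset S).erase 1, φ σ w') ∈ T₂.subgroupOf V := by
      apply Subgroup.prod_mem
      intro σ hσ
      rw [Subgroup.mem_subgroupOf, hφv, hw']
      have hσ1 : σ ≠ 1 := Finset.ne_of_mem_erase hσ
      exact h2 σ σ.2 (fun h => hσ1 (Subtype.ext h))
    exact Subgroup.mem_subgroupOf.mp h3
  have h4 : w' = (∏ σ ∈ (Finset.univ : Finset S).erase 1, φ σ w')⁻¹ := by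
    rw [hN] at hsplit; exact eq_inv_of_mul_eq_one_left hsplit
  have h5 : w = ((∏ σ ∈ (Finset.univ : Finset S).erase 1, φ σ w' : V) : X)⁻¹ := by
    have h6 := congrArg Subtype.val h4
    rw [hw', Subgroup.coe_inv] at h6
    exact h6
  rw [h5]; exact T₂.inv_mem hrest

variable [Finite X] {p q k v r s : ℕ} {V R S A : Subgroup X} {y x : X}

theorem step3K (aq : AQ X) (ex : EX X) (ind : IND X) (cyc : CYC X) (pqi : PQI X)
    (c : FCfg p q k v r s V R S A y x)
    (E : Subgroup X) (hER : E ≤ R) (hEne : E ≠ ⊥) (hEc : ∀ a ∈ E, ∀ b ∈ E, a * b = b * a)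
    (hEe : ∀ a ∈ E, a ^ r = 1) (hAE : A ≤ Subgroup.normalizer (E : Set X))
    (hVE : V ⊓ Subgroup.centralizer (E : Set X) = ⊥) (hEy : ∀ e ∈ E, y * e = e * y → e = 1) :
    (∀ K : Subgroup X, K ≤ E → Nat.card E = r * Nat.card K →
        V ⊓ Subgroup.centralizer (K : Set X) ≠ ⊥ →
        y ∉ Subgroup.normalizer (K : Set X) ∧
        ∃ c₀ ∈ Subgroup.zpowers y, c₀ * x * c₀⁻¹ ∈ Subgroup.normalizer (K : Set X)) ∧
    (∀ K : Subgroup X, K ≤ E → Nat.card E = r * Nat.card K →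
        V ⊓ Subgroup.centralizer (K : Set X) ≠ ⊥ → x ∈ Subgroup.normalizer (K : Set X) →
        ∀ w ∈ V ⊓ Subgroup.centralizer (K : Set X), x * w = w * x → w = 1) ∧
    ∃ K : Subgroup X, K ≤ E ∧ Nat.card E = r * Nat.card K ∧
      V ⊓ Subgroup.centralizer (K : Set X) ≠ ⊥ ∧ x ∈ Subgroup.normalizer (K : Set X) := by
  have hEV : E ≤ Subgroup.normalizer (V : Set X) := hER.trans c.hRV
  have hcopEV : (Nat.card E).Coprime (Nat.card V) := cop_of_le c.copRV hER le_rfl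
  have hyE := hAE c.hyA
  have hxE := hAE c.hxA
  have hyV := c.hAV c.hyA
  have hxV := c.hAV c.hxA
  have hcopEq : (Nat.card E).Coprime q :=
    Nat.Coprime.coprime_dvd_left (Subgroup.card_dvd_of_le hER) c.copqR
  -- surjectivity of `e ↦ [y, e]` on `E`
  have hsurjE : ∀ e₀ ∈ E, ∃ e ∈ E, y * e * y⁻¹ * e⁻¹ = e₀ := by
    have hinj : Function.Injective (fun e : E => (⟨y * e * y⁻¹ * (e : X)⁻¹,
        E.mul_mem (conj_mem_of_mem_normalizer hyE e.2) (E.inv_mem e.2)⟩ : E)) := by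
      intro e₁ e₂ h
      have h1 : y * e₁ * y⁻¹ * (e₁ : X)⁻¹ = y * e₂ * y⁻¹ * (e₂ : X)⁻¹ := congrArg Subtype.val h
      have h2 : y * ((e₂ : X)⁻¹ * e₁) = ((e₂ : X)⁻¹ * e₁) * y := by
        have h3 : y * e₁ * y⁻¹ = y * e₂ * y⁻¹ * (e₂ : X)⁻¹ * e₁ := by
          calc y * e₁ * y⁻¹ = (y * e₁ * y⁻¹ * (e₁ : X)⁻¹) * e₁ := by group
            _ = (y * e₂ * y⁻¹ * (e₂ : X)⁻¹) * e₁ := by rw [h1]
        calc y * ((e₂ : X)⁻¹ * e₁) = (y * e₂ * y⁻¹)⁻¹ * (y * e₁ * y⁻¹) * y := by group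
          _ = (y * e₂ * y⁻¹)⁻¹ * (y * e₂ * y⁻¹ * (e₂ : X)⁻¹ * e₁) * y := by rw [h3]
          _ = ((e₂ : X)⁻¹ * e₁) * y := by group
      have h4 := hEy _ (E.mul_mem (E.inv_mem e₂.2) e₁.2) h2
      apply Subtype.ext
      exact (inv_mul_eq_one.mp h4).symm
    have hsurj := Finite.surjective_of_injective hinj
    intro e₀ he₀
    obtain ⟨e, he⟩ := hsurj ⟨e₀, he₀⟩
    exact ⟨e, e.2, congrArg Subtype.val he⟩
  -- (1) `y ∉ N(K)`
  have hP1 : ∀ K : Subgroup X, K ≤ E → Nat.card E = r * Nat.card K →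
      V ⊓ Subgroup.centralizer (K : Set X) ≠ ⊥ → y ∉ Subgroup.normalizer (K : Set X) := by
    intro K hKE hidx hW hyK
    have hEK : E ≤ Subgroup.normalizer (K : Set X) := by
      intro e he
      apply mem_normalizer_of_comm
      intro z hz
      exact hEc e he z (hKE hz)
    have hKne : ¬ E ≤ K := by
      intro h
      have h1 : K = E := le_antisymm hKE h
      rw [h1] at hidx
      have hpos : 0 < Nat.card E := Nat.card_pos
      have h2 : 1 * Nat.card E = r * Nat.card E := by rw [one_mul]; exact hidx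
      have h3 := Nat.eq_of_mul_eq_mul_right hpos h2
      exact c.hr.one_lt.ne h3
    by_cases hxK : x ∈ Subgroup.normalizer (K : Set X)
    · have h1 := cyc E K r x y c.hr hKE hidx hEK hxE hxK hyE hyK
      obtain ⟨y₁, hy₁⟩ : ∃ y₁ : X, y₁ = x * y * x⁻¹ * y⁻¹ := ⟨_, rfl⟩
      rw [← hy₁] at h1
      have hy₁z : y₁ ∈ Subgroup.zpowers y := by
        rw [hy₁, c.hxy]
        exact Subgroup.mul_mem _ (Subgroup.pow_mem _ (Subgroup.mem_zpowers y) k)
          (Subgroup.inv_mem _ (Subgroup.mem_zpowers y))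
      have hy₁1 : y₁ ≠ 1 := by
        intro h
        rw [hy₁, c.hxy] at h
        have h2 : y ^ k = y ^ 1 := by rw [pow_one]; exact mul_inv_eq_one.mp h
        rw [pow_eq_pow_iff_modEq, c.orderOf_y] at h2
        exact c.hk h2
      have hyz : y ∈ Subgroup.zpowers y₁ := mem_zpowers_of_prime q c.hq y y₁ c.hy hy₁z hy₁1
      have hy₁N : y₁ ∈ Subgroup.normalizer (E : Set X) := by
        rw [hy₁]
        exact Subgroup.mul_mem _ (Subgroup.mul_mem _ (Subgroup.mul_mem _ hxE hyE)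
          (Subgroup.inv_mem _ hxE)) (Subgroup.inv_mem _ hyE)
      have hy₁c : y₁ ∈ comSub E K := ⟨hy₁N, h1⟩
      have hyc : y ∈ comSub E K := by
        have h2 : Subgroup.zpowers y₁ ≤ comSub E K := by
          rw [Subgroup.zpowers_le]; exact hy₁c
        exact h2 hyz
      apply hKne
      intro e₀ he₀
      obtain ⟨e, he, rfl⟩ := hsurjE e₀ he₀
      exact hyc.2 e he
    · have hyW : y ∈ Subgroup.normalizer
          ((V ⊓ Subgroup.centralizer (K : Set X) : Subgroup X) : Set X) :=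
        normalizer_inf_centralizer V K y hyV hyK
      have hEW : E ≤ Subgroup.normalizer
          ((V ⊓ Subgroup.centralizer (K : Set X) : Subgroup X) : Set X) :=
        fun e he => normalizer_inf_centralizer V K e (hEV he) (hEK he)
      have hex : ∃ w ∈ V ⊓ Subgroup.centralizer (K : Set X), y * w = w * y ∧ w ≠ 1 := by
        by_contra hno
        have h1 := aq E (V ⊓ Subgroup.centralizer (K : Set X)) y q c.hq c.hy hEc
          (fun u hu u' hu' => c.hVc u hu.1 u' hu'.1) hyE hEW hyW hcopEq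
          (cop_of_le hcopEV le_rfl inf_le_left)
          (fun u hu hyu => by_contra (fun hne => hno ⟨u, hu, hyu, hne⟩))
        apply hW
        rw [eq_bot_iff, ← hVE]
        intro w hw
        refine ⟨hw.1, ?_⟩
        apply Subgroup.mem_centralizer_iff.mpr
        intro e₀ he₀
        obtain ⟨e, he, rfl⟩ := hsurjE e₀ he₀
        exact ((Subgroup.mem_centralizer_iff.mp (h1 e he)) w hw).symm
      obtain ⟨w, hw, hyw, hw1⟩ := hex
      obtain ⟨T₂, hT₂a, hT₂b⟩ := fam_indep ind c.hr V E K (Subgroup.zpowers x) c.hVc hEc hEV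
        hcopEV hVE hKE hidx
        (by rw [Subgroup.zpowers_le]; exact hxE) (by rw [Subgroup.zpowers_le]; exact hxV)
        (by
          intro σ hσ hσ1 hσK
          apply hxK
          have h1 : x ∈ Subgroup.zpowers σ := mem_zpowers_of_prime p c.hp x σ c.hx hσ hσ1
          have h2 : Subgroup.zpowers σ ≤ Subgroup.normalizer (K : Set X) := by
            rw [Subgroup.zpowers_le]; exact hσK
          exact h2 h1)
      have hwT : w ∈ T₂ := by
        apply norm_trick V (Subgroup.zpowers x) (V ⊓ Subgroup.centralizer {y}) T₂ c.hVc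
          (by rw [Subgroup.zpowers_le]; exact hxV) w hw.1
        · intro σ hσ
          have hσA : σ ∈ A := (Subgroup.zpowers_le.mpr c.hxA) hσ
          have h1 := c.hA_inf_cy V c.hAV hσA
          refine conj_mem_of_mem_normalizer h1 ⟨hw.1, ?_⟩
          apply Subgroup.mem_centralizer_iff.mpr
          intro h hh
          rw [Set.mem_singleton_iff] at hh
          rw [hh]; exact hyw
        · rw [eq_bot_iff, ← c.hfV]
          intro u hu
          refine ⟨hu.1.1, c.mem_cA u ?_ ?_⟩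
          · exact (Subgroup.mem_centralizer_iff.mp hu.1.2) y rfl
          · exact (Subgroup.mem_centralizer_iff.mp hu.2.2) x (Subgroup.mem_zpowers x)
        · intro σ hσ hσ1
          exact hT₂a w hw σ hσ hσ1
      apply hw1
      have h3 : w ∈ (⊥ : Subgroup X) := by rw [← hT₂b]; exact ⟨hw, hwT⟩
      exact Subgroup.mem_bot.mp h3
  -- (2) a `⟨y⟩`-conjugate of `x` normalizes `K`
  have hP2 : ∀ K : Subgroup X, K ≤ E → Nat.card E = r * Nat.card K →
      V ⊓ Subgroup.centralizer (K : Set X) ≠ ⊥ →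
      ∃ c₀ ∈ Subgroup.zpowers y, c₀ * x * c₀⁻¹ ∈ Subgroup.normalizer (K : Set X) := by
    intro K hKE hidx hW
    have hyK := hP1 K hKE hidx hW
    have hexa : ∃ a ∈ A, a ≠ 1 ∧ a ∈ Subgroup.normalizer (K : Set X) := by
      by_contra hno
      have hno' : ∀ σ ∈ A, σ ≠ 1 → σ ∉ Subgroup.normalizer (K : Set X) :=
        fun σ hσ hσ1 hσK => hno ⟨σ, hσ, hσ1, hσK⟩
      obtain ⟨T₂, hT₂a, hT₂b⟩ := fam_indep ind c.hr V E K A c.hVc hEc hEV hcopEV hVE hKE hidx
        hAE c.hAV hno'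
      apply hW
      rw [eq_bot_iff]
      intro w hw
      have hwT : w ∈ T₂ := by
        apply norm_trick V A V T₂ c.hVc c.hAV w hw.1
        · intro σ hσ; exact conj_mem_of_mem_normalizer (c.hAV hσ) hw.1
        · rw [eq_bot_iff, ← c.hfV]; intro u hu; exact hu.2
        · intro σ hσ hσ1; exact hT₂a w hw σ hσ hσ1
      rw [← hT₂b]; exact ⟨hw, hwT⟩
    obtain ⟨a, haA, ha1, haK⟩ := hexa
    have haY : a ∉ Subgroup.zpowers y := by
      intro h
      apply hyK
      have h1 : y ∈ Subgroup.zpowers a := mem_zpowers_of_prime q c.hq y a c.hy h ha1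
      exact (Subgroup.zpowers_le.mpr haK) h1
    obtain ⟨c₀, hc₀, hc₀a⟩ := pqi y x p q k c.hp c.hq c.hk c.hy c.hy1 c.hx c.hxy a
      (c.hA ▸ haA) haY
    exact ⟨c₀, hc₀, (Subgroup.zpowers_le.mpr haK) hc₀a⟩
  -- (3) `x` has no fixed points on `C_V(K)` when it normalizes `K`
  have hP3 : ∀ K : Subgroup X, K ≤ E → Nat.card E = r * Nat.card K →
      V ⊓ Subgroup.centralizer (K : Set X) ≠ ⊥ → x ∈ Subgroup.normalizer (K : Set X) →
      ∀ w ∈ V ⊓ Subgroup.centralizer (K : Set X), x * w = w * x → w = 1 := by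
    intro K hKE hidx hW hxK w hw hxw
    have hyK := hP1 K hKE hidx hW
    obtain ⟨T₂, hT₂a, hT₂b⟩ := fam_indep ind c.hr V E K (Subgroup.zpowers y) c.hVc hEc hEV
      hcopEV hVE hKE hidx
      (by rw [Subgroup.zpowers_le]; exact hyE) (by rw [Subgroup.zpowers_le]; exact hyV)
      (by
        intro σ hσ hσ1 hσK
        apply hyK
        have h1 : y ∈ Subgroup.zpowers σ := mem_zpowers_of_prime q c.hq y σ c.hy hσ hσ1
        exact (Subgroup.zpowers_le.mpr hσK) h1)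
    have hwT : w ∈ T₂ := by
      apply norm_trick2 V (Subgroup.zpowers y) T₂ x c.hVc
        (by rw [Subgroup.zpowers_le]; exact hyV) w hw.1 hxV (c.hAzy c.hxA)
      · rw [hxw]; group
      · intro n hn hnS hnx
        have hyn : y * n = n * y := mul_inv_eq_iff_eq_mul.mp (hnS y (Subgroup.mem_zpowers y))
        have hxn : x * n = n * x := mul_inv_eq_iff_eq_mul.mp hnx
        have h1 : n ∈ V ⊓ Subgroup.centralizer (A : Set X) := ⟨hn, c.mem_cA n hyn hxn⟩
        rw [c.hfV] at h1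
        exact Subgroup.mem_bot.mp h1
      · intro σ hσ hσ1; exact hT₂a w hw σ hσ hσ1
    have h3 : w ∈ (⊥ : Subgroup X) := by rw [← hT₂b]; exact ⟨hw, hwT⟩
    exact Subgroup.mem_bot.mp h3
  refine ⟨fun K hKE hidx hW => ⟨hP1 K hKE hidx hW, hP2 K hKE hidx hW⟩, hP3, ?_⟩
  obtain ⟨K₀, hK₀E, hK₀idx, hK₀W⟩ := ex E V r c.hr hEc hEe c.hVc hEV hcopEV c.hVne hVE
  obtain ⟨c₀, hc₀, hc₀K⟩ := hP2 K₀ hK₀E hK₀idx hK₀W
  have hc₀A : c₀ ∈ A := (Subgroup.zpowers_le.mpr c.hyA) hc₀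
  refine ⟨cj c₀⁻¹ K₀, cj_le hK₀E (hAE (A.inv_mem hc₀A)), by rw [card_cj]; exact hK₀idx, ?_, ?_⟩
  · intro h
    apply hK₀W
    rw [eq_bot_iff]
    intro w hw
    have h1 : c₀⁻¹ * w * c₀⁻¹⁻¹ ∈
        V ⊓ Subgroup.centralizer ((cj c₀⁻¹ K₀ : Subgroup X) : Set X) :=
      ⟨conj_mem_of_mem_normalizer (c.hAV (A.inv_mem hc₀A)) hw.1, cent_cj c₀⁻¹ K₀ w hw.2⟩
    rw [h, Subgroup.mem_bot] at h1
    have h2 : w = 1 := by
      calc w = c₀ * (c₀⁻¹ * w * c₀⁻¹⁻¹) * c₀⁻¹ := by group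
        _ = 1 := by rw [h1]; group
    rw [h2]; exact Subgroup.one_mem _
  · apply mem_normalizer_of_conj
    intro h hh
    rw [mem_cj] at hh ⊢
    have h1 := conj_mem_of_mem_normalizer hc₀K hh
    have e : c₀⁻¹⁻¹ * (x * h * x⁻¹) * c₀⁻¹ =
        (c₀ * x * c₀⁻¹) * (c₀⁻¹⁻¹ * h * c₀⁻¹) * (c₀ * x * c₀⁻¹)⁻¹ := by group
    rw [e]; exact h1

end Cfsg.Agent.H14.Fz
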