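import Mathlib
import Cfsg.Agent.H66.GrossDefs
import Cfsg.Agent.H3.Critical
import Cfsg.Agent.H11.Cores
import Cfsg.Agent.H14.Cores

/-!
# S3795, piece CRIT: a characteristic critical pair inside `O_q(H)`
-/

set_option autoImplicit false

namespace Cfsg.Agent.H14.Gross

open Cfsg
open scoped commutatorElement

universe u

/-- A characteristic subgroup of a characteristic subgroup is characteristic. -/
theorem characteristic_map_subtype {H : Type*} [Group H] (Q : Subgroup H)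
    (hQ : Q.Characteristic) (C : Subgroup ↥Q) (hC : C.Characteristic) :
    (C.map Q.subtype).Characteristic := by
  rw [Subgroup.characteristic_iff_map_le]
  intro ϕ
  have hQϕ : ∀ x ∈ Q, ϕ x ∈ Q := fun x hx =>
    Subgroup.characteristic_iff_map_le.mp hQ ϕ ⟨x, hx, rfl⟩
  have hQϕ' : ∀ x ∈ Q, ϕ.symm x ∈ Q := fun x hx =>
    Subgroup.characteristic_iff_map_le.mp hQ ϕ.symm ⟨x, hx, rfl⟩
  let ψ : ↥Q ≃* ↥Q :=
    { toFun := fun x => ⟨ϕ x, hQϕ x x.2⟩
      invFun := fun x => ⟨ϕ.symm x, hQϕ' x x.2⟩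
      left_inv := fun x => Subtype.ext (ϕ.symm_apply_apply x)
      right_inv := fun x => Subtype.ext (ϕ.apply_symm_apply x)
      map_mul' := fun x y => Subtype.ext (map_mul ϕ (x : H) (y : H)) }
  rintro _ ⟨_, ⟨c, hc, rfl⟩, rfl⟩
  have h1 : ψ c ∈ C := Subgroup.characteristic_iff_map_le.mp hC ψ ⟨c, hc, rfl⟩
  exact ⟨ψ c, h1, rfl⟩

theorem crit_holds : Cfsg.Agent.H66.Gross.CritStatement.{u} := by
  intro H _ _ q _
  have hqp : q.Prime := Fact.out
  have hQp : IsPGroup q ↥(pCore q H) := Cfsg.Agent.H14.pCore_isPGroup q H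
  have hQc : (pCore q H).Characteristic := Cfsg.Agent.H11.pCore_characteristic q
  haveI hQn : (pCore q H).Normal := Cfsg.Agent.H14.pCore_normal q H
  obtain ⟨H0, K0, hH0c, hK0c, hK0H0, hK0cent, hcentK0, hpow, hcomm⟩ :=
    Cfsg.Agent.H3.critical_subgroup_exists hQp
  have hCchar : (H0.map (pCore q H).subtype).Characteristic :=
    characteristic_map_subtype _ hQc H0 hH0c
  have hZchar : (K0.map (pCore q H).subtype).Characteristic :=
    characteristic_map_subtype _ hQc K0 hK0c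
  -- elements of `Q` centralizing `C` lie in `Z`
  have hcentZ : ∀ k ∈ pCore q H, (∀ c ∈ H0.map (pCore q H).subtype, k * c = c * k) →
      k ∈ K0.map (pCore q H).subtype := by
    intro k hk hkc
    refine ⟨⟨k, hk⟩, hcentK0 ?_, rfl⟩
    rw [Subgroup.mem_centralizer_iff]
    intro c hc
    apply Subtype.ext
    have := hkc c ⟨c, hc, rfl⟩
    simpa using this.symm
  refine ⟨H0.map (pCore q H).subtype, K0.map (pCore q H).subtype, Subgroup.map_subtype_le _,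
    Subgroup.map_mono hK0H0, hCchar, hZchar, ?_, ?_, ?_, ?_, ?_⟩
  · rintro _ ⟨x, hx, rfl⟩ _ ⟨z, hz, rfl⟩
    have h := Subgroup.mem_centralizer_iff.mp (hK0cent hz) x hx
    have h' := congrArg (Subtype.val : ↥(pCore q H) → H) h
    simpa using h'
  · rintro _ ⟨x, hx, rfl⟩ _ ⟨y, hy, rfl⟩
    refine ⟨⁅x, y⁆, hcomm x hx y, ?_⟩
    simp [commutatorElement_def]
  · rintro _ ⟨x, hx, rfl⟩
    exact ⟨x ^ q, hpow x hx, by simp⟩
  · rintro _ ⟨x, hx, rfl⟩ hxc
    exact hcentZ _ x.2 (fun c hc => hxc c hc)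
  · intro y hy hyC x hx
    haveI hCn : (H0.map (pCore q H).subtype).Normal := Subgroup.normal_of_characteristic _
    -- `k = y x y⁻¹ x⁻¹` centralizes `C`
    have hkQ : y * x * y⁻¹ * x⁻¹ ∈ pCore q H :=
      mul_mem (hQn.conj_mem x hx y) (inv_mem hx)
    have hkZ : y * x * y⁻¹ * x⁻¹ ∈ K0.map (pCore q H).subtype := by
      apply hcentZ _ hkQ
      intro c hc
      have h1 : x⁻¹ * c * x⁻¹⁻¹ ∈ H0.map (pCore q H).subtype := hCn.conj_mem c hc x⁻¹
      have h2 := hyC _ h1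
      have h3 := hyC c hc
      -- y x y⁻¹ x⁻¹ c = c y x y⁻¹ x⁻¹
      have h4 : y * (x⁻¹ * c * x⁻¹⁻¹) * y⁻¹ = x⁻¹ * c * x⁻¹⁻¹ := by
        rw [h2]; group
      have h5 : y * c * y⁻¹ = c := by rw [h3]; group
      calc y * x * y⁻¹ * x⁻¹ * c = y * x * (y⁻¹ * (x⁻¹ * c * x⁻¹⁻¹) * y) * y⁻¹ * x⁻¹ := by group
        _ = y * x * (x⁻¹ * c * x⁻¹⁻¹) * y⁻¹ * x⁻¹ := by
          have h6 : y⁻¹ * (x⁻¹ * c * x⁻¹⁻¹) * y = x⁻¹ * c * x⁻¹⁻¹ := by
            rw [mul_assoc, ← h2, inv_mul_cancel_left]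
          rw [h6]
        _ = (y * c * y⁻¹) * (y * x * y⁻¹ * x⁻¹) := by group
        _ = c * (y * x * y⁻¹ * x⁻¹) := by rw [h5]
    have hkC : y * x * y⁻¹ * x⁻¹ ∈ H0.map (pCore q H).subtype :=
      Subgroup.map_mono hK0H0 hkZ
    have hyk : y * (y * x * y⁻¹ * x⁻¹) = (y * x * y⁻¹ * x⁻¹) * y := hyC _ hkC
    -- `y ^ m x y ^ (-m) = k ^ m x`
    have hpowk : ∀ m : ℕ, y ^ m * x * (y ^ m)⁻¹ = (y * x * y⁻¹ * x⁻¹) ^ m * x := by
      intro m
      induction m with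
      | zero => simp
      | succ m ih =>
        have hc : Commute y ((y * x * y⁻¹ * x⁻¹) ^ m) := Commute.pow_right hyk m
        calc y ^ (m + 1) * x * (y ^ (m + 1))⁻¹ = y * (y ^ m * x * (y ^ m)⁻¹) * y⁻¹ := by
              rw [pow_succ']; group
          _ = y * ((y * x * y⁻¹ * x⁻¹) ^ m * x) * y⁻¹ := by rw [ih]
          _ = (y * (y * x * y⁻¹ * x⁻¹) ^ m) * x * y⁻¹ := by group
          _ = ((y * x * y⁻¹ * x⁻¹) ^ m * y) * x * y⁻¹ := by rw [hc.eq]
          _ = (y * x * y⁻¹ * x⁻¹) ^ m * (y * x * y⁻¹ * x⁻¹) * x := by group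
          _ = (y * x * y⁻¹ * x⁻¹) ^ (m + 1) * x := by rw [pow_succ]
    have h1 := hpowk (orderOf y)
    rw [pow_orderOf_eq_one, one_mul, inv_one, mul_one] at h1
    have h2 : (y * x * y⁻¹ * x⁻¹) ^ orderOf y = 1 := by
      have : (y * x * y⁻¹ * x⁻¹) ^ orderOf y * x = 1 * x := by rw [← h1, one_mul]
      exact mul_right_cancel this
    -- `k` is a `q`-element
    obtain ⟨j, hj⟩ := hQp ⟨_, hkQ⟩
    have hj' : (y * x * y⁻¹ * x⁻¹) ^ q ^ j = 1 := by
      have := congrArg (Subtype.val : ↥(pCore q H) → H) hj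
      simpa using this
    have hd1 : orderOf (y * x * y⁻¹ * x⁻¹) ∣ orderOf y := orderOf_dvd_of_pow_eq_one h2
    have hd2 : orderOf (y * x * y⁻¹ * x⁻¹) ∣ q ^ j := orderOf_dvd_of_pow_eq_one hj'
    have hcop : (orderOf y).Coprime (q ^ j) := Nat.Coprime.pow_right j hy
    have hone : orderOf (y * x * y⁻¹ * x⁻¹) = 1 :=
      Nat.eq_one_of_dvd_coprimes hcop hd1 hd2
    have hk1 : y * x * y⁻¹ * x⁻¹ = 1 := orderOf_eq_one_iff.mp hone
    calc y * x = (y * x * y⁻¹ * x⁻¹) * (x * y) := by group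
      _ = x * y := by rw [hk1, one_mul]

end Cfsg.Agent.H14.Gross
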