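import Cfsg.Agent.H14.Uniserial

set_option autoImplicit false
open Cfsg
open scoped commutatorElement Pointwise

namespace Cfsg.Agent.H14

section Reg

variable {G : Type*} [Group G]

/-- The level-`n` regular identity, for all pairs. -/
def RegAt (p n : ℕ) (G : Type*) [Group G] : Prop :=
  ∀ a b : G, ∃ c ∈ Cfsg.powerClosure p n
      ⁅Subgroup.closure ({a, b} : Set G), Subgroup.closure ({a, b} : Set G)⁆,
    (a * b) ^ (p ^ n) = a ^ (p ^ n) * b ^ (p ^ n) * c

theorem powerClosure_mono' (p n : ℕ) {H K : Subgroup G} (h : H ≤ K) :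
    Cfsg.powerClosure p n H ≤ Cfsg.powerClosure p n K :=
  Subgroup.closure_mono (by rintro _ ⟨x, hx, rfl⟩; exact ⟨x, h hx, rfl⟩)

theorem pow_mem_powerClosure (p n : ℕ) {H : Subgroup G} {x : G} (hx : x ∈ H) :
    x ^ (p ^ n) ∈ Cfsg.powerClosure p n H :=
  Subgroup.subset_closure ⟨x, hx, rfl⟩

theorem powerClosure_le_self (p n : ℕ) (H : Subgroup G) : Cfsg.powerClosure p n H ≤ H := by
  unfold Cfsg.powerClosure
  rw [Subgroup.closure_le]
  rintro _ ⟨x, hx, rfl⟩
  exact pow_mem hx _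

theorem conj_mem_powerClosure (p n : ℕ) {H : Subgroup G} {g : G}
    (hg : ∀ x ∈ H, g * x * g⁻¹ ∈ H) {y : G} (hy : y ∈ Cfsg.powerClosure p n H) :
    g * y * g⁻¹ ∈ Cfsg.powerClosure p n H := by
  have h : Cfsg.powerClosure p n H ≤
      (Cfsg.powerClosure p n H).comap (MulAut.conj g).toMonoidHom := by
    unfold Cfsg.powerClosure
    rw [Subgroup.closure_le]
    rintro _ ⟨x, hx, rfl⟩
    rw [SetLike.mem_coe, Subgroup.mem_comap]
    have h1 : (MulAut.conj g).toMonoidHom (x ^ (p ^ n)) = (g * x * g⁻¹) ^ (p ^ n) := by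
      rw [map_pow]; rfl
    rw [h1]
    exact Subgroup.subset_closure ⟨_, hg x hx, rfl⟩
  exact h hy

theorem commutator_self_le (H : Subgroup G) : ⁅H, H⁆ ≤ H :=
  Subgroup.commutator_le.mpr fun a ha b hb =>
    H.mul_mem (H.mul_mem (H.mul_mem ha hb) (H.inv_mem ha)) (H.inv_mem hb)

theorem conj_mem_commutator_self {H : Subgroup G} {h z : G} (hh : h ∈ H) (hz : z ∈ ⁅H, H⁆) :
    h * z * h⁻¹ ∈ ⁅H, H⁆ := by
  have h1 : h * z * h⁻¹ = ⁅h, z⁆ * z := by simp [commutatorElement_def]
  rw [h1]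
  exact mul_mem (Subgroup.commutator_mem_commutator hh (commutator_self_le H hz)) hz

theorem conj_mem_commutator_left {H K : Subgroup G} {h z : G} (hh : h ∈ H)
    (hKn : ∀ k ∈ K, h * k * h⁻¹ ∈ K) (hz : z ∈ ⁅K, H⁆) :
    h * z * h⁻¹ ∈ ⁅K, H⁆ := by
  have hle : ⁅K, H⁆ ≤ (⁅K, H⁆).comap (MulAut.conj h).toMonoidHom := by
    rw [Subgroup.commutator_le]
    intro a ha b hb
    rw [Subgroup.mem_comap]
    have h1 : (MulAut.conj h).toMonoidHom ⁅a, b⁆ = ⁅h * a * h⁻¹, h * b * h⁻¹⁆ := by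
      rw [← conjugate_commutatorElement]; rfl
    rw [h1]
    exact Subgroup.commutator_mem_commutator (hKn a ha)
      (H.mul_mem (H.mul_mem hh hb) (H.inv_mem hh))
  exact hle hz

/-- The elements of `H` whose commutators with all elements of `S` lie in `M`. -/
def commMod (H M : Subgroup G) (hM : ∀ h ∈ H, ∀ m ∈ M, h * m * h⁻¹ ∈ M) (S : Set G) :
    Subgroup G where
  carrier := {g | g ∈ H ∧ ∀ b ∈ S, ⁅g, b⁆ ∈ M}
  mul_mem' := by
    rintro g₁ g₂ ⟨h1, h1'⟩ ⟨h2, h2'⟩
    refine ⟨mul_mem h1 h2, fun b hb => ?_⟩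
    rw [commutatorElement_mul_left_eq_conj_mul]
    exact mul_mem (hM g₁ h1 _ (h2' b hb)) (h1' b hb)
  one_mem' := ⟨one_mem _, fun b _ => by rw [commutatorElement_one_left]; exact one_mem _⟩
  inv_mem' := by
    rintro g ⟨h1, h1'⟩
    refine ⟨inv_mem h1, fun b hb => ?_⟩
    rw [commutatorElement_inv_left]
    have h2 : ⁅b, g⁆ ∈ M := by rw [← commutatorElement_inv]; exact inv_mem (h1' b hb)
    have h3 := hM g⁻¹ (inv_mem h1) _ h2
    simpa using h3

theorem mem_commMod {H M : Subgroup G} {hM : ∀ h ∈ H, ∀ m ∈ M, h * m * h⁻¹ ∈ M} {S : Set G}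
    {g : G} : g ∈ commMod H M hM S ↔ g ∈ H ∧ ∀ b ∈ S, ⁅g, b⁆ ∈ M := Iff.rfl

/-- Lemma A: commutators of `p^n`-th power subgroup with `H`. -/
theorem commutator_powerClosure_le {p n : ℕ} (hreg : RegAt p n G) (H : Subgroup G) :
    ⁅Cfsg.powerClosure p n H, H⁆ ≤ Cfsg.powerClosure p n ⁅H, H⁆ := by
  have hM : ∀ h ∈ H, ∀ m ∈ Cfsg.powerClosure p n ⁅H, H⁆,
      h * m * h⁻¹ ∈ Cfsg.powerClosure p n ⁅H, H⁆ := fun h hh m hm =>
    conj_mem_powerClosure p n (fun x hx => conj_mem_commutator_self hh hx) hm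
  have step1 : ∀ a ∈ H, ∀ b ∈ H, ⁅a ^ (p ^ n), b⁆ ∈ Cfsg.powerClosure p n ⁅H, H⁆ := by
    intro a ha b hb
    obtain ⟨c, hc, hcab⟩ := hreg a (b * a⁻¹ * b⁻¹)
    have hv : b * a⁻¹ * b⁻¹ ∈ H := H.mul_mem (H.mul_mem hb (H.inv_mem ha)) (H.inv_mem hb)
    have hcl : Subgroup.closure ({a, b * a⁻¹ * b⁻¹} : Set G) ≤ H := by
      rw [Subgroup.closure_le]
      rintro x (rfl | rfl)
      · exact ha
      · exact hv
    have hc' : c ∈ Cfsg.powerClosure p n ⁅H, H⁆ :=
      powerClosure_mono' p n (Subgroup.commutator_mono hcl hcl) hc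
    have h1 : a * (b * a⁻¹ * b⁻¹) = ⁅a, b⁆ := by simp [commutatorElement_def, mul_assoc]
    have h2 : (b * a⁻¹ * b⁻¹) ^ (p ^ n) = b * (a ^ (p ^ n))⁻¹ * b⁻¹ := by
      rw [conj_pow, inv_pow]
    rw [h1, h2] at hcab
    have h3 : ⁅a ^ (p ^ n), b⁆ = ⁅a, b⁆ ^ (p ^ n) * c⁻¹ := by
      rw [hcab]; simp [commutatorElement_def, mul_assoc]
    rw [h3]
    exact mul_mem (pow_mem_powerClosure p n (Subgroup.commutator_mem_commutator ha hb))
      (inv_mem hc')
  have hle : Cfsg.powerClosure p n H ≤ commMod H (Cfsg.powerClosure p n ⁅H, H⁆) hM (H : Set G) := by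
    unfold Cfsg.powerClosure
    rw [Subgroup.closure_le]
    rintro _ ⟨x, hx, rfl⟩
    exact ⟨pow_mem hx _, fun b hb => step1 x hx b hb⟩
  rw [Subgroup.commutator_le]
  intro g hg b hb
  exact (hle hg).2 b hb

/-- Lemma C: a nilpotent group generated by one element modulo its derived subgroup is abelian. -/
theorem commutator_eq_bot_of_closure_pair {H : Subgroup G} (hnil : Group.IsNilpotent H)
    {w z : G} (hH : H = Subgroup.closure ({w, z} : Set G)) (hz : z ∈ ⁅H, H⁆) : ⁅H, H⁆ = ⊥ := by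
  have hwH : w ∈ H := by rw [hH]; exact Subgroup.subset_closure (by simp)
  have hzH : z ∈ H := commutator_self_le H hz
  have hM : ∀ h ∈ H, ∀ m ∈ ⁅⁅H, H⁆, H⁆, h * m * h⁻¹ ∈ ⁅⁅H, H⁆, H⁆ := fun h hh m hm =>
    conj_mem_commutator_left hh
      (fun k hk => conj_mem_commutator_self hh hk) hm
  -- every element of `H` commutes with `w` modulo `M`
  have h1 : H ≤ commMod H ⁅⁅H, H⁆, H⁆ hM ({w} : Set G) := by
    conv_lhs => rw [hH]
    rw [Subgroup.closure_le]
    rintro x (rfl | rfl)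
    · refine ⟨hwH, fun b hb => ?_⟩
      rw [Set.mem_singleton_iff] at hb
      subst hb
      rw [commutatorElement_self]; exact one_mem _
    · refine ⟨hzH, fun b hb => ?_⟩
      rw [Set.mem_singleton_iff] at hb
      subst hb
      exact Subgroup.commutator_mem_commutator hz hwH
  have h2 : H ≤ commMod H ⁅⁅H, H⁆, H⁆ hM (H : Set G) := by
    conv_lhs => rw [hH]
    rw [Subgroup.closure_le]
    rintro x (rfl | rfl)
    · refine ⟨hwH, fun b hb => ?_⟩
      have h3 := (h1 hb).2 x (Set.mem_singleton x)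
      rw [← commutatorElement_inv]
      exact inv_mem h3
    · exact ⟨hzH, fun b hb => Subgroup.commutator_mem_commutator hz hb⟩
  have h3 : ⁅H, H⁆ ≤ ⁅⁅H, H⁆, H⁆ := by
    rw [Subgroup.commutator_le]
    intro a ha b hb
    exact (h2 ha).2 b hb
  exact eq_bot_of_le_commutator_of_isNilpotent H ⁅H, H⁆ hnil (commutator_self_le H) h3

/-- Lemma B: under the level-`n` identity, in a finite `p`-group, products of `p^n`-th powers of
elements of a subgroup are `p^n`-th powers. -/
theorem mul_pow_eq_pow_of_regAt [Finite G] {p : ℕ} [Fact p.Prime] (hG : IsPGroup p G) {n : ℕ}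
    (hreg : RegAt p n G) :
    ∀ k : ℕ, ∀ H : Subgroup G, Nat.card H ≤ k → ∀ g ∈ Cfsg.powerClosure p n H,
      ∃ x ∈ H, g = x ^ (p ^ n) := by
  -- reduction of the closure statement to closure under products
  have red : ∀ H : Subgroup G,
      (∀ a ∈ H, ∀ b ∈ H, ∃ y ∈ H, a ^ (p ^ n) * b ^ (p ^ n) = y ^ (p ^ n)) →
      ∀ g ∈ Cfsg.powerClosure p n H, ∃ x ∈ H, g = x ^ (p ^ n) := by
    intro H hPP g hg
    unfold Cfsg.powerClosure at hg
    induction hg using Subgroup.closure_induction with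
    | mem x hx => exact hx
    | one => exact ⟨1, one_mem _, by simp⟩
    | mul x y _ _ ihx ihy =>
      obtain ⟨a, ha, rfl⟩ := ihx
      obtain ⟨b, hb, rfl⟩ := ihy
      obtain ⟨y, hy, hyab⟩ := hPP a ha b hb
      exact ⟨y, hy, hyab⟩
    | inv x _ ihx =>
      obtain ⟨a, ha, rfl⟩ := ihx
      exact ⟨a⁻¹, inv_mem ha, by rw [inv_pow]⟩
  intro k
  induction k with
  | zero =>
    intro H hk
    have : 0 < Nat.card H := Nat.card_pos
    omega
  | succ k ih =>
    intro H hk
    apply red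
    intro a ha b hb
    have hcl : Subgroup.closure ({a, b} : Set G) ≤ H := by
      rw [Subgroup.closure_le]
      rintro x (rfl | rfl)
      · exact ha
      · exact hb
    have haK : a ∈ Subgroup.closure ({a, b} : Set G) := Subgroup.subset_closure (by simp)
    have hbK : b ∈ Subgroup.closure ({a, b} : Set G) := Subgroup.subset_closure (by simp)
    rcases lt_or_eq_of_le hcl with hlt | heq
    · -- proper subgroup: induction
      have hc : Nat.card (Subgroup.closure ({a, b} : Set G)) ≤ k := by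
        have := card_lt_of_lt' hlt
        omega
      obtain ⟨y, hy, hyab⟩ := ih _ hc (a ^ (p ^ n) * b ^ (p ^ n))
        (mul_mem (pow_mem_powerClosure p n haK) (pow_mem_powerClosure p n hbK))
      exact ⟨y, hcl hy, hyab⟩
    · obtain ⟨c, hc, hcab⟩ := hreg a b
      rw [heq] at hc
      have hnil : Group.IsNilpotent H := (hG.to_subgroup H).isNilpotent
      by_cases hder : ⁅H, H⁆ = H
      · have hbot : H = ⊥ :=
          eq_bot_of_le_commutator_of_isNilpotent H H hnil le_rfl hder.ge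
        rw [hbot, Subgroup.mem_bot] at ha hb
        subst ha; subst hb
        exact ⟨1, one_mem _, by simp⟩
      · have hlt : ⁅H, H⁆ < H := lt_of_le_of_ne (commutator_self_le H) hder
        have hc1 : Nat.card ↥(⁅H, H⁆) ≤ k := by
          have := card_lt_of_lt' hlt
          omega
        obtain ⟨z, hz, hzc⟩ := ih _ hc1 c⁻¹ (inv_mem hc)
        have hab : a ^ (p ^ n) * b ^ (p ^ n) = (a * b) ^ (p ^ n) * z ^ (p ^ n) := by
          rw [← hzc, hcab]; group
        have hzH : z ∈ H := commutator_self_le H hz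
        have hcl2 : Subgroup.closure ({a * b, z} : Set G) ≤ H := by
          rw [Subgroup.closure_le]
          rintro x (rfl | rfl)
          · exact mul_mem ha hb
          · exact hzH
        rcases lt_or_eq_of_le hcl2 with hlt2 | heq2
        · have hc2 : Nat.card (Subgroup.closure ({a * b, z} : Set G)) ≤ k := by
            have := card_lt_of_lt' hlt2
            omega
          obtain ⟨y, hy, hyab⟩ := ih _ hc2 ((a * b) ^ (p ^ n) * z ^ (p ^ n))
            (mul_mem (pow_mem_powerClosure p n (Subgroup.subset_closure (by simp)))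
              (pow_mem_powerClosure p n (Subgroup.subset_closure (by simp))))
          exact ⟨y, hcl2 hy, by rw [hab, hyab]⟩
        · have hab' : ⁅H, H⁆ = ⊥ := commutator_eq_bot_of_closure_pair hnil heq2.symm hz
          have hcomm : Commute a b := by
            have h1 : ⁅a, b⁆ ∈ ⁅H, H⁆ := Subgroup.commutator_mem_commutator ha hb
            rw [hab', Subgroup.mem_bot] at h1
            exact commutatorElement_eq_one_iff_commute.mp h1
          exact ⟨a * b, mul_mem ha hb, (hcomm.mul_pow _).symm⟩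

theorem exists_pow_of_mem_powerClosure [Finite G] {p : ℕ} [Fact p.Prime] (hG : IsPGroup p G)
    {n : ℕ} (hreg : RegAt p n G) (H : Subgroup G) {g : G} (hg : g ∈ Cfsg.powerClosure p n H) :
    ∃ x ∈ H, g = x ^ (p ^ n) :=
  mul_pow_eq_pow_of_regAt hG hreg (Nat.card H) H le_rfl g hg

/-- Kemhadze's identity implies the regular identity at all levels. -/
theorem regAt_of_kemhadze [Finite G] {p : ℕ} [Fact p.Prime] (hG : IsPGroup p G)
    (hK : ∀ a b : G, ∃ c ∈ ⁅Subgroup.closure ({a, b} : Set G), Subgroup.closure ({a, b} : Set G)⁆,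
      (a * b) ^ p = a ^ p * b ^ p * c ^ p) :
    ∀ n, RegAt p n G := by
  intro n
  induction n with
  | zero => intro a b; exact ⟨1, one_mem _, by simp⟩
  | succ n ih =>
    intro a b
    obtain ⟨K, hKdef⟩ : ∃ K, K = Subgroup.closure ({a, b} : Set G) := ⟨_, rfl⟩
    rw [← hKdef]
    have haK : a ∈ K := by rw [hKdef]; exact Subgroup.subset_closure (by simp)
    have hbK : b ∈ K := by rw [hKdef]; exact Subgroup.subset_closure (by simp)
    obtain ⟨c, hc, hab⟩ := ih a b
    rw [← hKdef] at hc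
    obtain ⟨z, hz, rfl⟩ := exists_pow_of_mem_powerClosure hG ih _ hc
    have hzK : z ∈ K := commutator_self_le K hz
    obtain ⟨d₁, hd₁, h1⟩ := hK (a ^ (p ^ n) * b ^ (p ^ n)) (z ^ (p ^ n))
    obtain ⟨d₂, hd₂, h2⟩ := hK (a ^ (p ^ n)) (b ^ (p ^ n))
    have hxP : a ^ (p ^ n) ∈ Cfsg.powerClosure p n K := pow_mem_powerClosure p n haK
    have hyP : b ^ (p ^ n) ∈ Cfsg.powerClosure p n K := pow_mem_powerClosure p n hbK
    have hwP : z ^ (p ^ n) ∈ Cfsg.powerClosure p n K := pow_mem_powerClosure p n hzK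
    have hcomm : ⁅Cfsg.powerClosure p n K, Cfsg.powerClosure p n K⁆ ≤
        Cfsg.powerClosure p n ⁅K, K⁆ :=
      (Subgroup.commutator_mono le_rfl (powerClosure_le_self p n K)).trans
        (commutator_powerClosure_le ih K)
    have hcl1 : Subgroup.closure ({a ^ (p ^ n) * b ^ (p ^ n), z ^ (p ^ n)} : Set G) ≤
        Cfsg.powerClosure p n K := by
      rw [Subgroup.closure_le]
      rintro x (rfl | rfl)
      · exact mul_mem hxP hyP
      · exact hwP
    have hcl2 : Subgroup.closure ({a ^ (p ^ n), b ^ (p ^ n)} : Set G) ≤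
        Cfsg.powerClosure p n K := by
      rw [Subgroup.closure_le]
      rintro x (rfl | rfl)
      · exact hxP
      · exact hyP
    obtain ⟨e₁, he₁, rfl⟩ := exists_pow_of_mem_powerClosure hG ih _
      (hcomm (Subgroup.commutator_mono hcl1 hcl1 hd₁))
    obtain ⟨e₂, he₂, rfl⟩ := exists_pow_of_mem_powerClosure hG ih _
      (hcomm (Subgroup.commutator_mono hcl2 hcl2 hd₂))
    refine ⟨(e₂ ^ (p ^ n)) ^ p * (z ^ (p ^ n)) ^ p * (e₁ ^ (p ^ n)) ^ p, ?_, ?_⟩
    · have hgen : ∀ e ∈ ⁅K, K⁆, (e ^ (p ^ n)) ^ p ∈ Cfsg.powerClosure p (n + 1) ⁅K, K⁆ := by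
        intro e he
        rw [← pow_mul, ← pow_succ]
        exact pow_mem_powerClosure p (n + 1) he
      exact mul_mem (mul_mem (hgen e₂ he₂) (hgen z hz)) (hgen e₁ he₁)
    · simp only [pow_succ, pow_mul]
      rw [hab, h1, h2]
      simp only [mul_assoc]

end Reg

end Cfsg.Agent.H14
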