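import Cfsg.Agent.H14.Holo
import Cfsg.Agent.H14.WNormal
import Cfsg.Agent.H14.Regular

/-!
# `J(G)` moves `Ω₁(Z(J(C_G(V))))` only inside `V` (K–S 9.3.9, S0619)
-/

set_option autoImplicit false
open Cfsg
open scoped commutatorElement Pointwise

namespace Cfsg.Agent.H14.Holo

universe u

variable {G : Type u} [Group G]

/-- Replacement inside `C_G(V)`: for `A` elementary abelian of largest order,
`(A ∩ C_G(V)) V` is again elementary abelian of largest order. -/
theorem inf_centralizer_sup_mem [Finite G] {p : ℕ} [Fact p.Prime] (V : Subgroup G) [V.Normal]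
    (hV : IsElementaryAbelian p V) (hsep : IsPSolvable p G)
    (hO : pCore p (G ⧸ Subgroup.centralizer (V : Set G)) = ⊥) {A : Subgroup G}
    (hA : A ∈ maxElementaryAbelianSubgroups p G) :
    (A ⊓ Subgroup.centralizer (V : Set G)) ⊔ V ∈ maxElementaryAbelianSubgroups p G := by
  haveI := hA.1.1
  haveI := hV.1
  have hVC : V ≤ Subgroup.centralizer (V : Set G) :=
    Subgroup.le_centralizer_iff_isMulCommutative.mpr hV.1
  have hel : IsElementaryAbelian p ((A ⊓ Subgroup.centralizer (V : Set G)) ⊔ V) := by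
    apply Cfsg.Agent.H14.elemAb_sup (Cfsg.Agent.H14.elemAb_mono hA.1 inf_le_left) hV
    rw [Subgroup.le_centralizer_iff]
    exact inf_le_right
  refine ⟨hel, fun B hB => (hA.2 B hB).trans ?_⟩
  have e1 := card_sup_mul_card_inf (A ⊓ Subgroup.centralizer (V : Set G)) V
    (by rw [Subgroup.normalizer_eq_top]; exact le_top)
  have e2 : (A ⊓ Subgroup.centralizer (V : Set G)) ⊓ V = V ⊓ Subgroup.centralizer (A : Set G) := by
    apply le_antisymm
    · intro x hx
      have hxA := (Subgroup.mem_inf.mp (Subgroup.mem_inf.mp hx).1).1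
      refine Subgroup.mem_inf.mpr ⟨(Subgroup.mem_inf.mp hx).2, ?_⟩
      exact (Subgroup.le_centralizer_iff_isMulCommutative.mpr hA.1.1) hxA
    · have h1 : V ⊓ Subgroup.centralizer (A : Set G) ≤ A :=
        Cfsg.Agent.H14.le_of_mem_maxElementaryAbelian hA
          (Cfsg.Agent.H14.elemAb_mono hV inf_le_left) inf_le_right
      exact le_inf (le_inf h1 (inf_le_left.trans hVC)) inf_le_left
  have e3 := card_offender_eq V hV hsep hO hA
  rw [e2] at e1
  have hpos : 0 < Nat.card ↥(V ⊓ Subgroup.centralizer (A : Set G)) := Nat.card_pos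
  have e4 : Nat.card A * Nat.card ↥(V ⊓ Subgroup.centralizer (A : Set G)) =
      Nat.card ↥((A ⊓ Subgroup.centralizer (V : Set G)) ⊔ V) *
        Nat.card ↥(V ⊓ Subgroup.centralizer (A : Set G)) := by
    rw [e1, e3]
    ring
  exact (Nat.eq_of_mul_eq_mul_right hpos e4).le

theorem commutator_omega_thompson_le [Finite G] {p : ℕ} [Fact p.Prime] (V : Subgroup G) [V.Normal]
    (hV : IsElementaryAbelian p V) (hsep : IsPSolvable p G)
    (hO : pCore p (G ⧸ Subgroup.centralizer (V : Set G)) = ⊥) :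
    ⁅omegaOne p (centerThompsonOf p (Subgroup.centralizer (V : Set G))), thompsonSubgroup p G⁆ ≤ V := by
  haveI := hV.1
  have hVC : V ≤ Subgroup.centralizer (V : Set G) :=
    Subgroup.le_centralizer_iff_isMulCommutative.mpr hV.1
  obtain ⟨W, hW⟩ : ∃ W : Subgroup G,
      W = omegaOne p (centerThompsonOf p (Subgroup.centralizer (V : Set G))) := ⟨_, rfl⟩
  rw [← hW]
  have hWle : W ≤ centerThompsonOf p (Subgroup.centralizer (V : Set G)) := by
    rw [hW]
    unfold Cfsg.omegaOne
    rw [Subgroup.closure_le]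
    exact fun x hx => hx.1
  have hWel : IsElementaryAbelian p W := by
    rw [hW]
    apply Cfsg.Agent.H14.omegaOne_elemAb
    unfold Cfsg.centerThompsonOf
    exact inf_le_right.trans (Subgroup.centralizer_le (by exact_mod_cast inf_le_left))
  have hM : ∀ h ∈ (⊤ : Subgroup G), ∀ m ∈ V, h * m * h⁻¹ ∈ V :=
    fun h _ m hm => (inferInstance : V.Normal).conj_mem m hm h
  have key : ∀ A ∈ maxElementaryAbelianSubgroups p G, ∀ a ∈ A, ∀ w ∈ W, ⁅a, w⁆ ∈ V := by
    intro A hA a ha w hw
    haveI := hA.1.1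
    have hB := inf_centralizer_sup_mem V hV hsep hO hA
    have hBC : (A ⊓ Subgroup.centralizer (V : Set G)) ⊔ V ≤ Subgroup.centralizer (V : Set G) :=
      sup_le inf_le_right hVC
    have hBJ : (A ⊓ Subgroup.centralizer (V : Set G)) ⊔ V ≤
        thompsonSubgroupOf p (Subgroup.centralizer (V : Set G)) := by
      rw [Cfsg.Agent.H14.thompsonSubgroupOf_eq_sSup _ ⟨_, hB, hBC⟩]
      exact le_sSup ⟨hB, hBC⟩
    have hWB : W ≤ (A ⊓ Subgroup.centralizer (V : Set G)) ⊔ V := by
      apply Cfsg.Agent.H14.le_of_mem_maxElementaryAbelian hB hWel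
      refine hWle.trans ?_
      unfold Cfsg.centerThompsonOf
      exact inf_le_right.trans (Subgroup.centralizer_le (by exact_mod_cast hBJ))
    obtain ⟨a₁, ha₁, v, hv, rfl⟩ := Subgroup.mem_sup_of_normal_right.mp (hWB hw)
    have hcomm : a * a₁ = a₁ * a :=
      Subgroup.mul_comm_of_mem_isMulCommutative A ha (Subgroup.mem_inf.mp ha₁).1
    have h1 : ⁅a, a₁ * v⁆ = a₁ * (a * v * a⁻¹ * v⁻¹) * a₁⁻¹ := by
      rw [commutatorElement_def]
      have : a * (a₁ * v) * a⁻¹ * (a₁ * v)⁻¹ = (a * a₁) * v * a⁻¹ * v⁻¹ * a₁⁻¹ := by group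
      rw [this, hcomm]
      group
    rw [h1]
    apply (inferInstance : V.Normal).conj_mem
    exact V.mul_mem ((inferInstance : V.Normal).conj_mem v hv a) (V.inv_mem hv)
  have hle : thompsonSubgroup p G ≤ Cfsg.Agent.H14.commMod ⊤ V hM (W : Set G) := by
    unfold Cfsg.thompsonSubgroup
    apply sSup_le
    intro A hA a ha
    exact ⟨Subgroup.mem_top a, fun w hw => key A hA a ha w hw⟩
  rw [Subgroup.commutator_comm, Subgroup.commutator_le]
  intro g hg w hw
  exact (hle hg).2 w hw

end Cfsg.Agent.H14.Holo
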