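import Cfsg.Agent.H64.JzFinal

/-!
# JY-NJ (piece of the S2953 team project)

For `T = S` (a Sylow 2-subgroup) in the situation of S2951: `N_G(J(S)) ≤ N_G(S)`.
Every clause of S2951 gives `Ω₁Z(S) = Ω₁Z(J(S))`; the normalizer of `J(S)` normalizes this
group `Z`, `S` centralizes `Z`, and `C_G(Z) ≤ N_G(S)`: so every conjugate `S^g`,
`g ∈ N_G(J(S))`, is a 2-subgroup of `N_G(S)`, hence equals `S`.
-/

set_option autoImplicit false
open Cfsg

namespace Cfsg.Agent.H14.Jy

universe u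

/-- `Ω₁Z(X) ≤ X ⊓ C_G(X)`. -/
theorem omegaCenterOf_le_inf_nj {G : Type u} [Group G] (X : Subgroup G) :
    omegaCenterOf X ≤ X ⊓ Subgroup.centralizer (X : Set G) := by
  unfold omegaCenterOf omegaOne
  rw [Subgroup.closure_le]
  intro x hx
  exact hx.1

/-- conjugation by an element normalizing `X` preserves `Ω₁Z(X)`. -/
theorem omegaCenterOf_conj_nj {G : Type u} [Group G] (X : Subgroup G) (g : G)
    (hg : g ∈ Subgroup.normalizer (X : Set G)) :
    ∀ v ∈ omegaCenterOf X, g * v * g⁻¹ ∈ omegaCenterOf X := by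
  intro v hv
  unfold omegaCenterOf omegaOne at hv ⊢
  induction hv using Subgroup.closure_induction with
  | mem x hx =>
    apply Subgroup.subset_closure
    obtain ⟨hx1, hx2⟩ := hx
    refine ⟨⟨(Subgroup.mem_normalizer_iff.mp hg x).mp hx1.1, ?_⟩, ?_⟩
    · refine Subgroup.mem_centralizer_iff.mpr ?_
      intro y hy
      have hy' : g⁻¹ * y * g⁻¹⁻¹ ∈ X :=
        (Subgroup.mem_normalizer_iff.mp (Subgroup.inv_mem _ hg) y).mp hy
      have hc := (Subgroup.mem_centralizer_iff.mp hx1.2) _ hy'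
      have e1 : y * (g * x * g⁻¹) = g * ((g⁻¹ * y * g⁻¹⁻¹) * x) * g⁻¹ := by group
      have e2 : g * x * g⁻¹ * y = g * (x * (g⁻¹ * y * g⁻¹⁻¹)) * g⁻¹ := by group
      rw [e1, e2, hc]
    · have e : (g * x * g⁻¹) ^ 2 = g * x ^ 2 * g⁻¹ := conj_pow
      rw [e, hx2]; group
  | one => simp
  | mul x y _ _ hx hy =>
    have e : g * (x * y) * g⁻¹ = (g * x * g⁻¹) * (g * y * g⁻¹) := by group
    rw [e]; exact Subgroup.mul_mem _ hx hy
  | inv x _ hx =>
    have e : g * x⁻¹ * g⁻¹ = (g * x * g⁻¹)⁻¹ := by group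
    rw [e]; exact Subgroup.inv_mem _ hx

set_option maxHeartbeats 400000 in
/-- **JY-NJ**: in the situation of S2951 with `T = S`: `N_G(J(S)) ≤ N_G(S)`. -/
theorem nj {G : Type u} [Group G] [Finite G] (S : Sylow 2 G) (M K L : Subgroup G)
    (hB : Cfsg.Agent.H64.Jz.Base S M (S : Subgroup G) K L) :
    Subgroup.normalizer (thompsonSubgroupOf 2 (S : Subgroup G) : Set G) ≤
      Subgroup.normalizer ((S : Subgroup G) : Set G) := by
  have : Fact (Nat.Prime 2) := ⟨Nat.prime_two⟩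
  have hC := Cfsg.Agent.H64.Jz.stMain S M (S : Subgroup G) K L hB
  have hZeq : omegaCenterOf (S : Subgroup G) =
      omegaCenterOf (thompsonSubgroupOf 2 (S : Subgroup G)) := by
    rcases hC with h | h | h
    · exact h.1
    · exact h.1
    · exact h.1
  have hZ := hB.1.2.2 S
  intro g hg
  -- `S ≤ C_G(Z)`
  have hSC : ∀ s ∈ (S : Subgroup G), ∀ z ∈ omegaCenterOf (S : Subgroup G), z * s = s * z := by
    intro s hs z hz
    have hz' := omegaCenterOf_le_inf_nj (S : Subgroup G) hz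
    exact (Subgroup.mem_centralizer_iff.mp hz'.2) s hs |>.symm
  -- `g⁻¹` normalizes `Z`
  have hgZ : ∀ z ∈ omegaCenterOf (S : Subgroup G), g⁻¹ * z * g⁻¹⁻¹ ∈ omegaCenterOf (S : Subgroup G) := by
    intro z hz
    rw [hZeq] at hz ⊢
    exact omegaCenterOf_conj_nj _ g⁻¹ (Subgroup.inv_mem _ hg) z hz
  -- `S^g ≤ C_G(Z) ≤ N_G(S)`
  have hconj : ∀ s ∈ (S : Subgroup G),
      g * s * g⁻¹ ∈ Subgroup.normalizer ((S : Subgroup G) : Set G) := by
    intro s hs
    apply hZ
    rw [Subgroup.mem_centralizer_iff]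
    intro z hz
    have hc := hSC s hs _ (hgZ z hz)
    have e1 : z * (g * s * g⁻¹) = g * ((g⁻¹ * z * g⁻¹⁻¹) * s) * g⁻¹ := by group
    have e2 : g * s * g⁻¹ * z = g * (s * (g⁻¹ * z * g⁻¹⁻¹)) * g⁻¹ := by group
    rw [e1, e2, hc]
  -- `S^g` is a 2-subgroup of `N_G(S)`, hence inside `S`
  have hP : IsPGroup 2 ↥((S : Subgroup G).map (MulAut.conj g).toMonoidHom) :=
    S.isPGroup'.map _
  have hPN : (S : Subgroup G).map (MulAut.conj g).toMonoidHom ≤
      Subgroup.normalizer ((S : Subgroup G) : Set G) := by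
    rintro _ ⟨s, hs, rfl⟩
    exact hconj s hs
  have h1 : IsPGroup 2 ↥((S : Subgroup G).map (MulAut.conj g).toMonoidHom ⊔ (S : Subgroup G)) :=
    IsPGroup.to_sup_of_normal_right' hP S.isPGroup' hPN
  have h2 := S.is_maximal' h1 le_sup_right
  have h3 : (S : Subgroup G).map (MulAut.conj g).toMonoidHom ≤ (S : Subgroup G) :=
    le_sup_left.trans h2.le
  have h4 : ∀ n : G, n ∈ (S : Subgroup G) → g * n * g⁻¹ ∈ (S : Subgroup G) := by
    intro n hn
    apply h3
    refine Subgroup.mem_map.mpr ⟨n, hn, ?_⟩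
    simp [MulAut.conj_apply]
  rw [Subgroup.mem_normalizer_iff]
  intro h
  constructor
  · exact h4 h
  · intro hh
    -- injective self-map of the finite set `S`
    have hinj : Function.Injective (fun s : (S : Subgroup G) =>
        (⟨g * s.1 * g⁻¹, h4 s.1 s.2⟩ : (S : Subgroup G))) := by
      intro a b hab
      have hab' : g * a.1 * g⁻¹ = g * b.1 * g⁻¹ := congrArg Subtype.val hab
      apply Subtype.ext
      have := mul_right_cancel hab'
      exact mul_left_cancel this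
    obtain ⟨s, hs⟩ := (Finite.injective_iff_surjective.mp hinj) ⟨g * h * g⁻¹, hh⟩
    have hs' : g * s.1 * g⁻¹ = g * h * g⁻¹ := congrArg Subtype.val hs
    have := mul_left_cancel (mul_right_cancel hs')
    rw [← this]; exact s.2

end Cfsg.Agent.H14.Jy

#print axioms Cfsg.Agent.H14.Jy.nj
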