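import Cfsg.Agent.H14.UqNormWG
import Cfsg.Agent.H14.SxStruct
import Cfsg.Agent.H59.SoConj

set_option autoImplicit false
set_option linter.unusedVariables false
set_option linter.style.haveILetI false

/-! JZ (G1) (helper14, for helper64's S2951/S2952 project): the block decomposition of
`V = Ω₁(Z(O₂(L)))` for `L` in the family of `T`, first inside `X = ↥L` (`decompX`, from S0617 in
the holomorph of `V`), then at the level of `G` under `|C_V(T)| = 2` (`g1`). -/

open Cfsg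
open scoped commutatorElement Pointwise

namespace Cfsg.Agent.H14.Jz

open Cfsg.Agent.H14.Holo Cfsg.Agent.H14.Uq Cfsg.Agent.H52.Sn

universe u

section aux

open scoped IsMulCommutative in
/-- Two-set disjointness for an independent family of subgroups of a commutative group. -/
theorem disj_aux {A : Type*} [Group A] [IsMulCommutative A] {κ : Type*} [Finite κ]
    (g : κ → Subgroup A) (hg : iSupIndep g) (s t : Set κ) (hst : Disjoint s t) :
    Disjoint (⨆ i ∈ s, g i) (⨆ i ∈ t, g i) :=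
  hg.disjoint_biSup_biSup' hst (Set.toFinite s)

theorem indep_comap {A B : Type*} [Group A] [Group B] (θ : A →* B) (hθ : Function.Injective θ)
    {κ : Type*} (h : κ → Subgroup B) (hh : iSupIndep h) :
    iSupIndep (fun o => (h o).comap θ) := by
  intro i
  rw [disjoint_iff, eq_bot_iff]
  intro x hx
  obtain ⟨hx1, hx2⟩ := hx
  have h1 : θ x ∈ h i := hx1
  have h2 : θ x ∈ ⨆ (j) (_ : j ≠ i), h j := by
    have h3 : θ x ∈ (⨆ (j) (_ : j ≠ i), (h j).comap θ).map θ := Subgroup.mem_map_of_mem _ hx2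
    have h4 : (⨆ (j) (_ : j ≠ i), (h j).comap θ).map θ ≤ ⨆ (j) (_ : j ≠ i), h j := by
      simp_rw [Subgroup.map_iSup]
      exact iSup₂_mono fun j _ => Subgroup.map_comap_le _ _
    exact h4 h3
  have h5 : θ x ∈ h i ⊓ ⨆ (j) (_ : j ≠ i), h j := ⟨h1, h2⟩
  rw [(disjoint_iff.mp (hh i)), Subgroup.mem_bot] at h5
  rw [Subgroup.mem_bot]
  exact hθ (by rw [h5, map_one])

theorem disj_map {A B : Type*} [Group A] [Group B] (θ : A →* B) (hθ : Function.Injective θ)
    {P Q : Subgroup A} (h : Disjoint P Q) : Disjoint (P.map θ) (Q.map θ) := by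
  rw [disjoint_iff] at h ⊢
  rw [← Subgroup.map_inf_eq _ _ θ hθ, h, Subgroup.map_bot]

theorem indep_map {A B : Type*} [Group A] [Group B] (θ : A →* B) (hθ : Function.Injective θ)
    {κ : Type*} (g : κ → Subgroup A) (hg : iSupIndep g) :
    iSupIndep (fun o => (g o).map θ) := by
  intro i
  have e : (⨆ (j) (_ : j ≠ i), (g j).map θ) = (⨆ (j) (_ : j ≠ i), g j).map θ := by
    simp_rw [Subgroup.map_iSup]
  show Disjoint ((g i).map θ) (⨆ (j) (_ : j ≠ i), (g j).map θ)
  rw [e]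
  exact disj_map θ hθ (hg i)

/-- A `p`-group normalizing a nontrivial `p`-subgroup centralizes a nontrivial element of it
(as in helper52's `H52.exists_fixed_ne_one`). -/
theorem fixed_ne_one {G : Type*} [Group G] [Finite G] {p : ℕ} [Fact p.Prime] {T K : Subgroup G}
    (hT : IsPGroup p T) (hK : IsPGroup p K) (hTK : T ≤ Subgroup.normalizer (K : Set G))
    (hne : K ≠ ⊥) : ∃ k ∈ K, k ≠ 1 ∧ k ∈ Subgroup.centralizer (T : Set G) := by
  have hp : p.Prime := Fact.out
  let _inst : MulAction ↥T ↥K :=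
    { smul := fun t k => ⟨(t : G) * (k : G) * (t : G)⁻¹, (hTK t.2 k).mp k.2⟩
      one_smul := by
        intro k
        apply Subtype.ext
        show ((1 : ↥T) : G) * (k : G) * ((1 : ↥T) : G)⁻¹ = (k : G)
        simp
      mul_smul := by
        intro a b k
        apply Subtype.ext
        show ((a * b : ↥T) : G) * (k : G) * ((a * b : ↥T) : G)⁻¹ =
          (a : G) * ((b : G) * (k : G) * (b : G)⁻¹) * (a : G)⁻¹
        push_cast
        group }
  have hcard : p ∣ Nat.card ↥K := by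
    obtain ⟨n, hn⟩ := hK.exists_card_eq
    rw [hn]
    have hn0 : n ≠ 0 := by
      rintro rfl
      rw [pow_zero] at hn
      exact hne ((Subgroup.card_eq_one).mp hn)
    exact dvd_pow_self p hn0
  have h1 : (1 : ↥K) ∈ MulAction.fixedPoints ↥T ↥K := by
    intro t
    apply Subtype.ext
    show (t : G) * ((1 : ↥K) : G) * (t : G)⁻¹ = ((1 : ↥K) : G)
    simp
  obtain ⟨k, hk, hk1⟩ := hT.exists_fixed_point_of_prime_dvd_card_of_fixed_point ↥K hcard h1
  refine ⟨k, k.2, ?_, ?_⟩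
  · intro h
    apply hk1
    exact (Subtype.ext h).symm
  · refine Subgroup.mem_centralizer_iff.mpr ?_
    intro t ht
    have h2 : (⟨t, ht⟩ : ↥T) • k = k := hk ⟨t, ht⟩
    have h3 : t * (k : G) * t⁻¹ = (k : G) := congrArg Subtype.val h2
    calc t * (k : G) = t * (k : G) * t⁻¹ * t := by group
      _ = (k : G) * t := by rw [h3]

end aux

/-- The S0617 structure in the holomorph of `V`, for `H` = the image of `J(X)`. -/
theorem holoX {X : Type u} [Group X] [Finite X] (V : Subgroup X) [V.Normal]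
    (hV : IsElementaryAbelian 2 V) (hsep : IsPSolvable 2 X)
    (hO : pCore 2 (X ⧸ Subgroup.centralizer (V : Set X)) = ⊥)
    (hne : ¬ thompsonSubgroup 2 X ≤ Subgroup.centralizer (V : Set X)) :
    ∃ (ι : Type u) (_ : Finite ι) (E : ι → Subgroup (Hol V)),
      (∀ i, E i ≤ (thompsonSubgroup 2 X).map (psi V)) ∧
      (∀ i, Nonempty (↥(E i) ≃* Matrix.SpecialLinearGroup (Fin 2) (ZMod 2))) ∧
      (∀ i, Nat.card ↥(⁅Vh V, E i⁆) = 4) ∧
      iSupIndep (fun o : Option ι => o.elim (Vh V ⊓ Subgroup.centralizer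
        (((thompsonSubgroup 2 X).map (psi V) : Subgroup (Hol V)) : Set (Hol V)))
        (fun i => ⁅Vh V, E i⁆)) ∧
      (Vh V ⊓ Subgroup.centralizer
        (((thompsonSubgroup 2 X).map (psi V) : Subgroup (Hol V)) : Set (Hol V))) ⊔
          (⨆ i, ⁅Vh V, E i⁆) = Vh V ∧
      (∀ x ∈ (thompsonSubgroup 2 X).map (psi V), Odd (orderOf x) → x ≠ 1 →
        ∀ W : Subgroup (Hol V), Nat.card ↥W ≤ 4 → (∀ v ∈ Vh V, x * v * x⁻¹ * v⁻¹ ∈ W) →
        ∃ i, ⁅Vh V, E i⁆ = W) := by
  haveI : Fact (Nat.Prime 2) := ⟨Nat.prime_two⟩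
  haveI hJn := thompsonSubgroup_normal 2 X
  have hV' := Vh_elemAb V hV
  have hHV : (thompsonSubgroup 2 X).map (psi V) ≤
      Subgroup.normalizer ((Vh V : Subgroup (Hol V)) : Set (Hol V)) := by
    haveI := Vh_normal V
    rw [Subgroup.normalizer_eq_top]
    exact le_top
  have hHR : (thompsonSubgroup 2 X).map (psi V) ≤ (psi V).range := by
    rintro _ ⟨j, -, rfl⟩
    exact ⟨j, rfl⟩
  have hf : (thompsonSubgroup 2 X).map (psi V) ⊓
      Subgroup.centralizer ((Vh V : Subgroup (Hol V)) : Set (Hol V)) = ⊥ := by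
    rw [eq_bot_iff, ← range_faithful V]
    exact inf_le_inf_right _ hHR
  have hnorm : (psi V).range ≤
      Subgroup.normalizer (((thompsonSubgroup 2 X).map (psi V) : Subgroup (Hol V)) :
        Set (Hol V)) := by
    rintro _ ⟨g, rfl⟩
    rw [Subgroup.mem_normalizer_iff]
    intro h
    constructor
    · rintro ⟨j, hj, rfl⟩
      refine ⟨g * j * g⁻¹, hJn.conj_mem j hj g, ?_⟩
      simp
    · rintro ⟨j, hj, hjh⟩
      refine ⟨g⁻¹ * j * g, ?_, ?_⟩
      · have := hJn.conj_mem j hj g⁻¹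
        simpa using this
      · rw [map_mul, map_mul, hjh, map_inv]
        group
  have hS1 := hS1_of_normal (p := 2) (psi V).range ((thompsonSubgroup 2 X).map (psi V)) hHR
    hnorm (range_isPSolvable V hsep) (range_pCore_eq_bot V hO)
  have hS3 : (thompsonSubgroup 2 X).map (psi V) = ⨆ A : {A : Subgroup (Hol V) //
      A ≤ (thompsonSubgroup 2 X).map (psi V) ∧ IsBestOffenderOn 2 (Vh V) A},
      (A : Subgroup (Hol V)) := by
    apply le_antisymm
    · conv_lhs => unfold Cfsg.thompsonSubgroup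
      rw [Subgroup.map_le_iff_le_comap]
      apply sSup_le
      intro A hA
      rw [← Subgroup.map_le_iff_le_comap]
      exact le_iSup (fun A : {A : Subgroup (Hol V) //
        A ≤ (thompsonSubgroup 2 X).map (psi V) ∧ IsBestOffenderOn 2 (Vh V) A} =>
          (A : Subgroup (Hol V)))
        ⟨A.map (psi V), Subgroup.map_mono (le_sSup hA), bestOffender_map V hV hA⟩
    · exact iSup_le fun A => A.2.1
  have hH1 : (thompsonSubgroup 2 X).map (psi V) ≠ ⊥ := by
    intro h0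
    apply hne
    rw [← psi_ker]
    intro j hj
    rw [MonoidHom.mem_ker]
    have : psi V j ∈ (thompsonSubgroup 2 X).map (psi V) := Subgroup.mem_map_of_mem _ hj
    rw [h0, Subgroup.mem_bot] at this
    exact this
  obtain ⟨-, hE, hind, hsup, hindV, hsupV⟩ :=
    Cfsg.Agent.S0617.result _ _ hV' hHV hf hS1 hS3 hH1
  refine ⟨_, inferInstance, (fun E : {E : Subgroup (Hol V) // ∃ A : Subgroup (Hol V),
      A ≤ (thompsonSubgroup 2 X).map (psi V) ∧ Cfsg.IsBestOffenderOn 2 (Vh V) A ∧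
      ⁅Vh V, A⁆ ≠ ⊥ ∧ (∀ B : Subgroup (Hol V), B ≤ A → Cfsg.IsBestOffenderOn 2 (Vh V) B →
        ⁅Vh V, B⁆ ≠ ⊥ → B = A) ∧
      E = ⁅((Cfsg.pPrimeCore 2 ↥((thompsonSubgroup 2 X).map (psi V))).map
        ((thompsonSubgroup 2 X).map (psi V)).subtype), A⁆ ⊔ A} => (E : Subgroup (Hol V))),
    ?_, fun i => (hE i).2.1, ?_, hindV, hsupV, ?_⟩
  · intro i
    exact (le_iSup (fun E : {E : Subgroup (Hol V) // ∃ A : Subgroup (Hol V),
      A ≤ (thompsonSubgroup 2 X).map (psi V) ∧ Cfsg.IsBestOffenderOn 2 (Vh V) A ∧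
      ⁅Vh V, A⁆ ≠ ⊥ ∧ (∀ B : Subgroup (Hol V), B ≤ A → Cfsg.IsBestOffenderOn 2 (Vh V) B →
        ⁅Vh V, B⁆ ≠ ⊥ → B = A) ∧
      E = ⁅((Cfsg.pPrimeCore 2 ↥((thompsonSubgroup 2 X).map (psi V))).map
        ((thompsonSubgroup 2 X).map (psi V)).subtype), A⁆ ⊔ A} => (E : Subgroup (Hol V))) i).trans
      hsup.le
  · intro i
    have := (hE i).2.2
    norm_num at this
    exact this
  · intro x hxH hxodd hx1 W hWc hxW
    obtain ⟨i, hi, -⟩ := exists_factor (Vh V) ((thompsonSubgroup 2 X).map (psi V))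
      (fun E : {E : Subgroup (Hol V) // ∃ A : Subgroup (Hol V),
        A ≤ (thompsonSubgroup 2 X).map (psi V) ∧ Cfsg.IsBestOffenderOn 2 (Vh V) A ∧
        ⁅Vh V, A⁆ ≠ ⊥ ∧ (∀ B : Subgroup (Hol V), B ≤ A → Cfsg.IsBestOffenderOn 2 (Vh V) B →
          ⁅Vh V, B⁆ ≠ ⊥ → B = A) ∧
        E = ⁅((Cfsg.pPrimeCore 2 ↥((thompsonSubgroup 2 X).map (psi V))).map
          ((thompsonSubgroup 2 X).map (psi V)).subtype), A⁆ ⊔ A} => (E : Subgroup (Hol V)))
      hV' hHV hf (fun i => (hE i).1) (fun i => (hE i).2.1)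
      (fun i => by
        have := (hE i).2.2
        norm_num at this
        exact this)
      hind hsup hindV hsupV x hxH hxodd hx1 W hWc hxW
    exact ⟨i, hi⟩


/-- The block decomposition of `V` inside `X` (the `S₃^r` picture). -/
theorem decompX {X : Type u} [Group X] [Finite X] (V : Subgroup X) [V.Normal]
    (hV : IsElementaryAbelian 2 V) (hsep : IsPSolvable 2 X)
    (hO : pCore 2 (X ⧸ Subgroup.centralizer (V : Set X)) = ⊥)
    (hne : ¬ thompsonSubgroup 2 X ≤ Subgroup.centralizer (V : Set X)) :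
    ∃ (ι : Type u) (P : ι → Subgroup X),
      (∀ i, P i ≤ V ∧ Nat.card ↥(P i) = 4) ∧
      (∀ s t : Set (Option ι), Disjoint s t →
        Disjoint (⨆ o ∈ s, (o.elim
            (V ⊓ Subgroup.centralizer (thompsonSubgroup 2 X : Set X)) P : Subgroup X))
          (⨆ o ∈ t, (o.elim
            (V ⊓ Subgroup.centralizer (thompsonSubgroup 2 X : Set X)) P : Subgroup X))) ∧
      iSupIndep (fun o : Option ι => o.elim
        (V ⊓ Subgroup.centralizer (thompsonSubgroup 2 X : Set X)) P) ∧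
      (V ⊓ Subgroup.centralizer (thompsonSubgroup 2 X : Set X)) ⊔ (⨆ i, P i) = V ∧
      (∀ i, ∃ k ∈ thompsonSubgroup 2 X, Odd (orderOf k) ∧
        k ∉ Subgroup.centralizer (V : Set X) ∧ ∀ v ∈ V, k * v * k⁻¹ * v⁻¹ ∈ P i) ∧
      (∀ k ∈ thompsonSubgroup 2 X, Odd (orderOf k) → k ∉ Subgroup.centralizer (V : Set X) →
        ∀ W' : Subgroup X, Nat.card ↥W' = 4 → (∀ v ∈ V, k * v * k⁻¹ * v⁻¹ ∈ W') →
        ∃ i, P i = W') := by
  haveI : Fact (Nat.Prime 2) := ⟨Nat.prime_two⟩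
  haveI hVc : IsMulCommutative ↥V := hV.1
  haveI hVhn := Vh_normal V
  obtain ⟨ι, hfin, E, hEH, hEiso, hEcard, hindV, hsupV, hfac⟩ := holoX V hV hsep hO hne
  have hθ : Function.Injective (SemidirectProduct.inl : ↥V →* Hol V) :=
    SemidirectProduct.inl_injective
  -- the family in the holomorph, in `↥V`, and in `X`
  let fh : Option ι → Subgroup (Hol V) := fun o => o.elim (Vh V ⊓ Subgroup.centralizer
    (((thompsonSubgroup 2 X).map (psi V) : Subgroup (Hol V)) : Set (Hol V)))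
    (fun i => ⁅Vh V, E i⁆)
  let g : Option ι → Subgroup ↥V :=
    fun o => (fh o).comap (SemidirectProduct.inl : ↥V →* Hol V)
  have hg : iSupIndep g := indep_comap _ hθ fh hindV
  have hfh_le : ∀ o, fh o ≤ (SemidirectProduct.inl : ↥V →* Hol V).range := by
    intro o
    cases o with
    | none => exact inf_le_left
    | some i => exact Subgroup.commutator_le_left (Vh V) (E i)
  have hmapg : ∀ o, (g o).map (SemidirectProduct.inl : ↥V →* Hol V) = fh o :=
    fun o => Subgroup.map_comap_eq_self (hfh_le o)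
  have hgnone : g none =
      (V ⊓ Subgroup.centralizer (thompsonSubgroup 2 X : Set X)).subgroupOf V := by
    show (Vh V ⊓ Subgroup.centralizer
      (((thompsonSubgroup 2 X).map (psi V) : Subgroup (Hol V)) : Set (Hol V))).comap
        (SemidirectProduct.inl : ↥V →* Hol V) = _
    rw [fixed_eq, Subgroup.comap_map_eq_self_of_injective hθ]
  let F : Option ι → Subgroup X := fun o => o.elim
    (V ⊓ Subgroup.centralizer (thompsonSubgroup 2 X : Set X))
    (fun i => (g (some i)).map V.subtype)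
  have hF : ∀ o, F o = (g o).map V.subtype := by
    intro o
    cases o with
    | none =>
      show V ⊓ Subgroup.centralizer (thompsonSubgroup 2 X : Set X) = (g none).map V.subtype
      rw [hgnone, Subgroup.map_subgroupOf_eq_of_le inf_le_left]
    | some i => rfl
  have hFeq : F = fun o => (g o).map V.subtype := funext hF
  have hcard : ∀ i, Nat.card ↥((g (some i)).map V.subtype) = 4 := by
    intro i
    rw [Subgroup.card_map_of_injective (Subgroup.subtype_injective V),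
      ← Subgroup.card_map_of_injective hθ, hmapg (some i)]
    exact hEcard i
  refine ⟨ι, fun i => (g (some i)).map V.subtype, ?_, ?_, ?_, ?_, ?_, ?_⟩
  · intro i
    exact ⟨Subgroup.map_subtype_le _, hcard i⟩
  · intro s t hst
    have e : ∀ s : Set (Option ι), (⨆ o ∈ s, F o) = (⨆ o ∈ s, g o).map V.subtype := by
      intro s
      simp_rw [Subgroup.map_iSup, hF]
    show Disjoint (⨆ o ∈ s, F o) (⨆ o ∈ t, F o)
    rw [e s, e t]
    exact disj_map _ (Subgroup.subtype_injective V) (disj_aux g hg s t hst)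
  · show iSupIndep F
    rw [hFeq]
    exact indep_map _ (Subgroup.subtype_injective V) g hg
  · have h1 : fh none ⊔ (⨆ i, fh (some i)) = Vh V := hsupV
    have h2 : (g none ⊔ ⨆ i, g (some i)).map (SemidirectProduct.inl : ↥V →* Hol V) =
        (⊤ : Subgroup ↥V).map (SemidirectProduct.inl : ↥V →* Hol V) := by
      rw [Subgroup.map_sup, Subgroup.map_iSup, hmapg none]
      simp_rw [hmapg]
      rw [h1, ← MonoidHom.range_eq_map]
      rfl
    have h3 := Subgroup.map_injective hθ h2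
    have h4 : (g none ⊔ ⨆ i, g (some i)).map V.subtype = V := by
      rw [h3, ← MonoidHom.range_eq_map, Subgroup.range_subtype]
    rw [Subgroup.map_sup, Subgroup.map_iSup, ← hF none] at h4
    exact h4
  · intro i
    obtain ⟨e⟩ := hEiso i
    obtain ⟨y, hy1, hy3, -, -⟩ := Cfsg.Agent.H14.Sx.s3_facts e
    obtain ⟨j, hj, hjy⟩ := hEH i y.2
    have hj0 : orderOf j ≠ 0 := (orderOf_pos j).ne'
    obtain ⟨a, m, hm, ham⟩ := Nat.exists_eq_two_pow_mul_odd hj0
    have hkpow : (j ^ 2 ^ a) ^ m = 1 := by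
      rw [← pow_mul, ← ham, pow_orderOf_eq_one]
    have hko : Odd (orderOf (j ^ 2 ^ a)) := Odd.of_dvd_nat hm (orderOf_dvd_of_pow_eq_one hkpow)
    have hyE : ((y ^ 2 ^ a : ↥(E i)) : Hol V) ∈ E i := (y ^ 2 ^ a).2
    have hpsik : psi V (j ^ 2 ^ a) = ((y ^ 2 ^ a : ↥(E i)) : Hol V) := by
      rw [map_pow, hjy, Subgroup.coe_pow]
    have hy2a : y ^ 2 ^ a ≠ 1 := by
      intro h
      apply hy1
      have d1 : orderOf y ∣ 2 ^ a := orderOf_dvd_of_pow_eq_one h
      have d2 : orderOf y ∣ 3 := orderOf_dvd_of_pow_eq_one hy3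
      have d3 : orderOf y ∣ Nat.gcd (2 ^ a) 3 := Nat.dvd_gcd d1 d2
      have c : Nat.gcd (2 ^ a) 3 = 1 := Nat.Coprime.pow_left a (by norm_num)
      rw [c, Nat.dvd_one, orderOf_eq_one_iff] at d3
      exact d3
    refine ⟨j ^ 2 ^ a, Subgroup.pow_mem _ hj _, hko, ?_, ?_⟩
    · rw [← psi_ker, MonoidHom.mem_ker, hpsik]
      intro h
      apply hy2a
      exact Subtype.ext h
    · intro v hv
      refine ⟨MulAut.conjNormal (j ^ 2 ^ a) (⟨v, hv⟩ : ↥V) * (⟨v, hv⟩ : ↥V)⁻¹, ?_, ?_⟩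
      · show (SemidirectProduct.inl
          (MulAut.conjNormal (j ^ 2 ^ a) (⟨v, hv⟩ : ↥V) * (⟨v, hv⟩ : ↥V)⁻¹) : Hol V) ∈
            ⁅Vh V, E i⁆
        rw [map_mul, map_inv, ← psi_conj, hpsik]
        have h1 : ⁅((y ^ 2 ^ a : ↥(E i)) : Hol V),
            (SemidirectProduct.inl (⟨v, hv⟩ : ↥V) : Hol V)⁆ ∈ ⁅E i, Vh V⁆ :=
          Subgroup.commutator_mem_commutator hyE ⟨_, rfl⟩
        rw [Subgroup.commutator_comm, commutatorElement_def] at h1
        exact h1
      · rw [Subgroup.coe_subtype, Subgroup.coe_mul, MulAut.conjNormal_apply, Subgroup.coe_inv]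
  · intro k hk hko hkC W' hW' hWk
    obtain ⟨hWV, -⟩ := normW V hV hsep hO k hk hko hkC W' hW' hWk
    have hx1 : psi V k ≠ 1 := by
      intro h1
      apply hkC
      rw [← psi_ker, MonoidHom.mem_ker]
      exact h1
    have hxodd : Odd (orderOf (psi V k)) := Odd.of_dvd_nat hko (orderOf_map_dvd (psi V) k)
    have e1 : Nat.card ↥((W'.subgroupOf V).map (SemidirectProduct.inl : ↥V →* Hol V)) =
        Nat.card ↥W' := by
      rw [Subgroup.card_map_of_injective hθ]
      exact Nat.card_congr (Subgroup.subgroupOfEquivOfLe hWV).toEquiv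
    have hcomm : ∀ v ∈ Vh V, psi V k * v * (psi V k)⁻¹ * v⁻¹ ∈
        (W'.subgroupOf V).map (SemidirectProduct.inl : ↥V →* Hol V) := by
      rintro _ ⟨v, rfl⟩
      rw [psi_conj, ← map_inv, ← map_mul]
      refine Subgroup.mem_map_of_mem _ ?_
      rw [Subgroup.mem_subgroupOf]
      have h1 := hWk (v : X) v.2
      have e : ((MulAut.conjNormal k v * v⁻¹ : ↥V) : X) = k * (v : X) * k⁻¹ * (v : X)⁻¹ := by
        rw [Subgroup.coe_mul, MulAut.conjNormal_apply, Subgroup.coe_inv]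
      rw [e]
      exact h1
    obtain ⟨i, hi⟩ := hfac (psi V k) (Subgroup.mem_map_of_mem _ hk) hxodd hx1 _
      (by rw [e1, hW']) hcomm
    refine ⟨i, ?_⟩
    show ((⁅Vh V, E i⁆ : Subgroup (Hol V)).comap
      (SemidirectProduct.inl : ↥V →* Hol V)).map V.subtype = W'
    rw [hi, Subgroup.comap_map_eq_self_of_injective hθ, Subgroup.map_subgroupOf_eq_of_le hWV]


section orbit

theorem conj_conj {X : Type*} [Group X] (A : Subgroup X) (a b : X) :
    (A.map (MulAut.conj a).toMonoidHom).map (MulAut.conj b).toMonoidHom =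
      A.map (MulAut.conj (b * a)).toMonoidHom := by
  rw [Subgroup.map_map]
  congr 1
  ext x
  simp [mul_assoc]

theorem conj_one' {X : Type*} [Group X] (A : Subgroup X) :
    A.map (MulAut.conj (1 : X)).toMonoidHom = A := by
  ext x
  simp

theorem norm_of_map_le {X : Type*} [Group X] (T A : Subgroup X)
    (h : ∀ t ∈ T, A.map (MulAut.conj t).toMonoidHom ≤ A) :
    T ≤ Subgroup.normalizer (A : Set X) := by
  intro t ht
  rw [Subgroup.mem_normalizer_iff]
  intro x
  constructor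
  · intro hx
    exact h t ht ⟨x, hx, by simp⟩
  · intro hx
    have h1 : (MulAut.conj t⁻¹).toMonoidHom (t * x * t⁻¹) ∈ A :=
      h t⁻¹ (T.inv_mem ht) ⟨t * x * t⁻¹, hx, rfl⟩
    have h2 : (MulAut.conj t⁻¹).toMonoidHom (t * x * t⁻¹) = x := by simp [mul_assoc]
    rw [h2] at h1
    exact h1

theorem map_conj_normal {X : Type*} [Group X] (N : Subgroup X) [hN : N.Normal] (x : X) :
    N.map (MulAut.conj x).toMonoidHom = N := by
  apply le_antisymm
  · rintro _ ⟨n, hn, rfl⟩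
    exact hN.conj_mem n hn x
  · intro n hn
    refine ⟨x⁻¹ * n * x, ?_, by simp [mul_assoc]⟩
    have := hN.conj_mem n hn x⁻¹
    simpa using this

/-- The orbit argument: a 2-group `T` with only one nontrivial fixed point on `V` is transitive
on the blocks, and the complement `V₀` is trivial. -/
theorem orbitX {X : Type u} [Group X] [Finite X] (V V₀ : Subgroup X)
    (hV2 : ∀ v ∈ V, v * v = 1) {ι : Type u} (P : ι → Subgroup X)
    (hdisj : ∀ s t : Set (Option ι), Disjoint s t →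
      Disjoint (⨆ o ∈ s, (o.elim V₀ P : Subgroup X)) (⨆ o ∈ t, (o.elim V₀ P : Subgroup X)))
    (hPV : ∀ i, P i ≤ V) (hV₀V : V₀ ≤ V) (hPne : ∀ i, P i ≠ ⊥)
    (T : Subgroup X) (hT : IsPGroup 2 ↥T)
    (hTV₀ : ∀ t ∈ T, V₀.map (MulAut.conj t).toMonoidHom = V₀)
    (hTP : ∀ t ∈ T, ∀ i, ∃ j, P j = (P i).map (MulAut.conj t).toMonoidHom)
    (hfix : ∀ a ∈ V, ∀ b ∈ V, a ≠ 1 → b ≠ 1 → a ∈ Subgroup.centralizer (T : Set X) →
      b ∈ Subgroup.centralizer (T : Set X) → a = b)
    (i₀ : ι) :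
    V₀ = ⊥ ∧ ∀ i, ∃ t ∈ T, P i = (P i₀).map (MulAut.conj t).toMonoidHom := by
  haveI : Fact (Nat.Prime 2) := ⟨Nat.prime_two⟩
  let F : Option ι → Subgroup X := fun o => o.elim V₀ P
  let I₁ : Set ι := {i | ∃ t ∈ T, P i = (P i₀).map (MulAut.conj t).toMonoidHom}
  let s : Set (Option ι) := some '' I₁
  have hd : Disjoint (⨆ o ∈ s, F o) (⨆ o ∈ sᶜ, F o) := hdisj s sᶜ disjoint_compl_right
  have hFV : ∀ o, F o ≤ V := by
    intro o
    cases o with
    | none => exact hV₀V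
    | some i => exact hPV i
  have hp2 : ∀ A : Subgroup X, A ≤ V → IsPGroup 2 ↥A := by
    intro A hA g
    refine ⟨1, ?_⟩
    apply Subtype.ext
    rw [pow_one, Subgroup.coe_pow, Subgroup.coe_one, pow_two]
    exact hV2 _ (hA g.2)
  have hi₀ : i₀ ∈ I₁ := ⟨1, T.one_mem, (conj_one' _).symm⟩
  have hnone : (none : Option ι) ∈ sᶜ := by
    rintro ⟨i, -, hi⟩
    exact Option.some_ne_none i hi
  -- invariance of the two parts
  have hn1 : T ≤ Subgroup.normalizer ((⨆ o ∈ s, F o : Subgroup X) : Set X) := by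
    apply norm_of_map_le
    intro t ht
    simp_rw [Subgroup.map_iSup]
    apply iSup₂_le
    rintro o ⟨i, ⟨t₁, ht₁, hi⟩, rfl⟩
    obtain ⟨j, hj⟩ := hTP t ht i
    have hj1 : j ∈ I₁ := ⟨t * t₁, T.mul_mem ht ht₁, by rw [hj, hi, conj_conj]⟩
    have : (F (some i)).map (MulAut.conj t).toMonoidHom = F (some j) := hj.symm
    rw [this]
    exact le_iSup₂ (f := fun o (_ : o ∈ s) => F o) (some j) ⟨j, hj1, rfl⟩
  have hn2 : T ≤ Subgroup.normalizer ((⨆ o ∈ sᶜ, F o : Subgroup X) : Set X) := by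
    apply norm_of_map_le
    intro t ht
    simp_rw [Subgroup.map_iSup]
    apply iSup₂_le
    intro o ho
    cases o with
    | none =>
      have : (F none).map (MulAut.conj t).toMonoidHom = F none := hTV₀ t ht
      rw [this]
      exact le_iSup₂ (f := fun o (_ : o ∈ sᶜ) => F o) none hnone
    | some i =>
      obtain ⟨j, hj⟩ := hTP t ht i
      have hj1 : some j ∈ sᶜ := by
        rintro ⟨j', ⟨t₁, ht₁, hj'⟩, hjj⟩
        have hjj' : j' = j := Option.some_injective _ hjj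
        subst hjj'
        apply ho
        refine ⟨i, ⟨t⁻¹ * t₁, T.mul_mem (T.inv_mem ht) ht₁, ?_⟩, rfl⟩
        rw [← conj_conj, ← hj', hj, conj_conj, inv_mul_cancel, conj_one']
      have : (F (some i)).map (MulAut.conj t).toMonoidHom = F (some j) := hj.symm
      rw [this]
      exact le_iSup₂ (f := fun o (_ : o ∈ sᶜ) => F o) (some j) hj1
  have hA1V : (⨆ o ∈ s, F o) ≤ V := iSup₂_le fun o _ => hFV o
  have hA2V : (⨆ o ∈ sᶜ, F o) ≤ V := iSup₂_le fun o _ => hFV o
  have hA1ne : (⨆ o ∈ s, F o) ≠ ⊥ := by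
    intro h0
    apply hPne i₀
    rw [eq_bot_iff, ← h0]
    exact le_iSup₂ (f := fun o (_ : o ∈ s) => F o) (some i₀) ⟨i₀, hi₀, rfl⟩
  obtain ⟨a₁, ha₁, ha₁1, ha₁c⟩ := fixed_ne_one hT (hp2 _ hA1V) hn1 hA1ne
  have hA2 : (⨆ o ∈ sᶜ, F o) = ⊥ := by
    by_contra hA2ne
    obtain ⟨a₂, ha₂, ha₂1, ha₂c⟩ := fixed_ne_one hT (hp2 _ hA2V) hn2 hA2ne
    have heq := hfix a₁ (hA1V ha₁) a₂ (hA2V ha₂) ha₁1 ha₂1 ha₁c ha₂c
    have hmem : a₁ ∈ (⨆ o ∈ s, F o) ⊓ (⨆ o ∈ sᶜ, F o) := ⟨ha₁, heq ▸ ha₂⟩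
    rw [disjoint_iff.mp hd, Subgroup.mem_bot] at hmem
    exact ha₁1 hmem
  refine ⟨?_, ?_⟩
  · rw [eq_bot_iff, ← hA2]
    exact le_iSup₂ (f := fun o (_ : o ∈ sᶜ) => F o) none hnone
  · intro i
    by_contra hi
    apply hPne i
    rw [eq_bot_iff, ← hA2]
    refine le_iSup₂ (f := fun o (_ : o ∈ sᶜ) => F o) (some i) ?_
    rintro ⟨i', hi', hii⟩
    have : i' = i := Option.some_injective _ hii
    subst this
    exact hi hi'

end orbit


/-- JZ (G1): for `L` in the family of `T` with `|C_V(T)| = 2`, `V = Ω₁(Z(O₂(L)))` is the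
internal direct product of the four-groups `W_{K^t}` (`t ∈ T`), which `L` permutes. -/
theorem g1 {G : Type u} [Group G] [Finite G]
    (hL : IsCharacteristicTwoType G)
    (hNsol : ∀ N : Subgroup G, IsTwoLocal N → Group.IsSolvable ↥N)
    (hZN : ∀ S : Sylow 2 G, Subgroup.centralizer (omegaCenterOf (S : Subgroup G) : Set G) ≤
      Subgroup.normalizer ((S : Subgroup G) : Set G))
    (T : Subgroup G) (hT : IsPGroup 2 ↥T) (hT1 : T ≠ ⊥) (L : Subgroup G) (hLT : L ∈ jOvergroups T)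
    (K : Subgroup G) (hKc : IsJComponent T K) (hKL : K ≤ L)
    (hCV : Nat.card ↥(omegaCenterOf (pCoreOf 2 L) ⊓ Subgroup.centralizer (T : Set G)) = 2) :
    ∃ (ι : Type u) (W : ι → Subgroup G),
      (⨆ i, W i) = omegaCenterOf (pCoreOf 2 L) ∧ iSupIndep W ∧
      (∀ i, Nat.card ↥(W i) = 4) ∧
      (∀ l ∈ L, ∀ i, ∃ j, (W i).map (MulAut.conj l).toMonoidHom = W j) ∧
      (∀ i, ∃ t ∈ T, W i = Cfsg.wOf (K.map (MulAut.conj t).toMonoidHom)) ∧
      (∃ i, W i = Cfsg.wOf K) := by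
  haveI : Fact (Nat.Prime 2) := ⟨Nat.prime_two⟩
  have F1 := facts (Cfsg.Agent.H14.Sn.gl Cfsg.Agent.H89.Sn.gla) Cfsg.Agent.H5.Sn.red
    Cfsg.Agent.H63.Sn.ifSyl Cfsg.Agent.H63.Sn.ifV Cfsg.Agent.H63.Sn.ifZ Cfsg.Agent.H71.Sn.ifS
    Cfsg.Agent.H71.Sn.ifK Cfsg.Agent.H80.Sn.ifN hL hNsol hZN T hT hT1 L hLT K hKc hKL
  have hO1 := (Cfsg.Agent.H91.Sn.finA _ _ _ _ _ _ _ F1.hT F1.hTi F1.hC F1.hQ F1.hM F1.hTC F1.hJM
    F1.hcomm F1.hKgen F1.hKJ F1.hOK F1.hO).1
  have hnc1 := Cfsg.Agent.H25.So.nc _ _ _ _ _ _ _ F1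
  have hw1 := Cfsg.Agent.H36.So.wid T L K _ hKc hKL F1 hO1 hnc1
  obtain ⟨hVn, hVel, hQV⟩ := Cfsg.Agent.H63.Sn.ifV L
  have hCT := Cfsg.Agent.H63.Sn.ifZ hZN T L hLT
  have hPS := Cfsg.Agent.H71.Sn.ifS hNsol T L hT1 hLT
  obtain ⟨hred1, hred2⟩ := Cfsg.Agent.H5.Sn.red (T.subgroupOf L)
    ((omegaCenterOf (pCoreOf 2 L)).subgroupOf L) F1.hT F1.hTi hQV hCT
  have hVL : omegaCenterOf (pCoreOf 2 L) ≤ L := fun x hx =>
    Cfsg.Agent.H63.Sn.pCoreOf_le L (Cfsg.Agent.H63.Sn.mem_omegaCenterOf _ hx).1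
  have hc1 : Nat.card ↥⁅(omegaCenterOf (pCoreOf 2 L)).subgroupOf L, K.subgroupOf L⁆ = 4 := by
    rw [← hKc.2.2.2.2.1, ← hw1]
    exact Nat.card_congr (Subgroup.equivMapOfInjective _ _ (Subgroup.subtype_injective L)).toEquiv
  -- an odd-order element of `K` not centralizing `V`
  obtain ⟨k, hkK, hko, hkC⟩ : ∃ k : ↥L, k ∈ K.subgroupOf L ∧ Odd (orderOf k) ∧
      k ∉ Subgroup.centralizer
        (((omegaCenterOf (pCoreOf 2 L)).subgroupOf L : Subgroup ↥L) : Set ↥L) := by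
    by_contra hcon
    push Not at hcon
    apply hnc1
    rw [← F1.hKgen, Subgroup.closure_le]
    rintro g ⟨hg1, hg2⟩
    exact hcon g hg1 hg2
  have hKM : K.subgroupOf L ≤ thompsonSubgroup 2 ↥L := by
    haveI := F1.hM
    rw [← F1.hKJ]
    exact (Subgroup.commutator_mono le_rfl F1.hJM).trans (Subgroup.commutator_le_right _ _)
  have hWk : ∀ v ∈ (omegaCenterOf (pCoreOf 2 L)).subgroupOf L, k * v * k⁻¹ * v⁻¹ ∈
      ⁅(omegaCenterOf (pCoreOf 2 L)).subgroupOf L, K.subgroupOf L⁆ := by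
    intro v hv
    have h1 : ⁅k, v⁆ ∈ ⁅K.subgroupOf L, (omegaCenterOf (pCoreOf 2 L)).subgroupOf L⁆ :=
      Subgroup.commutator_mem_commutator hkK hv
    rw [Subgroup.commutator_comm] at h1
    rw [commutatorElement_def] at h1
    exact h1
  have hne : ¬ thompsonSubgroup 2 ↥L ≤ Subgroup.centralizer
      (((omegaCenterOf (pCoreOf 2 L)).subgroupOf L : Subgroup ↥L) : Set ↥L) :=
    fun h => hkC (h (hKM hkK))
  haveI hJn : (thompsonSubgroup 2 ↥L).Normal := F1.hM
  haveI hCn : (Subgroup.centralizer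
      (((omegaCenterOf (pCoreOf 2 L)).subgroupOf L : Subgroup ↥L) : Set ↥L)).Normal := F1.hC
  obtain ⟨ι, P, hP, hdisj, hind, hsup, hwit, hfac⟩ :=
    decompX ((omegaCenterOf (pCoreOf 2 L)).subgroupOf L) hVel hPS hred1 hne
  obtain ⟨i₀, hi₀⟩ := hfac k (hKM hkK) hko hkC _ hc1 hWk
  -- all of `X = ↥L` permutes the blocks
  have hperm : ∀ x : ↥L, ∀ i, ∃ j, P j = (P i).map (MulAut.conj x).toMonoidHom := by
    intro x i
    obtain ⟨k', hk'J, hk'o, hk'C, hk'W⟩ := hwit i
    refine hfac (x * k' * x⁻¹) (hJn.conj_mem k' hk'J x) ?_ ?_ _ ?_ ?_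
    · have : orderOf (MulAut.conj x k') = orderOf k' := (MulAut.conj x).orderOf_eq k'
      rw [MulAut.conj_apply] at this
      rw [this]
      exact hk'o
    · intro h
      apply hk'C
      have := hCn.conj_mem _ h x⁻¹
      simpa [mul_assoc] using this
    · rw [Subgroup.card_map_of_injective (MulAut.conj x).injective]
      exact (hP i).2
    · intro v hv
      refine ⟨k' * (x⁻¹ * v * x) * k'⁻¹ * (x⁻¹ * v * x)⁻¹, hk'W _ ?_, ?_⟩
      · have := hVn.conj_mem v hv x⁻¹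
        simpa using this
      · simp [mul_assoc]
  have hV₀n : ∀ x : ↥L, ((omegaCenterOf (pCoreOf 2 L)).subgroupOf L ⊓
      Subgroup.centralizer (thompsonSubgroup 2 ↥L : Set ↥L)).map (MulAut.conj x).toMonoidHom =
      (omegaCenterOf (pCoreOf 2 L)).subgroupOf L ⊓
        Subgroup.centralizer (thompsonSubgroup 2 ↥L : Set ↥L) := by
    intro x
    haveI : ((omegaCenterOf (pCoreOf 2 L)).subgroupOf L ⊓
      Subgroup.centralizer (thompsonSubgroup 2 ↥L : Set ↥L)).Normal := inferInstance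
    exact map_conj_normal _ x
  have hV2 : ∀ v ∈ (omegaCenterOf (pCoreOf 2 L)).subgroupOf L, v * v = 1 := by
    intro v hv
    have := hVel.2 v hv
    rw [pow_two] at this
    exact this
  have hPne : ∀ i, P i ≠ ⊥ := by
    intro i h0
    have := (hP i).2
    rw [h0, Subgroup.card_bot] at this
    norm_num at this
  have hfix : ∀ a ∈ (omegaCenterOf (pCoreOf 2 L)).subgroupOf L,
      ∀ b ∈ (omegaCenterOf (pCoreOf 2 L)).subgroupOf L, a ≠ 1 → b ≠ 1 →
      a ∈ Subgroup.centralizer ((T.subgroupOf L : Subgroup ↥L) : Set ↥L) →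
      b ∈ Subgroup.centralizer ((T.subgroupOf L : Subgroup ↥L) : Set ↥L) → a = b := by
    intro a ha b hb ha1 hb1 hac hbc
    have lift : ∀ c : ↥L, c ∈ (omegaCenterOf (pCoreOf 2 L)).subgroupOf L →
        c ∈ Subgroup.centralizer ((T.subgroupOf L : Subgroup ↥L) : Set ↥L) →
        (c : G) ∈ omegaCenterOf (pCoreOf 2 L) ⊓ Subgroup.centralizer (T : Set G) := by
      intro c hc hcc
      refine Subgroup.mem_inf.mpr ⟨hc, Subgroup.mem_centralizer_iff.mpr ?_⟩
      intro t ht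
      have := (Subgroup.mem_centralizer_iff.mp hcc) ⟨t, hLT.1.1 ht⟩
        (Subgroup.mem_subgroupOf.mpr ht)
      exact congrArg Subtype.val this
    obtain ⟨y, -, hy⟩ := (Nat.card_eq_two_iff' (1 : ↥(omegaCenterOf (pCoreOf 2 L) ⊓
      Subgroup.centralizer (T : Set G)))).mp hCV
    have e1 := hy ⟨(a : G), lift a ha hac⟩ (by
      intro h
      apply ha1
      have h' : (a : G) = 1 := congrArg Subtype.val h
      exact Subtype.ext h')
    have e2 := hy ⟨(b : G), lift b hb hbc⟩ (by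
      intro h
      apply hb1
      have h' : (b : G) = 1 := congrArg Subtype.val h
      exact Subtype.ext h')
    have h3 : (a : G) = (b : G) := congrArg (fun z : ↥(omegaCenterOf (pCoreOf 2 L) ⊓
      Subgroup.centralizer (T : Set G)) => (z : G)) (e1.trans e2.symm)
    exact Subtype.ext h3
  obtain ⟨hV₀, horb⟩ := orbitX ((omegaCenterOf (pCoreOf 2 L)).subgroupOf L) _ hV2 P hdisj
    (fun i => (hP i).1) inf_le_left hPne (T.subgroupOf L) F1.hT (fun t _ => hV₀n t)
    (fun t _ i => hperm t i) hfix i₀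
  have hsub : ∀ (A : Subgroup ↥L) (x : ↥L),
      (A.map (MulAut.conj x).toMonoidHom).map L.subtype =
        (A.map L.subtype).map (MulAut.conj (x : G)).toMonoidHom := by
    intro A x
    rw [Subgroup.map_map, Subgroup.map_map]
    congr 1
  refine ⟨ι, fun i => (P i).map L.subtype, ?_, ?_, ?_, ?_, ?_, ?_⟩
  · rw [hV₀, bot_sup_eq] at hsup
    rw [← Subgroup.map_iSup, hsup, Subgroup.map_subgroupOf_eq_of_le hVL]
  · exact indep_map _ (Subgroup.subtype_injective L) P (hind.comp (Option.some_injective _))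
  · intro i
    rw [Subgroup.card_map_of_injective (Subgroup.subtype_injective L)]
    exact (hP i).2
  · intro l hl i
    obtain ⟨j, hj⟩ := hperm ⟨l, hl⟩ i
    refine ⟨j, ?_⟩
    show ((P i).map L.subtype).map (MulAut.conj l).toMonoidHom = (P j).map L.subtype
    rw [hj, hsub]
  · intro i
    obtain ⟨t, ht, hti⟩ := horb i
    refine ⟨(t : G), Subgroup.mem_subgroupOf.mp ht, ?_⟩
    show (P i).map L.subtype = _
    rw [(Cfsg.Agent.H59.So.conj T K (t : G) (Subgroup.mem_subgroupOf.mp ht) hKc).2, ← hw1,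
      ← hsub, ← hi₀, hti]
  · exact ⟨i₀, by
      show (P i₀).map L.subtype = _
      rw [hi₀, hw1]⟩

end Cfsg.Agent.H14.Jz

#print axioms Cfsg.Agent.H14.Jz.g1
#print axioms Cfsg.Agent.H14.Jz.decompX
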