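import Mathlib
import Cfsg.Agent.H17.MnDefs

/-!
# S5634, piece D2: overgroups of the monomial group in dimension `2` without elementary
transvections
-/

set_option autoImplicit false

namespace Cfsg.Agent.H14.Mn

open Cfsg Cfsg.Geo Cfsg.Agent.H17.Mn
open scoped MatrixGroups Matrix

variable {F : Type*} [Field F]

/-- the diagonal element `diag(x, y)` -/
def dg2 (x y : F) (hx : x ≠ 0) (hy : y ≠ 0) : GL (Fin 2) F :=
  ⟨!![x, 0; 0, y], !![x⁻¹, 0; 0, y⁻¹],
    by rw [Matrix.mul_fin_two, Matrix.one_fin_two]; simp [hx, hy],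
    by rw [Matrix.mul_fin_two, Matrix.one_fin_two]; simp [hx, hy]⟩

/-- the antidiagonal element with entries `x` (top right) and `y` (bottom left) -/
def ag2 (x y : F) (hx : x ≠ 0) (hy : y ≠ 0) : GL (Fin 2) F :=
  ⟨!![0, x; y, 0], !![0, y⁻¹; x⁻¹, 0],
    by rw [Matrix.mul_fin_two, Matrix.one_fin_two]; simp [hx, hy],
    by rw [Matrix.mul_fin_two, Matrix.one_fin_two]; simp [hx, hy]⟩

theorem isMon_diag2 (x y : F) : IsMon !![x, 0; 0, y] := by
  intro j i i' hi hi'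
  fin_cases j <;> fin_cases i <;> fin_cases i' <;> simp at hi hi' ⊢

theorem isMon_anti2 (x y : F) : IsMon !![0, x; y, 0] := by
  intro j i i' hi hi'
  fin_cases j <;> fin_cases i <;> fin_cases i' <;> simp at hi hi' ⊢

theorem dg2_mem (x y : F) (hx : x ≠ 0) (hy : y ≠ 0) : dg2 x y hx hy ∈ mono (Fin 2) F := by
  rw [mem_mono_iff]
  exact ⟨isMon_diag2 x y, isMon_diag2 x⁻¹ y⁻¹⟩

theorem ag2_mem (x y : F) (hx : x ≠ 0) (hy : y ≠ 0) : ag2 x y hx hy ∈ mono (Fin 2) F := by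
  rw [mem_mono_iff]
  exact ⟨isMon_anti2 x y, isMon_anti2 y⁻¹ x⁻¹⟩

theorem gl2_mul_val (g h : GL (Fin 2) F) (i j : Fin 2) :
    (g * h).val i j = g.val i 0 * h.val 0 j + g.val i 1 * h.val 1 j := by
  rw [Units.val_mul, Matrix.mul_apply, Fin.sum_univ_two]

theorem det2_ne (t : GL (Fin 2) F) : t.val 0 0 * t.val 1 1 - t.val 0 1 * t.val 1 0 ≠ 0 := by
  have h := (Matrix.isUnit_iff_isUnit_det _).mp t.isUnit
  rw [Matrix.det_fin_two] at h
  exact h.ne_zero

theorem mul_dg2_val (g : GL (Fin 2) F) (x y : F) (hx : x ≠ 0) (hy : y ≠ 0) (i : Fin 2) :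
    (g * dg2 x y hx hy).val i 0 = g.val i 0 * x ∧ (g * dg2 x y hx hy).val i 1 = g.val i 1 * y := by
  constructor
  · rw [gl2_mul_val]
    show g.val i 0 * x + g.val i 1 * (0 : F) = _
    ring
  · rw [gl2_mul_val]
    show g.val i 0 * (0 : F) + g.val i 1 * y = _
    ring

theorem dg2_mul_val (g : GL (Fin 2) F) (x y : F) (hx : x ≠ 0) (hy : y ≠ 0) (j : Fin 2) :
    (dg2 x y hx hy * g).val 0 j = x * g.val 0 j ∧ (dg2 x y hx hy * g).val 1 j = y * g.val 1 j := by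
  constructor
  · rw [gl2_mul_val]
    show x * g.val 0 j + (0 : F) * g.val 1 j = _
    ring
  · rw [gl2_mul_val]
    show (0 : F) * g.val 0 j + y * g.val 1 j = _
    ring

theorem mul_ag2_val (g : GL (Fin 2) F) (x y : F) (hx : x ≠ 0) (hy : y ≠ 0) (i : Fin 2) :
    (g * ag2 x y hx hy).val i 0 = g.val i 1 * y ∧ (g * ag2 x y hx hy).val i 1 = g.val i 0 * x := by
  constructor
  · rw [gl2_mul_val]
    show g.val i 0 * (0 : F) + g.val i 1 * y = _
    ring
  · rw [gl2_mul_val]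
    show g.val i 0 * x + g.val i 1 * (0 : F) = _
    ring

section tame

variable (M' : Subgroup (GL (Fin 2) F)) (hM' : mono (Fin 2) F ≤ M')
  (hno : ∀ g ∈ M', ¬ IsElemTv g)

include hM' hno

/-- no upper triangular element with a non-zero off-diagonal entry -/
theorem tri_upper_false (t : GL (Fin 2) F) (ht : t ∈ M')
    (h10 : t.val 1 0 = 0) (h01 : t.val 0 1 ≠ 0) : False := by
  have hdet := det2_ne t
  rw [h10, mul_zero, sub_zero] at hdet
  have ha : t.val 0 0 ≠ 0 := left_ne_zero_of_mul hdet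
  have hd : t.val 1 1 ≠ 0 := right_ne_zero_of_mul hdet
  refine hno (t * (dg2 _ _ ha hd)⁻¹) (mul_mem ht (inv_mem (hM' (dg2_mem _ _ ha hd)))) ?_
  refine ⟨0, 1, by decide, t.val 0 1 * (t.val 1 1)⁻¹, mul_ne_zero h01 (inv_ne_zero hd), ?_⟩
  rw [Units.val_mul]
  show t.val * !![(t.val 0 0)⁻¹, 0; 0, (t.val 1 1)⁻¹] = _
  ext i j
  fin_cases i <;> fin_cases j <;>
    simp [Matrix.mul_apply, Fin.sum_univ_two, Matrix.transvection, Matrix.single, h10, ha, hd]

/-- no lower triangular element with a non-zero off-diagonal entry -/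
theorem tri_lower_false (t : GL (Fin 2) F) (ht : t ∈ M')
    (h01 : t.val 0 1 = 0) (h10 : t.val 1 0 ≠ 0) : False := by
  have hdet := det2_ne t
  rw [h01, zero_mul, sub_zero] at hdet
  have ha : t.val 0 0 ≠ 0 := left_ne_zero_of_mul hdet
  have hd : t.val 1 1 ≠ 0 := right_ne_zero_of_mul hdet
  refine hno (t * (dg2 _ _ ha hd)⁻¹) (mul_mem ht (inv_mem (hM' (dg2_mem _ _ ha hd)))) ?_
  refine ⟨1, 0, by decide, t.val 1 0 * (t.val 0 0)⁻¹, mul_ne_zero h10 (inv_ne_zero ha), ?_⟩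
  rw [Units.val_mul]
  show t.val * !![(t.val 0 0)⁻¹, 0; 0, (t.val 1 1)⁻¹] = _
  ext i j
  fin_cases i <;> fin_cases j <;>
    simp [Matrix.mul_apply, Fin.sum_univ_two, Matrix.transvection, Matrix.single, h01, ha, hd]

theorem swap_val (t : GL (Fin 2) F) (i : Fin 2) :
    (t * ag2 (1 : F) 1 one_ne_zero one_ne_zero).val i 0 = t.val i 1 ∧
      (t * ag2 (1 : F) 1 one_ne_zero one_ne_zero).val i 1 = t.val i 0 := by
  have h := mul_ag2_val t (1 : F) 1 one_ne_zero one_ne_zero i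
  rw [mul_one, mul_one] at h
  exact h

theorem zero00_false (t : GL (Fin 2) F) (ht : t ∈ M')
    (h00 : t.val 0 0 = 0) (h11 : t.val 1 1 ≠ 0) : False := by
  have hmem : t * ag2 (1 : F) 1 one_ne_zero one_ne_zero ∈ M' :=
    mul_mem ht (hM' (ag2_mem _ _ _ _))
  apply tri_lower_false M' hM' hno _ hmem
  · rw [(swap_val M' hM' hno t 0).2]; exact h00
  · rw [(swap_val M' hM' hno t 1).1]; exact h11

theorem zero11_false (t : GL (Fin 2) F) (ht : t ∈ M')
    (h11 : t.val 1 1 = 0) (h00 : t.val 0 0 ≠ 0) : False := by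
  have hmem : t * ag2 (1 : F) 1 one_ne_zero one_ne_zero ∈ M' :=
    mul_mem ht (hM' (ag2_mem _ _ _ _))
  apply tri_upper_false M' hM' hno _ hmem
  · rw [(swap_val M' hM' hno t 1).1]; exact h11
  · rw [(swap_val M' hM' hno t 0).2]; exact h00

/-- the key relation for elements without zero entries -/
theorem no_zero_rel (t : GL (Fin 2) F) (ht : t ∈ M')
    (ha : t.val 0 0 ≠ 0) (hc : t.val 1 0 ≠ 0) (hd : t.val 1 1 ≠ 0) :
    t.val 0 0 * t.val 1 1 + t.val 0 1 * t.val 1 0 = 0 := by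
  by_contra hne
  have hdet := det2_ne t
  have hx : -(t.val 0 0 * t.val 1 1) ≠ 0 := neg_ne_zero.mpr (mul_ne_zero ha hd)
  have hy : t.val 1 0 * t.val 1 0 ≠ 0 := mul_ne_zero hc hc
  have hmem : t * ag2 _ _ hx hy * t ∈ M' := mul_mem (mul_mem ht (hM' (ag2_mem _ _ hx hy))) ht
  have e : ∀ i : Fin 2, (t * ag2 _ _ hx hy).val i 0 = t.val i 1 * (t.val 1 0 * t.val 1 0) ∧
      (t * ag2 _ _ hx hy).val i 1 = t.val i 0 * (-(t.val 0 0 * t.val 1 1)) :=
    fun i => mul_ag2_val t _ _ hx hy i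
  apply tri_upper_false M' hM' hno _ hmem
  · rw [gl2_mul_val, (e 1).1, (e 1).2]
    ring
  · rw [gl2_mul_val, (e 0).1, (e 0).2]
    have : t.val 0 1 * (t.val 1 0 * t.val 1 0) * t.val 0 1 +
        t.val 0 0 * (-(t.val 0 0 * t.val 1 1)) * t.val 1 1 =
        -((t.val 0 0 * t.val 1 1 - t.val 0 1 * t.val 1 0) *
          (t.val 0 0 * t.val 1 1 + t.val 0 1 * t.val 1 0)) := by ring
    rw [this]
    exact neg_ne_zero.mpr (mul_ne_zero hdet hne)

theorem d2 (s : GL (Fin 2) F) (hs : s ∈ M') : s ∈ mono (Fin 2) F ∨ ((∀ i j, (s : Matrix (Fin 2) (Fin 2) F) i j ≠ 0) ∧ (s : Matrix (Fin 2) (Fin 2) F) 0 0 * (s : Matrix (Fin 2) (Fin 2) F) 1 1 + (s : Matrix (Fin 2) (Fin 2) F) 0 1 * (s : Matrix (Fin 2) (Fin 2) F) 1 0 = 0 ∧ ∀ u : F, u ≠ 0 → u ^ 4 = 1) := by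
  have hdet := det2_ne s
  by_cases hb : s.val 0 1 = 0
  · by_cases hc : s.val 1 0 = 0
    · -- diagonal
      left
      rw [hb, zero_mul, sub_zero] at hdet
      have ha : s.val 0 0 ≠ 0 := left_ne_zero_of_mul hdet
      have hd : s.val 1 1 ≠ 0 := right_ne_zero_of_mul hdet
      have e : s = dg2 _ _ ha hd := by
        apply Units.ext
        show s.val = !![s.val 0 0, 0; 0, s.val 1 1]
        ext i j
        fin_cases i <;> fin_cases j <;> simp [hb, hc]
      rw [e]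
      exact dg2_mem _ _ ha hd
    · exact (tri_lower_false M' hM' hno s hs hb hc).elim
  by_cases hc : s.val 1 0 = 0
  · exact (tri_upper_false M' hM' hno s hs hc hb).elim
  by_cases ha : s.val 0 0 = 0
  · by_cases hd : s.val 1 1 = 0
    · -- antidiagonal
      left
      have e : s = ag2 _ _ hb hc := by
        apply Units.ext
        show s.val = !![0, s.val 0 1; s.val 1 0, 0]
        ext i j
        fin_cases i <;> fin_cases j <;> simp [ha, hd]
      rw [e]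
      exact ag2_mem _ _ hb hc
    · exact (zero00_false M' hM' hno s hs ha hd).elim
  by_cases hd : s.val 1 1 = 0
  · exact (zero11_false M' hM' hno s hs hd ha).elim
  right
  have hrel := no_zero_rel M' hM' hno s hs ha hc hd
  refine ⟨?_, hrel, ?_⟩
  · intro i j
    fin_cases i <;> fin_cases j
    · exact ha
    · exact hb
    · exact hc
    · exact hd
  -- normalise `s` to `[[1, 1], [1, -1]]`
  have h2 : (2 : F) ≠ 0 := by
    intro h2
    apply hdet
    have : s.val 0 0 * s.val 1 1 - s.val 0 1 * s.val 1 0 =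
        (s.val 0 0 * s.val 1 1 + s.val 0 1 * s.val 1 0) - 2 * (s.val 0 1 * s.val 1 0) := by ring
    rw [this, hrel, h2]
    ring
  have hia : (s.val 0 0)⁻¹ ≠ 0 := inv_ne_zero ha
  have hic : (s.val 1 0)⁻¹ ≠ 0 := inv_ne_zero hc
  have hab : s.val 0 0 * (s.val 0 1)⁻¹ ≠ 0 := mul_ne_zero ha (inv_ne_zero hb)
  obtain ⟨s1, hs1, hs1v⟩ : ∃ s1 : GL (Fin 2) F, s1 ∈ M' ∧
      (s1.val 0 0 = 1 ∧ s1.val 0 1 = 1 ∧ s1.val 1 0 = 1 ∧ s1.val 1 1 = -1) := by
    refine ⟨dg2 _ _ hia hic * s * dg2 1 _ one_ne_zero hab,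
      mul_mem (mul_mem (hM' (dg2_mem _ _ _ _)) hs) (hM' (dg2_mem _ _ _ _)), ?_⟩
    have e1 : ∀ j : Fin 2, (dg2 _ _ hia hic * s).val 0 j = (s.val 0 0)⁻¹ * s.val 0 j ∧
        (dg2 _ _ hia hic * s).val 1 j = (s.val 1 0)⁻¹ * s.val 1 j :=
      fun j => dg2_mul_val s _ _ hia hic j
    have e2 : ∀ i : Fin 2, (dg2 _ _ hia hic * s * dg2 1 _ one_ne_zero hab).val i 0 =
          (dg2 _ _ hia hic * s).val i 0 * 1 ∧
        (dg2 _ _ hia hic * s * dg2 1 _ one_ne_zero hab).val i 1 =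
          (dg2 _ _ hia hic * s).val i 1 * (s.val 0 0 * (s.val 0 1)⁻¹) :=
      fun i => mul_dg2_val _ _ _ one_ne_zero hab i
    refine ⟨?_, ?_, ?_, ?_⟩
    · rw [(e2 0).1, (e1 0).1]
      field_simp
    · rw [(e2 0).2, (e1 1).1]
      field_simp
    · rw [(e2 1).1, (e1 0).2]
      field_simp
    · rw [(e2 1).2, (e1 1).2]
      field_simp
      linear_combination hrel
  intro u hu
  by_cases hu1 : u = 1
  · rw [hu1, one_pow]
  by_cases hu2 : u = -1
  · rw [hu2]; ring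
  have hmem : s1 * dg2 1 u one_ne_zero hu * s1 ∈ M' :=
    mul_mem (mul_mem hs1 (hM' (dg2_mem _ _ _ _))) hs1
  have e1 : ∀ i : Fin 2, (s1 * dg2 1 u one_ne_zero hu).val i 0 = s1.val i 0 * 1 ∧
      (s1 * dg2 1 u one_ne_zero hu).val i 1 = s1.val i 1 * u :=
    fun i => mul_dg2_val s1 1 u one_ne_zero hu i
  have hp : (1 : F) + u ≠ 0 := by
    intro h
    apply hu2
    linear_combination h
  have hm : (1 : F) - u ≠ 0 := by
    intro h
    apply hu1
    linear_combination -h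
  have z00 : (s1 * dg2 1 u one_ne_zero hu * s1).val 0 0 = 1 + u := by
    rw [gl2_mul_val, (e1 0).1, (e1 0).2, hs1v.1, hs1v.2.1, hs1v.2.2.1]; ring
  have z01 : (s1 * dg2 1 u one_ne_zero hu * s1).val 0 1 = 1 - u := by
    rw [gl2_mul_val, (e1 0).1, (e1 0).2, hs1v.1, hs1v.2.1, hs1v.2.2.2]; ring
  have z10 : (s1 * dg2 1 u one_ne_zero hu * s1).val 1 0 = 1 - u := by
    rw [gl2_mul_val, (e1 1).1, (e1 1).2, hs1v.1, hs1v.2.2.1, hs1v.2.2.2]; ring
  have z11 : (s1 * dg2 1 u one_ne_zero hu * s1).val 1 1 = 1 + u := by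
    rw [gl2_mul_val, (e1 1).1, (e1 1).2, hs1v.2.1, hs1v.2.2.1, hs1v.2.2.2]; ring
  have hrel2 := no_zero_rel M' hM' hno _ hmem (by rw [z00]; exact hp) (by rw [z10]; exact hm)
    (by rw [z11]; exact hp)
  rw [z00, z01, z10, z11] at hrel2
  have h3 : u ^ 2 = -1 := by
    have h4 : (2 : F) * (u ^ 2 + 1) = 0 := by linear_combination hrel2
    rcases mul_eq_zero.mp h4 with h5 | h5
    · exact absurd h5 h2
    · linear_combination h5
  calc u ^ 4 = (u ^ 2) ^ 2 := by ring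
    _ = 1 := by rw [h3]; ring

end tame

end Cfsg.Agent.H14.Mn
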