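import Mathlib
import Cfsg.Agent.H17.MnDefs

/-!
# S5634, piece FW: the explicit word in `GL_3(5)` producing an elementary transvection
-/

set_option autoImplicit false

namespace Cfsg.Agent.H14.Mn

open Cfsg Cfsg.Geo Cfsg.Agent.H17.Mn
open scoped MatrixGroups Matrix

variable {F : Type*} [Field F]

/-- the Hadamard-type element over `ZMod 5` -/
def eta5 : Matrix (Fin 3) (Fin 3) (ZMod 5) := !![1, 0, 0; 0, 1, 1; 0, 1, -1]

def mA5 : Matrix (Fin 3) (Fin 3) (ZMod 5) := !![0, 1, 0; 1, 0, 0; 0, 0, 1]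

def mB5 : Matrix (Fin 3) (Fin 3) (ZMod 5) := !![0, 1, 0; 1, 0, 0; 0, 0, 2]

def mB5' : Matrix (Fin 3) (Fin 3) (ZMod 5) := !![0, 1, 0; 1, 0, 0; 0, 0, 3]

def mC5 : Matrix (Fin 3) (Fin 3) (ZMod 5) := !![0, 1, 0; 0, 0, 3; 2, 0, 0]

def mC5' : Matrix (Fin 3) (Fin 3) (ZMod 5) := !![0, 0, 3; 1, 0, 0; 0, 2, 0]

def mT5 : Matrix (Fin 3) (Fin 3) (ZMod 5) := !![1, 0, 0; 3, 1, 0; 0, 0, 1]

theorem mA5_mul : mA5 * mA5 = 1 := by decide

theorem mB5_mul : mB5 * mB5' = 1 := by decide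

theorem mB5'_mul : mB5' * mB5 = 1 := by decide

theorem mC5_mul : mC5 * mC5' = 1 := by decide

theorem mC5'_mul : mC5' * mC5 = 1 := by decide

theorem word5 :
    eta5 * mA5 * eta5 * mA5 * eta5 * mB5 * eta5 * mA5 * eta5 * mB5 * eta5 * mB5 * eta5 * mC5 =
      mT5 := by decide

theorem isMon_mA5 : ∀ j i i', mA5 i j ≠ 0 → mA5 i' j ≠ 0 → i = i' := by decide

theorem isMon_mB5 : ∀ j i i', mB5 i j ≠ 0 → mB5 i' j ≠ 0 → i = i' := by decide

theorem isMon_mB5' : ∀ j i i', mB5' i j ≠ 0 → mB5' i' j ≠ 0 → i = i' := by decide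

theorem isMon_mC5 : ∀ j i i', mC5 i j ≠ 0 → mC5 i' j ≠ 0 → i = i' := by decide

theorem isMon_mC5' : ∀ j i i', mC5' i j ≠ 0 → mC5' i' j ≠ 0 → i = i' := by decide

theorem isMon_mapMatrix {R : Type*} [Semiring R] (φ : R →+* F) {A : Matrix (Fin 3) (Fin 3) R}
    (h : ∀ j i i', A i j ≠ 0 → A i' j ≠ 0 → i = i') : IsMon (φ.mapMatrix A) := by
  intro j i i' hi hi'
  apply h j i i'
  · intro h0
    apply hi
    rw [RingHom.mapMatrix_apply, Matrix.map_apply, h0, map_zero]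
  · intro h0
    apply hi'
    rw [RingHom.mapMatrix_apply, Matrix.map_apply, h0, map_zero]

/-- a pair of mutually inverse monomial matrices over the prime field gives an element of `mono` -/
theorem exists_mono_of_map {R : Type*} [Semiring R] (φ : R →+* F) (A A' : Matrix (Fin 3) (Fin 3) R)
    (h1 : A * A' = 1) (h2 : A' * A = 1) (hA : ∀ j i i', A i j ≠ 0 → A i' j ≠ 0 → i = i')
    (hA' : ∀ j i i', A' i j ≠ 0 → A' i' j ≠ 0 → i = i') :
    ∃ g : GL (Fin 3) F, g ∈ mono (Fin 3) F ∧ (g : Matrix (Fin 3) (Fin 3) F) = φ.mapMatrix A := by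
  refine ⟨⟨φ.mapMatrix A, φ.mapMatrix A', by rw [← map_mul, h1, map_one],
    by rw [← map_mul, h2, map_one]⟩, ?_, rfl⟩
  rw [mem_mono_iff]
  exact ⟨isMon_mapMatrix φ hA, isMon_mapMatrix φ hA'⟩

theorem five_word [Fintype F] (hq : Fintype.card F = 5) (M : Subgroup (GL (Fin 3) F)) (hM : mono (Fin 3) F ≤ M) (η : GL (Fin 3) F) (hη : η ∈ M) (hηv : (η : Matrix (Fin 3) (Fin 3) F) = !![1, 0, 0; 0, 1, 1; 0, 1, -1]) : ∃ g ∈ M, IsElemTv g := by
  haveI : Fact (Nat.Prime 5) := ⟨by norm_num⟩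
  haveI : CharP F 5 := charP_of_card_eq_prime hq
  let φ : ZMod 5 →+* F := ZMod.castHom (dvd_refl 5) F
  have h5 : (5 : F) = 0 := by
    have := CharP.cast_eq_zero F 5
    exact_mod_cast this
  obtain ⟨a, haM, hav⟩ := exists_mono_of_map φ mA5 mA5 mA5_mul mA5_mul isMon_mA5 isMon_mA5
  obtain ⟨b, hbM, hbv⟩ := exists_mono_of_map φ mB5 mB5' mB5_mul mB5'_mul isMon_mB5 isMon_mB5'
  obtain ⟨c, hcM, hcv⟩ := exists_mono_of_map φ mC5 mC5' mC5_mul mC5'_mul isMon_mC5 isMon_mC5'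
  have ha := hM haM
  have hb := hM hbM
  have hc := hM hcM
  have hηφ : (η : Matrix (Fin 3) (Fin 3) F) = φ.mapMatrix eta5 := by
    rw [hηv]
    ext i j
    fin_cases i <;> fin_cases j <;> simp [eta5, RingHom.mapMatrix_apply]
  have hTφ : φ.mapMatrix mT5 = Matrix.transvection (1 : Fin 3) 0 (3 : F) := by
    ext i j
    fin_cases i <;> fin_cases j <;>
      simp [mT5, RingHom.mapMatrix_apply, Matrix.transvection, Matrix.single, Matrix.one_apply, map_ofNat]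
  refine ⟨η * a * η * a * η * b * η * a * η * b * η * b * η * c, ?_, ?_⟩
  · exact mul_mem (mul_mem (mul_mem (mul_mem (mul_mem (mul_mem (mul_mem (mul_mem (mul_mem
      (mul_mem (mul_mem (mul_mem (mul_mem hη ha) hη) ha) hη) hb) hη) ha) hη) hb) hη) hb) hη) hc
  · refine ⟨1, 0, by decide, 3, ?_, ?_⟩
    · intro h3
      have : (1 : F) = 0 := by linear_combination 2 * h3 - h5
      exact one_ne_zero this
    · simp only [Units.val_mul]
      rw [hηφ, hav, hbv, hcv, ← hTφ, ← word5]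
      simp only [map_mul]

end Cfsg.Agent.H14.Mn
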