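import Mathlib
import Cfsg.Agent.H99.OrtDefs

/-! helper14: piece S5981-CAYLEY of helper99's project: a fixed-point-free isometry of odd order
determines the discriminant class (Cayley transform). -/

set_option autoImplicit false

namespace Cfsg.Agent.H14.Ort

open Cfsg.Agent.H99.Ort

universe u

/-- The Cayley transform `S = (1 - u)(1 + u)⁻¹` of an isometry `u` of the symmetric matrix `B`
makes `B S` skew-symmetric. -/
theorem cayley_skew {F : Type u} [Field F] {n : ℕ}
    (u W B : Matrix (Fin n) (Fin n) F) (hW1 : (1 + u) * W = 1) (hW2 : W * (1 + u) = 1)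
    (hB : B.transpose = B) (hu : u.transpose * B * u = B) :
    (B * ((1 - u) * W)).transpose = -(B * ((1 - u) * W)) := by
  obtain ⟨U, hU⟩ : ∃ U, U = u.transpose := ⟨_, rfl⟩
  rw [← hU] at hu
  obtain ⟨S, hS⟩ : ∃ S, S = (1 - u) * W := ⟨_, rfl⟩
  rw [← hS]
  have hWT1 : (1 + U) * W.transpose = 1 := by
    have h := congrArg Matrix.transpose hW2
    rw [Matrix.transpose_mul, Matrix.transpose_add, Matrix.transpose_one, ← hU] at h
    exact h
  have hWT2 : W.transpose * (1 + U) = 1 := by
    have h := congrArg Matrix.transpose hW1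
    rw [Matrix.transpose_mul, Matrix.transpose_add, Matrix.transpose_one, ← hU] at h
    exact h
  have hST : S.transpose = W.transpose * (1 - U) := by
    rw [hS, Matrix.transpose_mul, Matrix.transpose_sub, Matrix.transpose_one, ← hU]
  have e1 : (1 + U) * S.transpose = 1 - U := by
    rw [hST, ← mul_assoc, hWT1, one_mul]
  have e2 : S * (1 + u) = 1 - u := by
    rw [hS, mul_assoc, hW2, mul_one]
  have key : (1 + U) * (S.transpose * B + B * S) * (1 + u) = 0 := by
    calc (1 + U) * (S.transpose * B + B * S) * (1 + u)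
        = ((1 + U) * S.transpose) * B * (1 + u) + (1 + U) * B * (S * (1 + u)) := by
          noncomm_ring
      _ = (1 - U) * B * (1 + u) + (1 + U) * B * (1 - u) := by rw [e1, e2]
      _ = 2 • B - 2 • (U * B * u) := by noncomm_ring
      _ = 0 := by rw [hu, sub_self]
  have hE : S.transpose * B + B * S = 0 := by
    calc S.transpose * B + B * S
        = (W.transpose * (1 + U)) * (S.transpose * B + B * S) * ((1 + u) * W) := by
          rw [hWT2, hW1, one_mul, mul_one]
      _ = W.transpose * ((1 + U) * (S.transpose * B + B * S) * (1 + u)) * W := by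
          noncomm_ring
      _ = 0 := by rw [key, mul_zero, zero_mul]
  rw [Matrix.transpose_mul, hB]
  exact eq_neg_of_add_eq_zero_left hE

theorem cayley : StCayley.{u} := by
  intro F _ _ n r h2 hr hroot hskew x₀ A₀ A hA₀ hA₀u hA hAu hx₀ hx₀r hx₀1 hns
  rintro ⟨P, s, c, hP, hc, hxP, hs⟩
  have hn : 0 < n := by
    by_contra hcon
    have hn0 : n = 0 := by omega
    subst hn0
    apply hns
    rw [Matrix.det_isEmpty, Matrix.det_isEmpty]
    exact ⟨1, rfl⟩
  haveI : Nonempty (Fin n) := ⟨⟨0, hn⟩⟩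
  obtain ⟨Pi, hPi⟩ : ∃ Pi, Pi = P⁻¹ := ⟨_, rfl⟩
  have hPPi : P * Pi = 1 := by rw [hPi]; exact Matrix.mul_nonsing_inv P hP
  have hPiP : Pi * P = 1 := by rw [hPi]; exact Matrix.nonsing_inv_mul P hP
  have hPidet : Pi.det * P.det = 1 := by rw [← Matrix.det_mul, hPiP, Matrix.det_one]
  have hPi0 : Pi.det ≠ 0 := left_ne_zero_of_mul_eq_one hPidet
  obtain ⟨B', hB'⟩ : ∃ B', B' = Pi.transpose * A * Pi := ⟨_, rfl⟩
  have hB'T : B'.transpose = B' := by
    rw [hB', Matrix.transpose_mul, Matrix.transpose_mul, Matrix.transpose_transpose, hA,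
      mul_assoc]
  have hB'det : B'.det = A.det * Pi.det ^ 2 := by
    rw [hB', Matrix.det_mul, Matrix.det_mul, Matrix.det_transpose]
    ring
  have hs' : s = Pi * x₀ * P := by
    rw [mul_assoc, hxP, ← mul_assoc, hPiP, one_mul]
  have hT : Pi.transpose * P.transpose = 1 := by
    rw [← Matrix.transpose_mul, hPPi, Matrix.transpose_one]
  have hx₀B : x₀.transpose * B' * x₀ = c • B' := by
    have h1 : (Pi * x₀ * P).transpose * A * (Pi * x₀ * P) = c • A := by
      rw [← hs']
      exact hs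
    have h3 : Pi.transpose * ((Pi * x₀ * P).transpose * A * (Pi * x₀ * P)) * Pi =
        x₀.transpose * B' * x₀ := by
      rw [Matrix.transpose_mul, Matrix.transpose_mul, hB']
      calc Pi.transpose * (P.transpose * (x₀.transpose * Pi.transpose) * A * (Pi * x₀ * P)) * Pi
          = (Pi.transpose * P.transpose) * x₀.transpose * Pi.transpose * A * Pi * x₀ *
              (P * Pi) := by noncomm_ring
        _ = x₀.transpose * (Pi.transpose * A * Pi) * x₀ := by
          rw [hT, hPPi]
          noncomm_ring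
    rw [← h3, h1, hB', Matrix.mul_smul, Matrix.smul_mul]
  have hpow : ∀ k : ℕ, (x₀ ^ k).transpose * B' * x₀ ^ k = c ^ k • B' := by
    intro k
    induction k with
    | zero => simp
    | succ k ih =>
      rw [pow_succ', Matrix.transpose_mul]
      calc (x₀ ^ k).transpose * x₀.transpose * B' * (x₀ * x₀ ^ k)
          = (x₀ ^ k).transpose * (x₀.transpose * B' * x₀) * x₀ ^ k := by noncomm_ring
        _ = c ^ (k + 1) • B' := by
          rw [hx₀B, Matrix.mul_smul, Matrix.smul_mul, ih, smul_smul, pow_succ']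
  have hcr : c ^ r = 1 := by
    have h := hpow r
    rw [hx₀r, Matrix.transpose_one, one_mul, mul_one] at h
    have hB'0 : ∃ i j, B' i j ≠ 0 := by
      by_contra hcon
      push_neg at hcon
      have h0 : B' = 0 := Matrix.ext hcon
      have hd : B'.det = 0 := by rw [h0, Matrix.det_zero]
      rw [hB'det] at hd
      exact mul_ne_zero hAu.ne_zero (pow_ne_zero 2 hPi0) hd
    obtain ⟨i, j, hij⟩ := hB'0
    have h' := congrFun (congrFun h i) j
    rw [Matrix.smul_apply, smul_eq_mul] at h'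
    have h4 : (c ^ r - 1) * B' i j = 0 := by linear_combination -h'
    rcases mul_eq_zero.mp h4 with h0 | h0
    · exact sub_eq_zero.mp h0
    · exact absurd h0 hij
  have hc1 : c = 1 := hroot c hcr
  rw [hc1, one_smul] at hx₀B
  -- `1 + x₀` is invertible
  have hgeom : (1 + x₀) * (∑ i ∈ Finset.range r, (-x₀) ^ i) = 2 := by
    have h := mul_geom_sum (-x₀) r
    rw [Odd.neg_pow hr, hx₀r] at h
    have h5 : (1 + x₀) * (∑ i ∈ Finset.range r, (-x₀) ^ i) =
        -((-x₀ - 1) * ∑ i ∈ Finset.range r, (-x₀) ^ i) := by noncomm_ring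
    rw [h5, h]
    norm_num
  have hunit : IsUnit (1 + x₀).det := by
    apply Matrix.isUnit_det_of_right_inverse
      (B := (2 : F)⁻¹ • (∑ i ∈ Finset.range r, (-x₀) ^ i))
    rw [Matrix.mul_smul, hgeom]
    have h6 : (2 : Matrix (Fin n) (Fin n) F) = (2 : F) • (1 : Matrix (Fin n) (Fin n) F) := by
      rw [two_smul, one_add_one_eq_two]
    rw [h6, smul_smul, inv_mul_cancel₀ h2, one_smul]
  obtain ⟨W, hW⟩ : ∃ W, W = (1 + x₀)⁻¹ := ⟨_, rfl⟩
  have hW1 : (1 + x₀) * W = 1 := by rw [hW]; exact Matrix.mul_nonsing_inv _ hunit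
  have hW2 : W * (1 + x₀) = 1 := by rw [hW]; exact Matrix.nonsing_inv_mul _ hunit
  have hWdet : W.det ≠ 0 := by
    have h7 : W.det * (1 + x₀).det = 1 := by rw [← Matrix.det_mul, hW2, Matrix.det_one]
    exact left_ne_zero_of_mul_eq_one h7
  have hSdet : ((1 - x₀) * W).det ≠ 0 := by
    rw [Matrix.det_mul]
    refine mul_ne_zero ?_ hWdet
    have h8 : (1 - x₀) = -(x₀ - 1) := by abel
    rw [h8, Matrix.det_neg]
    exact mul_ne_zero (pow_ne_zero _ (neg_ne_zero.mpr one_ne_zero)) hx₀1.ne_zero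
  obtain ⟨a, ha⟩ := hskew _ (cayley_skew x₀ W A₀ hW1 hW2 hA₀ hx₀)
  obtain ⟨b, hb⟩ := hskew _ (cayley_skew x₀ W B' hW1 hW2 hB'T hx₀B)
  rw [Matrix.det_mul] at ha hb
  rw [hB'det] at hb
  apply hns
  have hd : Pi.det * ((1 - x₀) * W).det ≠ 0 := mul_ne_zero hPi0 hSdet
  refine ⟨a * b / (Pi.det * ((1 - x₀) * W).det), ?_⟩
  rw [div_mul_div_comm, eq_div_iff (mul_ne_zero hd hd)]
  linear_combination (A.det * Pi.det ^ 2 * ((1 - x₀) * W).det) * ha + (a * a) * hb

example : Cfsg.Agent.H99.Ort.StCayley.{u} := cayley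

end Cfsg.Agent.H14.Ort
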