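import Mathlib
import Cfsg.Agent.H99.OrtDefs
import Cfsg.Agent.H17.SymmBasis

/-! helper14: piece S5981-CONG of helper99's project: over a finite field of odd characteristic,
invertible symmetric matrices with the same discriminant class are congruent. -/

set_option autoImplicit false

namespace Cfsg.Agent.H14.Ort

open Cfsg.Agent.H99.Ort

universe u

/-- Diagonalisation of an invertible symmetric matrix to `diag(1, …, 1, δ)`, `δ ∈ {1, α}`. -/
theorem exists_diag {F : Type u} [Field F] [Finite F] (h2 : (2 : F) ≠ 0) (α : F)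
    (hα : ¬ IsSquare α) (m : ℕ) (A : Matrix (Fin (m + 1)) (Fin (m + 1)) F)
    (hA : A.transpose = A) (hAu : IsUnit A.det) :
    ∃ (T : Matrix (Fin (m + 1)) (Fin (m + 1)) F) (δ : F), (δ = 1 ∨ δ = α) ∧
      T.transpose * A * T = Matrix.diagonal (fun i => if i = Fin.last m then δ else 1) := by
  obtain ⟨B, hBdef⟩ : ∃ B : LinearMap.BilinForm F (Fin (m + 1) → F), B = Matrix.toBilin' A :=
    ⟨_, rfl⟩
  have hS : B.IsSymm := by
    rw [hBdef]
    exact Matrix.isSymm_toBilin'_iff_isSymm.mpr hA
  have hB : B.Nondegenerate := by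
    rw [hBdef]
    exact LinearMap.BilinForm.nondegenerate_toBilin'_iff_det_ne_zero.mpr hAu.ne_zero
  have hfr : Module.finrank F (Fin (m + 1) → F) = m + 1 := by simp
  obtain ⟨b, hoff, hdiag1, hlast⟩ :=
    Cfsg.Agent.H17.symm_basis_aux h2 α hα m (Fin (m + 1) → F) B hS hB hfr
  obtain ⟨T, hT⟩ : ∃ T : Matrix (Fin (m + 1)) (Fin (m + 1)) F, T = Matrix.of (fun i j => b j i) :=
    ⟨_, rfl⟩
  have key : ∀ j k, (T.transpose * A * T) j k = B (b j) (b k) := by
    intro j k
    rw [hBdef, Matrix.toBilin'_apply', Matrix.mul_assoc, Matrix.mul_apply]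
    unfold dotProduct Matrix.mulVec dotProduct
    apply Finset.sum_congr rfl
    intro i _
    rw [Matrix.transpose_apply, hT, Matrix.of_apply, Matrix.mul_apply]
    rfl
  refine ⟨T, B (b (Fin.last m)) (b (Fin.last m)), hlast, ?_⟩
  ext j k
  rw [key]
  by_cases hjk : j = k
  · subst hjk
    rw [Matrix.diagonal_apply_eq]
    by_cases hj : j = Fin.last m
    · rw [if_pos hj, hj]
    · rw [if_neg hj]
      exact hdiag1 j hj
  · rw [Matrix.diagonal_apply_ne _ hjk]
    exact hoff j k hjk

theorem cong : StCong.{u} := by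
  intro F _ _ n h2 A A' hA hA' hAu hA'u hsq
  rcases Nat.eq_zero_or_pos n with hn | hn
  · subst hn
    refine ⟨1, ?_, Subsingleton.elim _ _⟩
    rw [Matrix.det_one]
    exact isUnit_one
  · obtain ⟨m, rfl⟩ : ∃ m, n = m + 1 := ⟨n - 1, by omega⟩
    have hchar : ringChar F ≠ 2 := by
      intro h
      apply h2
      have h3 := ringChar.Nat.cast_ringChar (R := F)
      rw [h] at h3
      exact_mod_cast h3
    obtain ⟨α, hα⟩ := FiniteField.exists_nonsquare (F := F) hchar
    have hα0 : α ≠ 0 := by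
      rintro rfl
      exact hα ⟨0, (mul_zero 0).symm⟩
    obtain ⟨T₁, δ₁, hδ₁, hT₁⟩ := exists_diag h2 α hα m A hA hAu
    obtain ⟨T₂, δ₂, hδ₂, hT₂⟩ := exists_diag h2 α hα m A' hA' hA'u
    have hprodlast : ∀ δ : F, ∏ i : Fin (m + 1), (if i = Fin.last m then δ else 1) = δ := by
      intro δ
      rw [Finset.prod_ite_eq' Finset.univ (Fin.last m) (fun _ => δ)]
      simp
    have hd₁ : T₁.det ^ 2 * A.det = δ₁ := by
      have h := congrArg Matrix.det hT₁
      rw [Matrix.det_mul, Matrix.det_mul, Matrix.det_transpose, Matrix.det_diagonal,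
        hprodlast] at h
      linear_combination h
    have hd₂ : T₂.det ^ 2 * A'.det = δ₂ := by
      have h := congrArg Matrix.det hT₂
      rw [Matrix.det_mul, Matrix.det_mul, Matrix.det_transpose, Matrix.det_diagonal,
        hprodlast] at h
      linear_combination h
    have hδ₁0 : δ₁ ≠ 0 := by
      rcases hδ₁ with h | h
      · rw [h]; exact one_ne_zero
      · rw [h]; exact hα0
    have hδ₂0 : δ₂ ≠ 0 := by
      rcases hδ₂ with h | h
      · rw [h]; exact one_ne_zero
      · rw [h]; exact hα0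
    have hT₁0 : T₁.det ≠ 0 := by
      intro h
      rw [h] at hd₁
      apply hδ₁0
      rw [← hd₁]
      ring
    have hT₂0 : T₂.det ≠ 0 := by
      intro h
      rw [h] at hd₂
      apply hδ₂0
      rw [← hd₂]
      ring
    have hδ : δ₁ = δ₂ := by
      by_contra hne
      have hprod : δ₁ * δ₂ = α := by
        rcases hδ₁ with h | h <;> rcases hδ₂ with h' | h'
        · exact absurd (h.trans h'.symm) hne
        · rw [h, h', one_mul]
        · rw [h, h', mul_one]
        · exact absurd (h.trans h'.symm) hne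
      obtain ⟨w, hw⟩ := hsq
      apply hα
      refine ⟨T₁.det * T₂.det * w, ?_⟩
      rw [← hprod, ← hd₁, ← hd₂]
      linear_combination (T₁.det ^ 2 * T₂.det ^ 2) * hw
    rw [← hδ] at hT₂
    have hT₂u : IsUnit T₂.det := hT₂0.isUnit
    obtain ⟨Ti, hTi⟩ : ∃ Ti, Ti = T₂⁻¹ := ⟨_, rfl⟩
    have hTi1 : T₂ * Ti = 1 := by rw [hTi]; exact Matrix.mul_nonsing_inv T₂ hT₂u
    have hTi2 : Ti * T₂ = 1 := by rw [hTi]; exact Matrix.nonsing_inv_mul T₂ hT₂u
    have hTidet : Ti.det ≠ 0 := by
      have h7 : Ti.det * T₂.det = 1 := by rw [← Matrix.det_mul, hTi2, Matrix.det_one]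
      exact left_ne_zero_of_mul_eq_one h7
    have hTiT : Ti.transpose * T₂.transpose = 1 := by
      rw [← Matrix.transpose_mul, hTi1, Matrix.transpose_one]
    refine ⟨T₁ * Ti, ?_, ?_⟩
    · rw [Matrix.det_mul]
      exact (mul_ne_zero hT₁0 hTidet).isUnit
    · rw [Matrix.transpose_mul]
      calc Ti.transpose * T₁.transpose * A * (T₁ * Ti)
          = Ti.transpose * (T₁.transpose * A * T₁) * Ti := by noncomm_ring
        _ = Ti.transpose * (T₂.transpose * A' * T₂) * Ti := by rw [hT₁, hT₂]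
        _ = (Ti.transpose * T₂.transpose) * A' * (T₂ * Ti) := by noncomm_ring
        _ = A' := by rw [hTiT, hTi1, one_mul, mul_one]

example : Cfsg.Agent.H99.Ort.StCong.{u} := cong

end Cfsg.Agent.H14.Ort
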