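import Mathlib
import Cfsg.Agent.H99.OrtDefs

/-! helper14: piece S5981-SKEW of helper99's project: the determinant of a skew-symmetric matrix
(characteristic not two) is a square. -/

set_option autoImplicit false

namespace Cfsg.Agent.H14.Ort

open Cfsg.Agent.H99.Ort

universe u

/-- Splitting off two distinct points of a type. -/
def splitTwo {ι : Type} [DecidableEq ι] (i j : ι) (hne : i ≠ j) :
    Fin 2 ⊕ {k : ι // k ≠ i ∧ k ≠ j} ≃ ι where
  toFun := Sum.elim (fun x => if x = 0 then i else j) Subtype.val
  invFun := fun k => if h1 : k = i then Sum.inl 0 else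
    if h2 : k = j then Sum.inl 1 else Sum.inr ⟨k, h1, h2⟩
  left_inv := by
    rintro (x | ⟨k, h1, h2⟩)
    · fin_cases x
      · simp
      · simp [hne.symm]
    · simp [h1, h2]
  right_inv := by
    intro k
    by_cases h1 : k = i
    · simp [h1]
    · by_cases h2 : k = j
      · subst h2
        simp [hne.symm]
      · simp [h1, h2]

theorem splitTwo_zero {ι : Type} [DecidableEq ι] (i j : ι) (hne : i ≠ j) :
    splitTwo i j hne (Sum.inl 0) = i := by
  simp [splitTwo]

theorem splitTwo_one {ι : Type} [DecidableEq ι] (i j : ι) (hne : i ≠ j) :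
    splitTwo i j hne (Sum.inl 1) = j := by
  simp [splitTwo]

theorem skew_aux {F : Type u} [Field F] (h2 : (2 : F) ≠ 0) (k : ℕ) :
    ∀ (ι : Type) [Fintype ι] [DecidableEq ι], Fintype.card ι = k →
      ∀ M : Matrix ι ι F, M.transpose = -M → IsSquare M.det := by
  induction k using Nat.strong_induction_on with
  | _ k ih =>
    intro ι _ _ hk M hM
    have hskew : ∀ x y, M y x = - M x y := by
      intro x y
      have h := congrFun (congrFun hM x) y
      rw [Matrix.transpose_apply, Matrix.neg_apply] at h
      exact h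
    have hdiag : ∀ x, M x x = 0 := by
      intro x
      have h := hskew x x
      have h' : (2 : F) * M x x = 0 := by linear_combination h
      exact (mul_eq_zero.mp h').resolve_left h2
    by_cases hM0 : M = 0
    · rcases isEmpty_or_nonempty ι with hι | hι
      · rw [Matrix.det_isEmpty]
        exact ⟨1, (mul_one 1).symm⟩
      · rw [hM0, Matrix.det_zero]
        exact ⟨0, (mul_zero 0).symm⟩
    · obtain ⟨i, j, hij⟩ : ∃ i j, M i j ≠ 0 := by
        by_contra hcon
        push_neg at hcon
        exact hM0 (Matrix.ext hcon)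
      have hne : i ≠ j := by
        intro h
        rw [h] at hij
        exact hij (hdiag j)
      obtain ⟨e, he⟩ : ∃ e : Fin 2 ⊕ {k : ι // k ≠ i ∧ k ≠ j} ≃ ι, e = splitTwo i j hne := ⟨_, rfl⟩
      have he0 : e (Sum.inl 0) = i := by rw [he]; exact splitTwo_zero i j hne
      have he1 : e (Sum.inl 1) = j := by rw [he]; exact splitTwo_one i j hne
      obtain ⟨M', hM'⟩ : ∃ M' : Matrix (Fin 2 ⊕ {k : ι // k ≠ i ∧ k ≠ j})
          (Fin 2 ⊕ {k : ι // k ≠ i ∧ k ≠ j}) F, M' = M.submatrix e e := ⟨_, rfl⟩
      have hM'app : ∀ x y, M' x y = M (e x) (e y) := by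
        intro x y
        rw [hM']
        rfl
      have hdet : M'.det = M.det := by
        rw [hM']
        exact Matrix.det_submatrix_equiv_self e M
      obtain ⟨A, hA⟩ : ∃ A, A = M'.toBlocks₁₁ := ⟨_, rfl⟩
      obtain ⟨B, hB⟩ : ∃ B, B = M'.toBlocks₁₂ := ⟨_, rfl⟩
      obtain ⟨C, hC⟩ : ∃ C, C = M'.toBlocks₂₁ := ⟨_, rfl⟩
      obtain ⟨D, hD⟩ : ∃ D, D = M'.toBlocks₂₂ := ⟨_, rfl⟩
      have hblocks : M' = Matrix.fromBlocks A B C D := by
        rw [hA, hB, hC, hD]
        exact (Matrix.fromBlocks_toBlocks M').symm
      have hAapp : ∀ x y, A x y = M (e (Sum.inl x)) (e (Sum.inl y)) := by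
        intro x y
        rw [hA, ← hM'app]
        rfl
      have hBapp : ∀ x y, B x y = M (e (Sum.inl x)) (e (Sum.inr y)) := by
        intro x y
        rw [hB, ← hM'app]
        rfl
      have hCapp : ∀ x y, C x y = M (e (Sum.inr x)) (e (Sum.inl y)) := by
        intro x y
        rw [hC, ← hM'app]
        rfl
      have hDapp : ∀ x y, D x y = M (e (Sum.inr x)) (e (Sum.inr y)) := by
        intro x y
        rw [hD, ← hM'app]
        rfl
      have hAdet : A.det = M i j * M i j := by
        rw [Matrix.det_fin_two, hAapp, hAapp, hAapp, hAapp, he0, he1, hdiag i, hdiag j,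
          hskew i j]
        ring
      have hAunit : IsUnit A.det := by
        rw [hAdet]
        exact (mul_ne_zero hij hij).isUnit
      letI : Invertible A := Matrix.invertibleOfIsUnitDet A hAunit
      have hAT : A.transpose = -A := by
        ext x y
        rw [Matrix.transpose_apply, Matrix.neg_apply, hAapp, hAapp, hskew]
      have hBT : B.transpose = -C := by
        ext x y
        rw [Matrix.transpose_apply, Matrix.neg_apply, hBapp, hCapp, hskew]
      have hCT : C.transpose = -B := by
        ext x y
        rw [Matrix.transpose_apply, Matrix.neg_apply, hBapp, hCapp, hskew]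
      have hDT : D.transpose = -D := by
        ext x y
        rw [Matrix.transpose_apply, Matrix.neg_apply, hDapp, hDapp, hskew]
      have hXT : (⅟A).transpose = -⅟A := by
        have h1 : (⅟A).transpose * A.transpose = 1 := by
          rw [← Matrix.transpose_mul, mul_invOf_self, Matrix.transpose_one]
        rw [hAT, mul_neg, ← neg_mul] at h1
        have h3 : -(⅟A).transpose = ⅟A := by
          calc -(⅟A).transpose = -(⅟A).transpose * (A * ⅟A) := by rw [mul_invOf_self, mul_one]
            _ = (-(⅟A).transpose * A) * ⅟A := by rw [mul_assoc]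
            _ = ⅟A := by rw [h1, one_mul]
        calc (⅟A).transpose = -(-(⅟A).transpose) := (neg_neg _).symm
          _ = -⅟A := by rw [h3]
      have hST : (D - C * ⅟A * B).transpose = -(D - C * ⅟A * B) := by
        rw [Matrix.transpose_sub, Matrix.transpose_mul, Matrix.transpose_mul, hDT, hBT, hXT, hCT]
        simp only [Matrix.neg_mul, Matrix.mul_neg, neg_neg, Matrix.mul_assoc]
        abel
      have hcard : Fintype.card {k : ι // k ≠ i ∧ k ≠ j} < k := by
        rw [← hk]
        exact Fintype.card_subtype_lt (p := fun k : ι => k ≠ i ∧ k ≠ j) (x := i)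
          (fun h => h.1 rfl)
      have hS := ih _ hcard {k : ι // k ≠ i ∧ k ≠ j} rfl (D - C * ⅟A * B) hST
      rw [← hdet, hblocks, Matrix.det_fromBlocks₁₁, hAdet]
      exact IsSquare.mul ⟨M i j, rfl⟩ hS

theorem skew : StSkew.{u} := by
  intro F _ n h2 M hM
  exact skew_aux h2 n (Fin n) (Fintype.card_fin n) M hM

example : Cfsg.Agent.H99.Ort.StSkew.{u} := skew

end Cfsg.Agent.H14.Ort
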