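import Mathlib
import Cfsg.Agent.H14.OtDefs
import Cfsg.Agent.H42.TiMain
import Cfsg.Agent.H7.OmegaCenter
import Cfsg.Agent.H49.Basic
import Cfsg.Agent.H49.Disc

/-!
# S5972 (helper14): assembly from the pieces of `OtDefs`

Port of helper42's `H42/TiMain` (S5955) to the odd-dimensional orthogonal groups; the arithmetic
parts of `caseC_back` / `caseC_fwd` are adapted from there.
-/

set_option autoImplicit false

namespace Cfsg.Agent.H14.Ot

open Cfsg.Agent.H45 Cfsg.Agent.H42.Spd Cfsg.Agent.H42.Spn Cfsg.Agent.H42.Ti Module Matrix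
  Polynomial

universe u

section Std

variable {F : Type u} [Field F]

/-- The polar form of the standard odd-dimensional quadratic form, as a bilinear map. -/
noncomputable def stdO (d : ℕ) (F : Type u) [Field F] :
    (Unit ⊕ (Fin d ⊕ Fin d) → F) →ₗ[F] (Unit ⊕ (Fin d ⊕ Fin d) → F) →ₗ[F] F :=
  QuadraticMap.polarBilin (Cfsg.Agent.H7.qOdd d F)

theorem stdO_apply (d : ℕ) (u v : Unit ⊕ (Fin d ⊕ Fin d) → F) :
    stdO d F u v = QuadraticMap.polar (Cfsg.quadFormOdd d F) u v := by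
  rw [← Cfsg.Agent.H7.qOdd_coe]
  rfl

theorem stdO_symm (d : ℕ) (u v : Unit ⊕ (Fin d ⊕ Fin d) → F) : stdO d F u v = stdO d F v u := by
  rw [stdO_apply, stdO_apply, QuadraticMap.polar_comm]

theorem stdO_nondeg (d : ℕ) (h2 : (2 : F) ≠ 0) (x : Unit ⊕ (Fin d ⊕ Fin d) → F)
    (hx : ∀ y, stdO d F x y = 0) : x = 0 := by
  have h := (Cfsg.Agent.H7.qOdd_nondeg (F := F) d h2).1
  exact h x hx

theorem stdO_self (d : ℕ) (w : Unit ⊕ (Fin d ⊕ Fin d) → F) :
    stdO d F w w = 2 * Cfsg.quadFormOdd d F w := by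
  rw [← Cfsg.Agent.H7.qOdd_coe]
  show QuadraticMap.polar (⇑(Cfsg.Agent.H7.qOdd d F)) w w = _
  rw [QuadraticMap.polar_self, two_smul, two_mul]

theorem stdO_isom (d : ℕ) (x : Matrix.GeneralLinearGroup (Unit ⊕ (Fin d ⊕ Fin d)) F)
    (hx : x ∈ Cfsg.isometryGroup F (Cfsg.quadFormOdd d F))
    (u v : Unit ⊕ (Fin d ⊕ Fin d) → F) :
    stdO d F (Matrix.toLin' (x : Matrix (Unit ⊕ (Fin d ⊕ Fin d)) (Unit ⊕ (Fin d ⊕ Fin d)) F) u)
      (Matrix.toLin' (x : Matrix (Unit ⊕ (Fin d ⊕ Fin d)) (Unit ⊕ (Fin d ⊕ Fin d)) F) v) =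
      stdO d F u v := by
  have h := Cfsg.Agent.H49.mem_isometryGroup_iff.mp hx
  rw [stdO_apply, stdO_apply]
  unfold QuadraticMap.polar
  rw [← map_add, Matrix.toLin'_apply, Matrix.toLin'_apply, Matrix.toLin'_apply, h, h, h]

/-- Totally singular = totally isotropic for the polar form (characteristic not 2). -/
theorem ti_iff_ts (d : ℕ) (h2 : (2 : F) ≠ 0) (W : Submodule F (Unit ⊕ (Fin d ⊕ Fin d) → F)) :
    TI (stdO d F) W ↔ ∀ w ∈ W, Cfsg.quadFormOdd d F w = 0 := by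
  constructor
  · intro h w hw
    have h1 := h w hw w hw
    rw [stdO_self] at h1
    exact (mul_eq_zero.mp h1).resolve_left h2
  · intro h u hu v hv
    rw [stdO_apply]
    unfold QuadraticMap.polar
    rw [h _ (W.add_mem hu hv), h u hu, h v hv]
    ring

theorem finrank_stdO (d : ℕ) : Module.finrank F (Unit ⊕ (Fin d ⊕ Fin d) → F) = 2 * d + 1 := by
  rw [Module.finrank_fintype_fun_eq_card, Fintype.card_sum, Fintype.card_sum, Fintype.card_fin]
  simp
  ring

theorem mem_iso_of_mem_omega (d : ℕ) (x : Matrix.GeneralLinearGroup (Unit ⊕ (Fin d ⊕ Fin d)) F)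
    (hx : x ∈ Cfsg.Geo.omegaGL (Cfsg.quadFormOdd d F)) :
    x ∈ Cfsg.isometryGroup F (Cfsg.quadFormOdd d F) := by
  unfold Cfsg.Geo.omegaGL at hx
  obtain ⟨g, -, rfl⟩ := Subgroup.mem_map.mp hx
  exact g.2

theorem toLinO_pow_one (d : ℕ) (x : Matrix.GeneralLinearGroup (Unit ⊕ (Fin d ⊕ Fin d)) F) (k : ℕ)
    (hx : x ^ k = 1) :
    Matrix.toLin' (x : Matrix (Unit ⊕ (Fin d ⊕ Fin d)) (Unit ⊕ (Fin d ⊕ Fin d)) F) ^ k = 1 := by
  rw [← Matrix.toLin'_pow, ← Units.val_pow_eq_pow_val, hx]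
  exact Matrix.toLin'_one

/-- `x` fixes a totally singular `m`-space. -/
def FixesTs (d m : ℕ) (x : Matrix.GeneralLinearGroup (Unit ⊕ (Fin d ⊕ Fin d)) F) : Prop :=
  ∃ W : Submodule F (Unit ⊕ (Fin d ⊕ Fin d) → F), Module.finrank F ↥W = m ∧
    (∀ w ∈ W, Cfsg.quadFormOdd d F w = 0) ∧
    W.map (Matrix.toLin' (x : Matrix (Unit ⊕ (Fin d ⊕ Fin d)) (Unit ⊕ (Fin d ⊕ Fin d)) F)) ≤ W

theorem octx_std (d : ℕ) (h2 : (2 : F) ≠ 0) (r : ℕ) (hr : r.Prime) (hr2 : r ≠ 2)
    (hrF : (r : F) ≠ 0) (x : Matrix.GeneralLinearGroup (Unit ⊕ (Fin d ⊕ Fin d)) F)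
    (hx : x ∈ Cfsg.isometryGroup F (Cfsg.quadFormOdd d F)) (hxr : x ^ r = 1) :
    OCtx r (stdO d F)
      (Matrix.toLin' (x : Matrix (Unit ⊕ (Fin d ⊕ Fin d)) (Unit ⊕ (Fin d ⊕ Fin d)) F)) :=
  ⟨hr, hr2, hrF, h2, stdO_symm d, stdO_nondeg d h2, stdO_isom d x hx, toLinO_pow_one d x r hxr⟩

end Std

section Arith

/-- The arithmetic of `caseC_back` (adapted from helper42's `H42/TiMain`). -/
theorem arith_back (i r d m K s c : ℕ) (hipos : 0 < i) (hmd : m ≤ d)
    (hcc : c = if Even i then i else 2 * i) (hs : 2 * d = K + c * s)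
    (h2 : 2 * (m % i) ≤ (2 * d) % c)
    (h3 : Odd i ∨ (r - 1) / i + 2 * (m / i) ≤ (2 * d) / i) :
    ∃ s₁ j, i * s₁ + j = m ∧ 2 * j ≤ K ∧ (Odd i → K + 2 * i * s₁ ≤ 2 * d) ∧
      (Even i → s₁ = 0 ∨ K + i * ((r - 1) / i + 2 * s₁ - 1) ≤ 2 * d) := by
  have hdm := Nat.div_add_mod m i
  rcases Nat.even_or_odd i with heven | hodd
  · -- `i` even, `c = i`
    have hci : c = i := by rw [hcc, if_pos heven]
    rw [hci] at hs h2
    have hodd' : ¬ Odd i := Nat.not_odd_iff_even.mpr heven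
    have h3' : (r - 1) / i + 2 * (m / i) ≤ 2 * d / i := h3.resolve_left hodd'
    obtain ⟨t, ht⟩ : ∃ t, t = (r - 1) / i := ⟨_, rfl⟩
    rw [← ht] at h3' ⊢
    have hKdm := Nat.div_add_mod K i
    have hdiv : 2 * d / i = s + K / i := by
      rw [hs, add_comm K, Nat.mul_add_div hipos]
    have hmod : 2 * d % i = K % i := by
      rw [hs, add_comm K, Nat.mul_add_mod]
    rw [hdiv] at h3'
    rw [hmod] at h2
    have e1 : i * (t + 2 * (m / i)) ≤ i * (s + K / i) := Nat.mul_le_mul_left i h3'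
    have e2 : i * (t + 2 * (m / i)) = i * t + 2 * (i * (m / i)) := by ring
    have e3 : i * (s + K / i) = i * s + i * (K / i) := by ring
    by_cases hcase : t + 2 * (m / i) ≤ s + 1
    · refine ⟨m / i, m % i, hdm, by omega, fun ho => absurd ho hodd', fun _ => ?_⟩
      by_cases h0 : m / i = 0
      · left
        exact h0
      · right
        have e4 : i * (t + 2 * (m / i) - 1) ≤ i * s := Nat.mul_le_mul_left i (by omega)
        omega
    · have hcase' : s + 2 ≤ t + 2 * (m / i) := by omega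
      by_cases hst : s < t
      · refine ⟨0, m, by omega, ?_, fun ho => absurd ho hodd', fun _ => Or.inl rfl⟩
        have e4 : i * s ≤ i * t := Nat.mul_le_mul_left i (by omega)
        omega
      · have hs1 : (s - t + 1) / 2 ≤ m / i := by omega
        have e4 : i * ((s - t + 1) / 2) ≤ i * (m / i) := Nat.mul_le_mul_left i hs1
        have e5 : i * (t + 2 * ((s - t + 1) / 2) - 1) ≤ i * s := Nat.mul_le_mul_left i (by omega)
        have e6 : i * s ≤ i * (t + 2 * ((s - t + 1) / 2)) := Nat.mul_le_mul_left i (by omega)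
        have e7 : i * (t + 2 * ((s - t + 1) / 2)) = i * t + 2 * (i * ((s - t + 1) / 2)) := by
          ring
        refine ⟨(s - t + 1) / 2, m - i * ((s - t + 1) / 2), by omega, by omega,
          fun ho => absurd ho hodd', fun _ => Or.inr (by omega)⟩
  · -- `i` odd, `c = 2 i`
    have heven' : ¬ Even i := Nat.not_even_iff_odd.mpr hodd
    have hci : c = 2 * i := by rw [hcc, if_neg heven']
    rw [hci] at hs h2
    have hmod : 2 * d % (2 * i) = K % (2 * i) := by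
      rw [hs, add_comm K, Nat.mul_add_mod]
    rw [hmod] at h2
    have hKle : K % (2 * i) ≤ K := Nat.mod_le _ _
    by_cases hcase : m / i ≤ s
    · have e1 : 2 * i * (m / i) ≤ 2 * i * s := Nat.mul_le_mul_left (2 * i) hcase
      refine ⟨m / i, m % i, hdm, by omega, fun _ => by omega, fun he => absurd he heven'⟩
    · have e1 : i * s ≤ i * (m / i) := Nat.mul_le_mul_left i (by omega)
      have e2 : 2 * i * s = 2 * (i * s) := by ring
      refine ⟨s, m - i * s, by omega, by omega, fun _ => by omega, fun he => absurd he heven'⟩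

/-- `c` is even. -/
theorem cc_even' (i c : ℕ) (hcc : c = if Even i then i else 2 * i) : ∃ c₂, c = 2 * c₂ := by
  rcases Nat.even_or_odd i with heven | hodd
  · obtain ⟨k, hk⟩ := heven
    exact ⟨k, by rw [hcc, if_pos ⟨k, hk⟩, hk]; ring⟩
  · exact ⟨i, by rw [hcc, if_neg (Nat.not_even_iff_odd.mpr hodd)]⟩

/-- `(2 d + 1) % c = 2 d % c + 1` for `c` even. -/
theorem succ_mod_even (d c c₂ : ℕ) (hc : c = 2 * c₂) (hcpos : 0 < c) :
    (2 * d + 1) % c = 2 * d % c + 1 ∧ (2 * d + 1) / c = 2 * d / c ∧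
      ∃ ρ, 2 * d % c = 2 * ρ := by
  have hdm := Nat.div_add_mod (2 * d) c
  have hlt : 2 * d % c < c := Nat.mod_lt _ hcpos
  have e1 : c * (2 * d / c) = 2 * (c₂ * (2 * d / c)) := by rw [hc]; ring
  have hρ : ∃ ρ, 2 * d % c = 2 * ρ := ⟨d - c₂ * (2 * d / c), by omega⟩
  obtain ⟨ρ, hρ'⟩ := hρ
  have hlt' : 2 * d % c + 1 < c := by omega
  have e2 : 2 * d + 1 = c * (2 * d / c) + (2 * d % c + 1) := by omega
  refine ⟨?_, ?_, ρ, hρ'⟩
  · conv_lhs => rw [e2]
    rw [Nat.mul_add_mod, Nat.mod_eq_of_lt hlt']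
  · conv_lhs => rw [e2]
    rw [Nat.mul_add_div hcpos, Nat.div_eq_of_lt hlt', add_zero]

end Arith

section Cases

variable {F : Type u} [Field F] [Fintype F]

/-- Case `r ≠ p` odd, backward direction. -/
theorem caseC_back (hBuild : StOBuild.{u, u}) (hModc : StOModc.{u, u})
    {p : ℕ} [Fact p.Prime] [CharP F p] (h2F : (2 : F) ≠ 0)
    (d m : ℕ) (hmd : m ≤ d) (r : ℕ) (hr : r.Prime) (hr2 : r ≠ 2) (hrp : r ≠ p)
    (h2 : 2 * (m % ii F r) ≤ (2 * d) % cc F r)
    (h3 : Odd (ii F r) ∨ (r - 1) / ii F r + 2 * (m / ii F r) ≤ (2 * d) / ii F r)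
    (x : Matrix.GeneralLinearGroup (Unit ⊕ (Fin d ⊕ Fin d)) F)
    (hx : x ∈ Cfsg.isometryGroup F (Cfsg.quadFormOdd d F)) (hxr : x ^ r = 1) :
    FixesTs d m x := by
  have hp : p.Prime := Fact.out
  have hpr : ¬ p ∣ r := fun h => hrp ((Nat.prime_dvd_prime_iff_eq hp hr).mp h).symm
  have hrF : (r : F) ≠ 0 := by
    intro h0
    exact hpr ((CharP.cast_eq_zero_iff F p r).mp h0)
  have hctx := octx_std d h2F r hr hr2 hrF x hx hxr
  obtain ⟨T, hT⟩ : ∃ T : Module.End F (Unit ⊕ (Fin d ⊕ Fin d) → F), T = Matrix.toLin'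
      (x : Matrix (Unit ⊕ (Fin d ⊕ Fin d)) (Unit ⊕ (Fin d ⊕ Fin d)) F) := ⟨_, rfl⟩
  rw [← hT] at hctx
  obtain ⟨s, hs⟩ := hModc F _ r (stdO d F) T hctx
  rw [finrank_stdO] at hs
  have hipos : 0 < ii F r := Cfsg.Agent.H99.El.orderOf_card_pos r hr hrF
  obtain ⟨i, hi⟩ : ∃ i, i = ii F r := ⟨_, rfl⟩
  obtain ⟨K, hK⟩ : ∃ K, K = kk T ⊤ := ⟨_, rfl⟩
  obtain ⟨c, hc⟩ : ∃ c, c = cc F r := ⟨_, rfl⟩
  have hcc : c = if Even i then i else 2 * i := by
    rw [hc, hi]
    rfl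
  rw [← hi] at h2 h3 hipos
  rw [← hK, ← hc] at hs
  rw [← hc] at h2
  obtain ⟨c₂, hc₂⟩ := cc_even' i c hcc
  have e0 : c * s = 2 * (c₂ * s) := by rw [hc₂]; ring
  have hK1 : 1 ≤ K := by omega
  have hs' : 2 * d = (K - 1) + c * s := by omega
  obtain ⟨s₁, j, hm', hj, ho, he⟩ := arith_back i r d m (K - 1) s c hipos hmd hcc hs' h2 h3
  obtain ⟨U, hUinv, hUti, hUf⟩ := hBuild F _ r (stdO d F) T hctx s₁ j
    (by rw [← hK]; omega)
    (by
      rw [← hi, ← hK, finrank_stdO]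
      intro hodd
      have := ho hodd
      omega)
    (by
      rw [← hi, ← hK, finrank_stdO]
      intro heven
      rcases he heven with h | h
      · exact Or.inl h
      · exact Or.inr (by omega))
  refine ⟨U, by rw [hUf, ← hi]; exact hm', (ti_iff_ts d h2F U).mp hUti, ?_⟩
  rw [← hT]
  exact map_le_of_invt T U hUinv

omit [Fintype F] in
/-- The irreducible factors of the cyclotomic polynomial do not vanish at `1`. -/
theorem eval_one_ne_zero (r : ℕ) (hr : r.Prime) (hrF : (r : F) ≠ 0) (Φs : Finset F[X])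
    (hΦ : IsCycSet F r Φs) (φ : F[X]) (hφ : φ ∈ Φs) : φ.eval 1 ≠ 0 := by
  obtain ⟨-, -, ψ, hψ⟩ := (hΦ φ).mp hφ
  intro h0
  have h1 : (cyclotomic r F).eval 1 = (r : F) := by
    haveI : Fact r.Prime := ⟨hr⟩
    exact Polynomial.eval_one_cyclotomic_prime
  rw [hψ, eval_mul, h0, zero_mul] at h1
  exact hrF h1.symm

/-- Existence for `i` odd: elements of `Ω` with `x ^ r = 1` and exactly `s` blocks. -/
theorem oEx (hTr : StOTransport.{u}) (hEx : Cfsg.Agent.H42.Spd.StEx.{u})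
    {p : ℕ} [Fact p.Prime] [CharP F p] (h2F : (2 : F) ≠ 0)
    (r : ℕ) (hr : r.Prime) (hr2 : r ≠ 2) (hrp : r ≠ p) (d s : ℕ) (hs : cc F r * s ≤ 2 * d) :
    ∃ x : Matrix.GeneralLinearGroup (Unit ⊕ (Fin d ⊕ Fin d)) F, x ∈ Cfsg.Geo.omegaGL (Cfsg.quadFormOdd d F) ∧ x ^ r = 1 ∧
      Module.finrank F ↥(LinearMap.ker (Matrix.toLin' (x : Matrix (Unit ⊕ (Fin d ⊕ Fin d)) (Unit ⊕ (Fin d ⊕ Fin d)) F) - 1)) + cc F r * s =
        2 * d + 1 := by
  obtain ⟨c₂, hc₂⟩ := cc_even' (ii F r) (cc F r) rfl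
  obtain ⟨e, he⟩ : ∃ e, e = c₂ * s := ⟨_, rfl⟩
  have h2e : 2 * e = cc F r * s := by rw [he, hc₂]; ring
  obtain ⟨y, hyr, hyk⟩ := hEx F p r hr hr2 hrp e s (by omega)
  have hker : LinearMap.ker (Matrix.toLin'
      (y : Matrix (Fin e ⊕ Fin e) (Fin e ⊕ Fin e) F) - 1) = ⊥ := by
    apply Submodule.finrank_eq_zero.mp
    omega
  obtain ⟨x, hxΩ, hxr, hxk, -⟩ := hTr F p r hr hr2 hrp h2F d e (by omega) y hyr hker
  exact ⟨x, hxΩ, hxr, by omega⟩

/-- Existence for `i` even: elements of `Ω` with `A` blocks spread over the types. -/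
theorem oExEven (hTr : StOTransport.{u}) (hExEven : StTiExEven.{u})
    {p : ℕ} [Fact p.Prime] [CharP F p] (h2F : (2 : F) ≠ 0)
    (r : ℕ) (hr : r.Prime) (hr2 : r ≠ 2) (hrp : r ≠ p) (heven : Even (ii F r))
    (Φs : Finset F[X]) (hΦ : IsCycSet F r Φs) (d A : ℕ) (hA : ii F r * A ≤ 2 * d) :
    ∃ x : Matrix.GeneralLinearGroup (Unit ⊕ (Fin d ⊕ Fin d)) F, x ∈ Cfsg.Geo.omegaGL (Cfsg.quadFormOdd d F) ∧ x ^ r = 1 ∧
      Module.finrank F ↥(LinearMap.ker (Matrix.toLin' (x : Matrix (Unit ⊕ (Fin d ⊕ Fin d)) (Unit ⊕ (Fin d ⊕ Fin d)) F) - 1)) + ii F r * A =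
        2 * d + 1 ∧
      ∑ φ ∈ Φs, Module.finrank F ↥(LinearMap.ker (aeval (Matrix.toLin' (x : Matrix (Unit ⊕ (Fin d ⊕ Fin d)) (Unit ⊕ (Fin d ⊕ Fin d)) F)) φ)) /
          (2 * ii F r) ≤
        if A ≤ (r - 1) / ii F r then 0 else (A - (r - 1) / ii F r + 1) / 2 := by
  have hp : p.Prime := Fact.out
  have hpr : ¬ p ∣ r := fun h => hrp ((Nat.prime_dvd_prime_iff_eq hp hr).mp h).symm
  have hrF : (r : F) ≠ 0 := by
    intro h0
    exact hpr ((CharP.cast_eq_zero_iff F p r).mp h0)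
  obtain ⟨i₂, hi₂⟩ : ∃ i₂, ii F r = 2 * i₂ := by
    obtain ⟨k, hk⟩ := heven
    exact ⟨k, by omega⟩
  obtain ⟨e, he⟩ : ∃ e, e = i₂ * A := ⟨_, rfl⟩
  have h2e : 2 * e = ii F r * A := by rw [he, hi₂]; ring
  obtain ⟨y, hyr, hyk, hys⟩ := hExEven F p r hr hr2 hrp heven Φs hΦ e A (by omega)
  have hker : LinearMap.ker (Matrix.toLin'
      (y : Matrix (Fin e ⊕ Fin e) (Fin e ⊕ Fin e) F) - 1) = ⊥ := by
    apply Submodule.finrank_eq_zero.mp
    omega
  obtain ⟨x, hxΩ, hxr, hxk, hxφ⟩ := hTr F p r hr hr2 hrp h2F d e (by omega) y hyr hker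
  refine ⟨x, hxΩ, hxr, by omega, ?_⟩
  have hsum : ∑ φ ∈ Φs, Module.finrank F ↥(LinearMap.ker (aeval (Matrix.toLin' (x : Matrix (Unit ⊕ (Fin d ⊕ Fin d)) (Unit ⊕ (Fin d ⊕ Fin d)) F)) φ)) /
      (2 * ii F r) = ∑ φ ∈ Φs, Module.finrank F ↥(LinearMap.ker (aeval (Matrix.toLin'
        (y : Matrix (Fin e ⊕ Fin e) (Fin e ⊕ Fin e) F)) φ)) / (2 * ii F r) :=
    Finset.sum_congr rfl (fun φ hφ => by rw [hxφ φ (eval_one_ne_zero r hr hrF Φs hΦ φ hφ)])
  rw [hsum]
  exact hys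

/-- Case `r ≠ p` odd, forward direction (conclusion in the symplectic form). -/
theorem caseC_fwd (hCyc : StCycSet.{u}) (hUpper : StOUpper.{u, u}) (hTr : StOTransport.{u})
    (hExEven : StTiExEven.{u}) (hEx : Cfsg.Agent.H42.Spd.StEx.{u})
    {p : ℕ} [Fact p.Prime] [CharP F p] (h2F : (2 : F) ≠ 0)
    (d m : ℕ) (hd : 0 < d) (hmd : m ≤ d)
    (r : ℕ) (hr : r.Prime) (hr2 : r ≠ 2) (hrp : r ≠ p)
    (hcnt0 : ∃ j : ℕ, d - m < j ∧ j ≤ d ∧ cc F r ∣ 2 * j)
    (hL : ∀ x : Matrix.GeneralLinearGroup (Unit ⊕ (Fin d ⊕ Fin d)) F, x ∈ Cfsg.Geo.omegaGL (Cfsg.quadFormOdd d F) → orderOf x = r →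
      FixesTs d m x) :
    ii F r ≤ m ∧ 2 * (m % ii F r) ≤ (2 * d) % cc F r ∧
      (Odd (ii F r) ∨ (r - 1) / ii F r + 2 * (m / ii F r) ≤ (2 * d) / ii F r) := by
  have hp : p.Prime := Fact.out
  have hpr : ¬ p ∣ r := fun h => hrp ((Nat.prime_dvd_prime_iff_eq hp hr).mp h).symm
  have hrF : (r : F) ≠ 0 := by
    intro h0
    exact hpr ((CharP.cast_eq_zero_iff F p r).mp h0)
  have hipos : 0 < ii F r := Cfsg.Agent.H99.El.orderOf_card_pos r hr hrF
  obtain ⟨j₀, hj1, hj2, hjdvd⟩ := hcnt0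
  obtain ⟨i, hi⟩ : ∃ i, i = ii F r := ⟨_, rfl⟩
  obtain ⟨c, hc⟩ : ∃ c, c = cc F r := ⟨_, rfl⟩
  have hcc : c = if Even i then i else 2 * i := by
    rw [hc, hi]
    rfl
  rw [← hi] at hipos
  rw [← hc] at hjdvd
  rw [← hi, ← hc]
  have hcpos : 0 < c := by
    rw [hcc]
    split_ifs <;> omega
  have hc2d : c ≤ 2 * d := by
    have := Nat.le_of_dvd (by omega) hjdvd
    omega
  have hdm := Nat.div_add_mod (2 * d) c
  have hmodlt : 2 * d % c < c := Nat.mod_lt _ hcpos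
  have hdivpos : 0 < 2 * d / c := Nat.div_pos hc2d hcpos
  obtain ⟨c₂, hc₂⟩ := cc_even' i c hcc
  obtain ⟨-, -, ρ, hρ⟩ := succ_mod_even d c c₂ hc₂ hcpos
  -- the general consequence of the hypothesis for an element of order `r`
  have key : ∀ x : Matrix.GeneralLinearGroup (Unit ⊕ (Fin d ⊕ Fin d)) F, x ∈ Cfsg.Geo.omegaGL (Cfsg.quadFormOdd d F) → x ^ r = 1 →
      Module.finrank F ↥(LinearMap.ker (Matrix.toLin' (x : Matrix (Unit ⊕ (Fin d ⊕ Fin d)) (Unit ⊕ (Fin d ⊕ Fin d)) F) - 1)) < 2 * d + 1 →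
      ∃ W : Submodule F (Unit ⊕ (Fin d ⊕ Fin d) → F), Module.finrank F W = m ∧
        W ∈ Module.End.invtSubmodule (Matrix.toLin' (x : Matrix (Unit ⊕ (Fin d ⊕ Fin d)) (Unit ⊕ (Fin d ⊕ Fin d)) F)) ∧
        TI (stdO d F) W ∧ OCtx r (stdO d F) (Matrix.toLin' (x : Matrix (Unit ⊕ (Fin d ⊕ Fin d)) (Unit ⊕ (Fin d ⊕ Fin d)) F)) := by
    intro x hxΩ hxr hk
    have hx1 : x ≠ 1 := by
      intro h1
      rw [h1] at hk
      have h0 : Matrix.toLin' ((1 : Matrix.GeneralLinearGroup (Unit ⊕ (Fin d ⊕ Fin d)) F) : Matrix (Unit ⊕ (Fin d ⊕ Fin d)) (Unit ⊕ (Fin d ⊕ Fin d)) F) - 1 = 0 := by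
        rw [Units.val_one, Matrix.toLin'_one]
        exact sub_self _
      rw [h0, LinearMap.ker_zero, finrank_top, finrank_stdO] at hk
      omega
    haveI : Fact r.Prime := ⟨hr⟩
    have hord : orderOf x = r := orderOf_eq_prime hxr hx1
    obtain ⟨W, hWf, hWts, hWinv⟩ := hL x hxΩ hord
    exact ⟨W, hWf, invt_of_map_le _ W hWinv, (ti_iff_ts d h2F W).mpr hWts,
      octx_std d h2F r hr hr2 hrF x (mem_iso_of_mem_omega d x hxΩ) hxr⟩
  -- the contradiction from the count when `m < i` and `2 m ≤ 2 d % c`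
  have hcnt : ¬ (2 * m ≤ 2 * d % c) := by
    intro hcon
    obtain ⟨w₀, hw₀⟩ := hjdvd
    rcases Nat.lt_or_ge (2 * d / c) w₀ with hlt | hge
    · have h1 : c * (2 * d / c + 1) ≤ c * w₀ := Nat.mul_le_mul_left c hlt
      rw [mul_add, mul_one] at h1
      omega
    · have h1 : c * w₀ ≤ c * (2 * d / c) := Nat.mul_le_mul_left c hge
      omega
  rcases Nat.even_or_odd i with heven | hodd
  · -- `i` even, `c = i`
    have hci : c = i := by rw [hcc, if_pos heven]
    rw [hci] at hdm hmodlt hdivpos hcnt hc2d hρ ⊢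
    obtain ⟨i₂, hi₂⟩ : ∃ i₂, i = 2 * i₂ := by
      obtain ⟨k, hk⟩ := heven
      exact ⟨k, by omega⟩
    obtain ⟨⟨Φs, hΦ⟩, hcyc2⟩ := hCyc F r hr hrF
    obtain ⟨t, ht⟩ : ∃ t, t = (r - 1) / i := ⟨_, rfl⟩
    have htpos : 0 < t := by
      have h1 := (hcyc2 Φs hΦ).1
      rw [← hi] at h1
      have h2 := hr.two_le
      rw [ht, ← h1, Nat.mul_div_cancel _ hipos]
      rcases Nat.eq_zero_or_pos Φs.card with h0 | h0
      · rw [h0, zero_mul] at h1
        omega
      · exact h0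
    rw [← ht]
    obtain ⟨n', hn'⟩ : ∃ n', n' = 2 * d / i := ⟨_, rfl⟩
    rw [← hn'] at hdm hdivpos ⊢
    -- the element with `n'` blocks
    obtain ⟨x, hxΩ, hxr, hxk, hxs⟩ := oExEven hTr hExEven h2F r hr hr2 hrp
      (by rw [← hi]; exact heven) Φs hΦ d n' (by rw [← hi]; omega)
    rw [← hi, ← ht] at hxs
    rw [← hi] at hxk
    obtain ⟨W, hWf, hWinv, hWti, hctx⟩ := key x hxΩ hxr (by
      have : 0 < i * n' := Nat.mul_pos hipos hdivpos
      omega)
    obtain ⟨s, w, hsw, hw, hsle0⟩ := hUpper F _ r (stdO d F) _ hctx W hWinv hWti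
    have hsle := hsle0 (by rw [← hi]; exact heven) Φs hΦ
    rw [kk_top] at hw
    rw [hWf, ← hi] at hsw
    rw [← hi] at hsle
    have hw' : 2 * w ≤ 2 * d % i := by omega
    have hwlt : w < i := by omega
    obtain ⟨hs', hw''⟩ := div_mod_unique i m s w hsw hwlt
    have hmod : 2 * (m % i) ≤ 2 * d % i := by omega
    have him : i ≤ m := by
      by_contra hlt
      have h1 : m % i = m := Nat.mod_eq_of_lt (by omega)
      exact hcnt (by omega)
    have hmi : 0 < m / i := Nat.div_pos him hipos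
    refine ⟨him, hmod, Or.inr ?_⟩
    have hsle' := hsle.trans hxs
    by_cases hnt : n' ≤ t
    · rw [if_pos hnt] at hsle'
      omega
    · rw [if_neg hnt] at hsle'
      by_contra hcon
      -- then `t + 2 (m / i) = n' + 1`; use the element with `n' - 1` blocks
      have heq : t + 2 * (m / i) = n' + 1 := by omega
      have e1 : i * (n' - 1) + i = i * n' := by
        rw [← Nat.mul_succ]
        congr 1
        omega
      obtain ⟨x', hxΩ', hxr', hxk', hxs'⟩ := oExEven hTr hExEven h2F r hr hr2 hrp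
        (by rw [← hi]; exact heven) Φs hΦ d (n' - 1) (by rw [← hi]; omega)
      rw [← hi, ← ht] at hxs'
      rw [← hi] at hxk'
      have e2 : 0 < i * (n' - 1) := Nat.mul_pos hipos (by omega)
      obtain ⟨W', hWf', hWinv', hWti', hctx'⟩ := key x' hxΩ' hxr' (by omega)
      obtain ⟨s', w', hsw', hw2, hsle20⟩ := hUpper F _ r (stdO d F) _ hctx' W' hWinv' hWti'
      have hsle2 := hsle20 (by rw [← hi]; exact heven) Φs hΦ
      rw [kk_top] at hw2
      rw [hWf', ← hi] at hsw'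
      rw [← hi] at hsle2
      have hsle3 := hsle2.trans hxs'
      have hs'le : s' + 1 ≤ m / i := by
        by_cases hnt' : n' - 1 ≤ t
        · rw [if_pos hnt'] at hsle3
          omega
        · rw [if_neg hnt'] at hsle3
          omega
      have e3 : i * (s' + 1) ≤ i * (m / i) := Nat.mul_le_mul_left i hs'le
      rw [mul_add, mul_one] at e3
      have e4 := Nat.div_add_mod m i
      omega
  · -- `i` odd, `c = 2 i`
    have heven' : ¬ Even i := Nat.not_even_iff_odd.mpr hodd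
    have hci : c = 2 * i := by rw [hcc, if_neg heven']
    obtain ⟨x, hxΩ, hxr, hxk⟩ := oEx hTr hEx h2F r hr hr2 hrp d (2 * d / c)
      (by rw [← hc]; exact Nat.mul_div_le _ _)
    rw [← hc] at hxk
    have e0 : 0 < c * (2 * d / c) := Nat.mul_pos hcpos hdivpos
    obtain ⟨W, hWf, hWinv, hWti, hctx⟩ := key x hxΩ hxr (by omega)
    obtain ⟨s, w, hsw, hw, -⟩ := hUpper F _ r (stdO d F) _ hctx W hWinv hWti
    rw [kk_top] at hw
    rw [hWf, ← hi] at hsw
    have hw' : 2 * w ≤ 2 * d % c := by omega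
    have hwlt : w < i := by omega
    obtain ⟨hs', hw''⟩ := div_mod_unique i m s w hsw hwlt
    have hmod : 2 * (m % i) ≤ 2 * d % c := by omega
    refine ⟨?_, hmod, Or.inl hodd⟩
    by_contra hlt
    have h1 : m % i = m := Nat.mod_eq_of_lt (by omega)
    exact hcnt (by omega)

/-- The numbers of totally singular `m`-spaces of `O_{2d+1}(q)` and of totally isotropic
`m`-spaces of `Sp_{2d}(q)` coincide. -/
theorem oCard (hTuples : StOTuples.{u}) (hFib : StOFib.{u}) (hSpTuples : StTiTuples.{u})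
    (hSpFib : StTiFib.{u}) (h2F : (2 : F) ≠ 0) (d m : ℕ) (hmd : m ≤ d) :
    Nat.card {W : Submodule F (Unit ⊕ (Fin d ⊕ Fin d) → F) // Module.finrank F ↥W = m ∧
        (∀ w ∈ W, Cfsg.quadFormOdd d F w = 0)} =
      Nat.card {W : Submodule F (Fin d ⊕ Fin d → F) // Module.finrank F ↥W = m ∧
        (∀ u ∈ W, ∀ v ∈ W, Cfsg.sympForm d F u v = 0)} := by
  have h1 := hTuples F d m h2F hmd
  have h2 := hFib F d m h2F
  have h3 := hSpTuples F d m hmd
  have h4 := hSpFib F d m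
  have hG : 0 < ∏ j ∈ Finset.range m, (Fintype.card F ^ m - Fintype.card F ^ j) := by
    apply Finset.prod_pos
    intro j hj
    have hj' := Finset.mem_range.mp hj
    have hq : 1 < Fintype.card F := Fintype.one_lt_card
    have := Nat.pow_lt_pow_right hq hj'
    omega
  rw [h2] at h1
  rw [h4] at h3
  exact Nat.eq_of_mul_eq_mul_right hG (h1.trans h3.symm)

/-- The main statement, modulo the pieces. -/
theorem ot_main (hTuples : StOTuples.{u}) (hFib : StOFib.{u}) (hInvLow : StOInvLow.{u})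
    (hInvOmega : StOInvOmega.{u}) (hInvEx : StOInvEx.{u}) (hUpper : StOUpper.{u, u})
    (hBuild : StOBuild.{u, u}) (hModc : StOModc.{u, u}) (hTr : StOTransport.{u})
    (hSpTuples : StTiTuples.{u}) (hSpFib : StTiFib.{u}) (hCntP : StTiCntP.{u})
    (hCnt : StTiCnt.{u}) (hCyc : StCycSet.{u}) (hExEven : StTiExEven.{u})
    (hEx : Cfsg.Agent.H42.Spd.StEx.{u})
    {p : ℕ} [Fact p.Prime] [CharP F p] (hqodd : Odd (Fintype.card F))
    (d m : ℕ) (hd : 3 ≤ d) (hmd : m ≤ d) (r : ℕ) [Fact r.Prime]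
    (hrΩ : r ∣ Nat.card {W : Submodule F (Unit ⊕ (Fin d ⊕ Fin d) → F) //
      Module.finrank F ↥W = m ∧ (∀ w ∈ W, Cfsg.quadFormOdd d F w = 0)}) :
    (∀ x : Matrix.GeneralLinearGroup (Unit ⊕ (Fin d ⊕ Fin d)) F, x ∈ Cfsg.Geo.omegaGL (Cfsg.quadFormOdd d F) → orderOf x = r →
      ∃ W : Submodule F (Unit ⊕ (Fin d ⊕ Fin d) → F), Module.finrank F ↥W = m ∧
        (∀ w ∈ W, Cfsg.quadFormOdd d F w = 0) ∧
        W.map (Matrix.toLin' (x : Matrix (Unit ⊕ (Fin d ⊕ Fin d)) (Unit ⊕ (Fin d ⊕ Fin d)) F)) ≤ W) ↔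
    ((r = 2 ∧ (m < d ∨ Fintype.card F % 4 = 1)) ∨
     (r ≠ p ∧ 2 < r ∧ ii F r ≤ m ∧ 2 * (m % ii F r) < (2 * d + 1) % cc F r ∧
       (Odd (ii F r) ∨ (r - 1) / ii F r + 2 * (m / ii F r) ≤ (2 * d + 1) / ii F r))) := by
  have hp : p.Prime := Fact.out
  have hr : r.Prime := Fact.out
  have h2F : (2 : F) ≠ 0 := Cfsg.Agent.H49.two_ne_zero_of_odd_card hqodd
  have hcard := oCard hTuples hFib hSpTuples hSpFib h2F d m hmd
  rw [hcard] at hrΩ
  by_cases hrp : r = p
  · -- `r = p`: impossible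
    subst hrp
    exact absurd hrΩ (hCntP F r d m hmd)
  · by_cases hr2 : r = 2
    · -- `r = 2`
      subst hr2
      constructor
      · intro hL
        left
        refine ⟨rfl, ?_⟩
        by_contra hcon
        push Not at hcon
        obtain ⟨hmd', hq1⟩ := hcon
        have hq3 : Fintype.card F % 4 = 3 := by
          obtain ⟨k, hk⟩ := hqodd
          omega
        have hns : ¬ IsSquare (-1 : F) := fun h => (FiniteField.isSquare_neg_one_iff.mp h) hq3
        obtain ⟨x, hxΩ, hxo, hxW⟩ := hInvEx F d h2F hns (by omega)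
        obtain ⟨W, hWf, hWts, hWinv⟩ := hL x hxΩ hxo
        have := hxW W hWts hWinv
        omega
      · rintro (⟨-, h⟩ | ⟨-, h, -⟩)
        · intro x hxΩ hxo
          have hx2 : x ^ 2 = 1 := by
            rw [← hxo]
            exact pow_orderOf_eq_one x
          rcases h with h | h
          · exact hInvLow F d m h2F h x (mem_iso_of_mem_omega d x hxΩ) hx2
          · have hsq : IsSquare (-1 : F) := FiniteField.isSquare_neg_one_iff.mpr (by omega)
            exact hInvOmega F d m h2F hsq hmd x hxΩ hx2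
        · omega
    · -- `r ≠ p` odd
      have hpr : ¬ p ∣ r := fun h => hrp ((Nat.prime_dvd_prime_iff_eq hp hr).mp h).symm
      have hrF : (r : F) ≠ 0 := by
        intro h0
        exact hpr ((CharP.cast_eq_zero_iff F p r).mp h0)
      have hipos : 0 < ii F r := Cfsg.Agent.H99.El.orderOf_card_pos r hr hrF
      obtain ⟨i, hi⟩ : ∃ i, i = ii F r := ⟨_, rfl⟩
      obtain ⟨c, hc⟩ : ∃ c, c = cc F r := ⟨_, rfl⟩
      have hcc : c = if Even i then i else 2 * i := by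
        rw [hc, hi]
        rfl
      rw [← hi] at hipos
      have hcpos : 0 < c := by
        rw [hcc]
        split_ifs <;> omega
      obtain ⟨c₂, hc₂⟩ := cc_even' i c hcc
      obtain ⟨hsm, -, -⟩ := succ_mod_even d c c₂ hc₂ hcpos
      have hdiv : Even i → (2 * d + 1) / i = 2 * d / i := by
        intro heven
        obtain ⟨k, hk⟩ := heven
        exact (succ_mod_even d i k (by omega) hipos).2.1
      constructor
      · intro hL
        right
        have h := caseC_fwd hCyc hUpper hTr hExEven hEx h2F d m (by omega) hmd r hr hr2 hrp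
          (hCnt F d m r hr hrF hmd hrΩ) hL
        rw [← hi, ← hc] at h ⊢
        have h2 := hr.two_le
        refine ⟨hrp, by omega, h.1, by omega, ?_⟩
        rcases h.2.2 with h3 | h3
        · exact Or.inl h3
        · exact Or.inr (h3.trans (Nat.div_le_div_right (by omega)))
      · rintro (⟨h, -⟩ | ⟨-, -, -, h2, h3⟩)
        · exact absurd h hr2
        · intro x hxΩ hxo
          have hxr : x ^ r = 1 := by
            rw [← hxo]
            exact pow_orderOf_eq_one x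
          rw [← hi, ← hc] at h2
          rw [← hi] at h3
          apply caseC_back hBuild hModc h2F d m hmd r hr hr2 hrp (by rw [← hi, ← hc]; omega)
            ?_ x (mem_iso_of_mem_omega d x hxΩ) hxr
          rw [← hi]
          rcases h3 with h3 | h3
          · exact Or.inl h3
          · rcases Nat.even_or_odd i with heven | hodd
            · exact Or.inr (by rw [← hdiv heven]; exact h3)
            · exact Or.inl hodd

end Cases

end Cfsg.Agent.H14.Ot
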