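import Mathlib
import Cfsg.Agent.H14.OtMain
import Cfsg.Agent.H45.OData

/-!
# S5972 (helper14): piece OT-TRANSPORT

From a fixed-point-free symplectic matrix of odd prime order to an element of `Ω_{2d+1}(q)`
(helper45's form trick; the transport to the standard form is adapted from `H45/OData.lean`).
-/

set_option autoImplicit false

namespace Cfsg.Agent.H14.Ot

open Cfsg.Agent.H45 Cfsg.Agent.H42.Spd Cfsg.Agent.H42.Spn Cfsg.Agent.H42.Ti Module Matrix
  Polynomial

universe u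

section Transport

variable {F : Type u} [Field F]

/-- The product of two submodules has the sum of the dimensions. -/
theorem finrank_submodule_prod {M N : Type*} [AddCommGroup M] [Module F M] [AddCommGroup N]
    [Module F N] [FiniteDimensional F M] [FiniteDimensional F N]
    (p : Submodule F M) (q : Submodule F N) :
    Module.finrank F ↥(p.prod q) = Module.finrank F p + Module.finrank F q := by
  let e : ↥(p.prod q) ≃ₗ[F] p × q :=
    { toFun := fun x => (⟨x.1.1, x.2.1⟩, ⟨x.1.2, x.2.2⟩)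
      invFun := fun y => ⟨(y.1.1, y.2.1), ⟨y.1.2, y.2.2⟩⟩
      map_add' := fun _ _ => rfl
      map_smul' := fun _ _ => rfl
      left_inv := fun _ => rfl
      right_inv := fun _ => rfl }
  rw [e.finrank_eq, Module.finrank_prod]

/-- Conjugation preserves kernel dimensions. -/
theorem finrank_ker_conj {M N : Type*} [AddCommGroup M] [Module F M] [AddCommGroup N]
    [Module F N] (Φ : M ≃ₗ[F] N) (f : Module.End F M) :
    Module.finrank F ↥(LinearMap.ker (LinearEquiv.conjAlgEquiv F Φ f)) =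
      Module.finrank F ↥(LinearMap.ker f) := by
  have h : LinearMap.ker (LinearEquiv.conjAlgEquiv F Φ f) =
      (LinearMap.ker f).map (Φ : M →ₗ[F] N) := by
    ext x
    rw [LinearMap.mem_ker, Submodule.mem_map_equiv, LinearMap.mem_ker,
      LinearEquiv.conjAlgEquiv_apply]
    show Φ (f (Φ.symm x)) = 0 ↔ f (Φ.symm x) = 0
    exact Φ.map_eq_zero_iff
  rw [h, LinearEquiv.finrank_map_eq]

/-- Polynomials of `g ⊕ 1`. -/
theorem aeval_prodMap_one {M N : Type*} [AddCommGroup M] [Module F M] [AddCommGroup N]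
    [Module F N] (g : Module.End F M) (φ : F[X]) :
    aeval (g.prodMap (1 : Module.End F N)) φ =
      (aeval g φ).prodMap (φ.eval 1 • (1 : Module.End F N)) := by
  have h1 : g.prodMap (1 : Module.End F N) = LinearMap.prodMapAlgHom F M N (g, 1) := rfl
  have h2 : aeval (1 : Module.End F N) φ = φ.eval 1 • (1 : Module.End F N) := by
    have h3 := Polynomial.aeval_algebraMap_apply_eq_algebraMap_eval (A := Module.End F N)
      (1 : F) φ
    rw [map_one] at h3
    rw [h3, Algebra.algebraMap_eq_smul_one]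
  rw [h1, Polynomial.aeval_algHom_apply, Polynomial.aeval_prod_apply]
  show (aeval g φ).prodMap (aeval (1 : Module.End F N) φ) = _
  rw [h2]

end Transport

/-- OT-TRANSPORT. -/
theorem oTransport : StOTransport.{u} := by
  intro F _ _ p _ _ r hr hr2 hrp h2 d e hed y hyr hyker
  classical
  have hr0 : 0 < r := hr.pos
  -- the symplectic isometry
  obtain ⟨g, hg⟩ : ∃ g : Module.End F (Fin e ⊕ Fin e → F), g = Matrix.toLin'
      (y : Matrix (Fin e ⊕ Fin e) (Fin e ⊕ Fin e) F) := ⟨_, rfl⟩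
  rw [← hg] at hyker
  have hgr : g ^ r = 1 := by
    rw [hg]
    exact toLin_pow_one e y r hyr
  have hgiso : ∀ u v, stdB e F (g u) (g v) = stdB e F u v := by
    rw [hg]
    exact stdB_isom e _ y.2
  obtain ⟨gi, hgi⟩ : ∃ gi : Module.End F (Fin e ⊕ Fin e → F), gi = g ^ (r - 1) := ⟨_, rfl⟩
  have hggi : g * gi = 1 := by rw [hgi, ← pow_succ', Nat.sub_add_cancel hr0, hgr]
  have hgig : gi * g = 1 := by rw [hgi, ← pow_succ, Nat.sub_add_cancel hr0, hgr]
  have hggi' : ∀ x, g (gi x) = x := fun x => by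
    rw [← Module.End.mul_apply, hggi, Module.End.one_apply]
  have hgig' : ∀ x, gi (g x) = x := fun x => by
    rw [← Module.End.mul_apply, hgig, Module.End.one_apply]
  obtain ⟨h, hh⟩ : ∃ h : Module.End F (Fin e ⊕ Fin e → F), h = g - gi := ⟨_, rfl⟩
  have hhx : ∀ x, h x = g x - gi x := fun x => by rw [hh, LinearMap.sub_apply]
  have hskew : ∀ x y, stdB e F y x = -stdB e F x y := fun x y => stdB_skew e x y
  have hgi_adj : ∀ x y, stdB e F x (g y) = stdB e F (gi x) y := by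
    intro x y
    have h3 := hgiso (gi x) y
    rw [hggi'] at h3
    exact h3
  have hg_adj : ∀ x y, stdB e F x (gi y) = stdB e F (g x) y := by
    intro x y
    have h3 := hgiso x (gi y)
    rw [hggi'] at h3
    exact h3.symm
  have hsymm : ∀ x y, stdB e F y (h x) = stdB e F x (h y) := by
    intro x y
    rw [hhx, hhx, map_sub, map_sub, hgi_adj y x, hg_adj y x, hskew x (gi y), hskew x (g y)]
    ring
  have hcomm : ∀ x, h (g x) = g (h x) := fun x => by
    rw [hhx, hhx, map_sub, hgig', hggi']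
  have hinj : ∀ x, h x = 0 → x = 0 := by
    intro x hx
    rw [hhx, sub_eq_zero] at hx
    have h3 : g (g x) = x := by rw [hx, hggi']
    have h4 : ∀ k : ℕ, (g ^ (2 * k)) x = x := by
      intro k
      induction k with
      | zero => simp
      | succ k ih =>
        rw [mul_add, mul_one, pow_add, Module.End.mul_apply, pow_two, Module.End.mul_apply, h3, ih]
    obtain ⟨k, hk⟩ : ∃ k, r = 2 * k + 1 := hr.eq_two_or_odd'.resolve_left hr2
    have h5 : g x = x := by
      have h6 : (g ^ r) x = g x := by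
        rw [hk, pow_succ', Module.End.mul_apply, h4]
      rw [hgr, Module.End.one_apply] at h6
      exact h6.symm
    have h7 : x ∈ LinearMap.ker (g - 1) := by
      rw [LinearMap.mem_ker, LinearMap.sub_apply, h5, Module.End.one_apply, sub_self]
    rw [hyker] at h7
    exact (Submodule.mem_bot F).mp h7
  have hsurj : Function.Surjective h :=
    LinearMap.injective_iff_surjective.mp ((injective_iff_map_eq_zero h).mpr hinj)
  let B' : LinearMap.BilinMap F (Fin e ⊕ Fin e → F) F := LinearMap.compl₂ (stdB e F) h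
  have hB' : ∀ x y, B' x y = stdB e F x (h y) := fun x y => rfl
  obtain ⟨Q₁, hQ₁⟩ : ∃ Q₁ : QuadraticForm F (Fin e ⊕ Fin e → F), Q₁ = B'.toQuadraticMap :=
    ⟨_, rfl⟩
  have hnd₁ : ∀ x, (∀ y, QuadraticMap.polar ⇑Q₁ x y = 0) → x = 0 := by
    intro x hx
    apply stdB_nondeg e
    intro y'
    obtain ⟨y₀, rfl⟩ := hsurj y'
    have h3 := hx y₀
    rw [hQ₁, LinearMap.BilinMap.polar_toQuadraticMap, hB', hB', hsymm x y₀, ← two_mul] at h3
    exact (mul_eq_zero.mp h3).resolve_left h2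
  have hiso₁ : ∀ x, Q₁ (g x) = Q₁ x := by
    intro x
    rw [hQ₁, LinearMap.BilinMap.toQuadraticMap_apply, LinearMap.BilinMap.toQuadraticMap_apply,
      hB', hB', hcomm, hgiso]
  -- the fixed part
  have hnd₂ : ∀ x : Unit ⊕ (Fin (d - e) ⊕ Fin (d - e)) → F,
      (∀ y, QuadraticMap.polar ⇑(Cfsg.Agent.H7.qOdd (d - e) F) x y = 0) → x = 0 :=
    fun x hx => (Cfsg.Agent.H7.qOdd_nondeg (F := F) (d - e) h2).1 x hx
  -- the product
  obtain ⟨Q, hQ⟩ : ∃ Q : QuadraticForm F
      ((Fin e ⊕ Fin e → F) × (Unit ⊕ (Fin (d - e) ⊕ Fin (d - e)) → F)),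
      Q = Q₁.prod (Cfsg.Agent.H7.qOdd (d - e) F) := ⟨_, rfl⟩
  obtain ⟨g', hg'⟩ : ∃ g' : Module.End F
      ((Fin e ⊕ Fin e → F) × (Unit ⊕ (Fin (d - e) ⊕ Fin (d - e)) → F)),
      g' = g.prodMap (1 : Module.End F (Unit ⊕ (Fin (d - e) ⊕ Fin (d - e)) → F)) := ⟨_, rfl⟩
  have hnd : ∀ x, (∀ y, QuadraticMap.polar ⇑Q x y = 0) → x = 0 := by
    intro x hx
    have h1 : x.1 = 0 := by
      apply hnd₁
      intro y
      have h := hx (y, 0)
      rw [hQ, QuadraticMap.polar_prod] at h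
      simpa using h
    have h2' : x.2 = 0 := by
      apply hnd₂
      intro y
      have h := hx (0, y)
      rw [hQ, QuadraticMap.polar_prod] at h
      simpa using h
    exact Prod.ext h1 h2'
  have hiso : ∀ x, Q (g' x) = Q x := by
    intro x
    rw [hQ, hg', QuadraticMap.prod_apply, QuadraticMap.prod_apply, LinearMap.prodMap_apply, hiso₁]
    rfl
  have hg'r : g' ^ r = 1 := by
    rw [hg', prodMap_pow', hgr, one_pow, LinearMap.prodMap_one]
  have hfr : Module.finrank F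
      ((Fin e ⊕ Fin e → F) × (Unit ⊕ (Fin (d - e) ⊕ Fin (d - e)) → F)) =
      Module.finrank F (Unit ⊕ (Fin d ⊕ Fin d) → F) := by
    rw [Module.finrank_prod, finrank_std, finrank_stdO, finrank_stdO]
    omega
  -- transport to the standard space
  obtain ⟨E⟩ : Nonempty (((Fin e ⊕ Fin e → F) × (Unit ⊕ (Fin (d - e) ⊕ Fin (d - e)) → F))
      ≃ₗ[F] (Unit ⊕ (Fin d ⊕ Fin d) → F)) := ⟨LinearEquiv.ofFinrankEq _ _ hfr⟩
  obtain ⟨Q', hQ'⟩ : ∃ Q' : QuadraticForm F (Unit ⊕ (Fin d ⊕ Fin d) → F),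
      ∀ v, Q' v = Q (E.symm v) := ⟨Q.comp E.symm.toLinearMap, fun v => rfl⟩
  have hpol : ∀ x y, QuadraticMap.polar ⇑Q' x y =
      QuadraticMap.polar ⇑Q (E.symm x) (E.symm y) := by
    intro x y
    simp only [QuadraticMap.polar, hQ', map_add]
  have hnd' : ∀ x, (∀ y, QuadraticMap.polar ⇑Q' x y = 0) → x = 0 := by
    intro x hx
    have h1 : E.symm x = 0 := by
      apply hnd
      intro y
      have h3 := hx (E y)
      rw [hpol, E.symm_apply_apply] at h3
      exact h3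
    exact E.symm.map_eq_zero_iff.mp h1
  obtain ⟨a, φ₀, ha, hφ₀⟩ := std_odd d Q' hnd'
  obtain ⟨Φ, hΦdef⟩ : ∃ Φ : ((Fin e ⊕ Fin e → F) × (Unit ⊕ (Fin (d - e) ⊕ Fin (d - e)) → F))
      ≃ₗ[F] (Unit ⊕ (Fin d ⊕ Fin d) → F), ∀ w, Φ w = φ₀ (E w) := ⟨E.trans φ₀, fun w => rfl⟩
  have hΦ : ∀ w, Cfsg.Agent.H7.qOdd d F (Φ w) = a * Q w := by
    intro w
    rw [hΦdef, hφ₀, hQ', E.symm_apply_apply]
  obtain ⟨γ, hγ⟩ : ∃ γ : Module.End F (Unit ⊕ (Fin d ⊕ Fin d) → F),
      γ = LinearEquiv.conjAlgEquiv F Φ g' := ⟨_, rfl⟩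
  have hγapp : ∀ v, γ v = Φ (g' (Φ.symm v)) := by
    intro v
    rw [hγ]
    rfl
  have hγr : γ ^ r = 1 := by rw [hγ, ← map_pow, hg'r, map_one]
  have hγiso : ∀ v, Cfsg.Agent.H7.qOdd d F (γ v) = Cfsg.Agent.H7.qOdd d F v := by
    intro v
    rw [hγapp, hΦ, hiso, ← hΦ, Φ.apply_symm_apply]
  obtain ⟨M, hM⟩ : ∃ M : Matrix (Unit ⊕ (Fin d ⊕ Fin d)) (Unit ⊕ (Fin d ⊕ Fin d)) F,
      M = LinearMap.toMatrix' γ := ⟨_, rfl⟩
  have hMlin : Matrix.toLin' M = γ := by rw [hM, Matrix.toLin'_toMatrix']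
  have hMr : M ^ r = 1 := by
    apply Matrix.toLin'.injective
    rw [Matrix.toLin'_pow, hMlin, hγr, Matrix.toLin'_one]
    rfl
  have hMv : ∀ v, M *ᵥ v = γ v := fun v => by rw [← hMlin, Matrix.toLin'_apply]
  obtain ⟨x, hxval⟩ : ∃ x : Matrix.GeneralLinearGroup (Unit ⊕ (Fin d ⊕ Fin d)) F,
      (x : Matrix (Unit ⊕ (Fin d ⊕ Fin d)) (Unit ⊕ (Fin d ⊕ Fin d)) F) = M :=
    ⟨⟨M, M ^ (r - 1), by rw [← pow_succ', Nat.sub_add_cancel hr0]; exact hMr,
      by rw [← pow_succ, Nat.sub_add_cancel hr0]; exact hMr⟩, rfl⟩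
  have hxr : x ^ r = 1 := by
    apply Units.ext
    rw [Units.val_pow_eq_pow_val, hxval, hMr]
    rfl
  have hxiso : x ∈ Cfsg.isometryGroup F ⇑(Cfsg.Agent.H7.qOdd d F) := by
    rw [Cfsg.Agent.H49.mem_isometryGroup_iff]
    intro u
    rw [hxval, hMv, hγiso]
  have hxΩ : x ∈ Cfsg.Geo.omegaGL (Cfsg.quadFormOdd d F) := by
    rw [← Cfsg.Agent.H7.qOdd_coe]
    unfold Cfsg.Geo.omegaGL
    refine Subgroup.mem_map.mpr ⟨⟨x, hxiso⟩, ?_, rfl⟩
    apply mem_commutator_of_odd (Cfsg.Agent.H7.qOdd d F) h2 (Cfsg.Agent.H7.qOdd_nondeg d h2)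
    have hG : (⟨x, hxiso⟩ : ↥(Cfsg.isometryGroup F ⇑(Cfsg.Agent.H7.qOdd d F))) ^ r = 1 := by
      apply Subtype.ext
      exact hxr
    have hdvd := orderOf_dvd_of_pow_eq_one hG
    rcases (Nat.dvd_prime hr).mp hdvd with h1 | h1
    · rw [h1]
      exact odd_one
    · rw [h1]
      exact hr.odd_of_ne_two hr2
  have hker : ∀ φ : F[X], Module.finrank F ↥(LinearMap.ker (aeval (Matrix.toLin'
      (x : Matrix (Unit ⊕ (Fin d ⊕ Fin d)) (Unit ⊕ (Fin d ⊕ Fin d)) F)) φ)) =
      Module.finrank F ↥(LinearMap.ker (aeval g φ)) +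
      Module.finrank F ↥(LinearMap.ker (φ.eval 1 •
        (1 : Module.End F (Unit ⊕ (Fin (d - e) ⊕ Fin (d - e)) → F)))) := by
    intro φ
    rw [hxval, hMlin, hγ, Polynomial.aeval_algHom_apply, finrank_ker_conj, hg',
      aeval_prodMap_one, LinearMap.ker_prodMap, finrank_submodule_prod]
  refine ⟨x, hxΩ, hxr, ?_, ?_⟩
  · have h1 := hker (X - 1)
    rw [map_sub, map_sub, aeval_X, aeval_X, map_one, map_one, eval_sub, eval_X, eval_one,
      sub_self, zero_smul, hyker, finrank_bot, LinearMap.ker_zero, finrank_top,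
      finrank_stdO] at h1
    rw [h1]
    omega
  · intro φ hφ
    rw [hker φ, ← hg]
    have h3 : LinearMap.ker (φ.eval 1 •
        (1 : Module.End F (Unit ⊕ (Fin (d - e) ⊕ Fin (d - e)) → F))) = ⊥ := by
      rw [eq_bot_iff]
      intro v hv
      rw [LinearMap.mem_ker, LinearMap.smul_apply, Module.End.one_apply] at hv
      rw [Submodule.mem_bot]
      exact (smul_eq_zero.mp hv).resolve_left hφ
    rw [h3, finrank_bot, add_zero]

example : Cfsg.Agent.H14.Ot.StOTransport.{u} := oTransport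

end Cfsg.Agent.H14.Ot
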