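/-
helper14 library for helper74's S4706/S4707 (piece G3): a `p`-singular element is conjugate into
a self-centralizing Sylow `p`-subgroup of order `p`.
-/
import Mathlib

set_option autoImplicit false

namespace Cfsg.Agent.H14.PD

open Equiv MulAction

/-- A Sylow subgroup of order `p` is generated by each of its non-trivial elements. -/
theorem sylow_eq_zpowers {G : Type*} [Group G] [Finite G] {p : ℕ} [Fact p.Prime]
    (Q : Sylow p G) (hQ : Nat.card Q = p) (g : G) (hg : g ∈ (Q : Subgroup G)) (hg1 : g ≠ 1) :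
    Subgroup.zpowers g = (Q : Subgroup G) := by
  have hp : p.Prime := Fact.out
  have hle : Subgroup.zpowers g ≤ (Q : Subgroup G) := by
    rw [Subgroup.zpowers_le]; exact hg
  apply Subgroup.eq_of_le_of_card_ge hle
  rw [Nat.card_zpowers]
  have h1 : orderOf g ∣ p := by
    have := orderOf_dvd_natCard (⟨g, hg⟩ : (Q : Subgroup G))
    rw [Subgroup.orderOf_mk] at this
    have h2 : Nat.card (Q : Subgroup G) = p := hQ
    rwa [h2] at this
  rcases (Nat.dvd_prime hp).mp h1 with h2 | h2
  · exact absurd (orderOf_eq_one_iff.mp h2) hg1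
  · rw [h2]; exact le_of_eq hQ

theorem sing_conj {G : Type*} [Group G] [Finite G] {p : ℕ} [Fact p.Prime]
    (P : Sylow p G) (hP : Nat.card P = p)
    (hC : Subgroup.centralizer ((P : Subgroup G) : Set G) = (P : Subgroup G))
    (g : G) (hg : p ∣ orderOf g) : ∃ h : G, h * g * h⁻¹ ∈ (P : Subgroup G) := by
  have hp : p.Prime := Fact.out
  have ho : orderOf g ≠ 0 := (orderOf_pos g).ne'
  have h1 : orderOf (g ^ (orderOf g / p)) = p := orderOf_pow_orderOf_div ho hg
  have h2 : IsPGroup p (Subgroup.zpowers (g ^ (orderOf g / p))) := by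
    apply IsPGroup.of_card (n := 1)
    rw [Nat.card_zpowers, h1, pow_one]
  obtain ⟨Q, hQ⟩ := h2.exists_le_sylow
  obtain ⟨h, hh⟩ := MulAction.exists_smul_eq G Q P
  have h3 : h * g ^ (orderOf g / p) * h⁻¹ ∈ (P : Subgroup G) := by
    rw [← hh, Sylow.coe_subgroup_smul]
    exact Subgroup.smul_mem_pointwise_smul _ (MulAut.conj h) _ (hQ (Subgroup.mem_zpowers _))
  have h4 : h * g ^ (orderOf g / p) * h⁻¹ ≠ 1 := by
    intro h5
    have h6 : g ^ (orderOf g / p) = 1 := by
      have : g ^ (orderOf g / p) = h⁻¹ * (h * g ^ (orderOf g / p) * h⁻¹) * h := by group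
      rw [this, h5]; group
    rw [h6, orderOf_one] at h1
    exact hp.one_lt.ne h1
  have h5 := sylow_eq_zpowers P hP _ h3 h4
  refine ⟨h, ?_⟩
  rw [← hC, Subgroup.mem_centralizer_iff]
  intro y hy
  rw [SetLike.mem_coe, ← h5, Subgroup.mem_zpowers_iff] at hy
  obtain ⟨k, rfl⟩ := hy
  have h6 : h * g ^ (orderOf g / p) * h⁻¹ = (h * g * h⁻¹) ^ (orderOf g / p) := by
    rw [conj_pow]
  rw [h6]
  have : Commute ((h * g * h⁻¹) ^ (orderOf g / p)) (h * g * h⁻¹) :=
    (Commute.refl _).pow_left _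
  exact (this.zpow_left k).eq

end Cfsg.Agent.H14.PD
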