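/-
helper14 library for helper74's S4706/S4707 (piece G4): the number of `p`-singular elements when
a Sylow `p`-subgroup is self-centralizing of order `p` with normalizer of order `2p`.
-/
import Mathlib
import Cfsg.Agent.H14.PDG3

set_option autoImplicit false

namespace Cfsg.Agent.H14.PD

open Equiv MulAction

theorem sing_count {G : Type*} [Group G] [Fintype G] {p : ℕ} [Fact p.Prime]
    (P : Sylow p G) (hP : Nat.card P = p)
    (hC : Subgroup.centralizer ((P : Subgroup G) : Set G) = (P : Subgroup G))
    (hN : Nat.card (Subgroup.normalizer ((P : Subgroup G) : Set G)) = 2 * p) :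
    open Classical in
    2 * p * (Finset.univ.filter (fun g : G => p ∣ orderOf g)).card = (p - 1) * Nat.card G := by
  classical
  have hp : p.Prime := Fact.out
  haveI : Fintype (Sylow p G) := Fintype.ofFinite _
  have hcardQ : ∀ Q : Sylow p G, Nat.card Q = p := by
    intro Q
    rw [Sylow.card_eq_multiplicity, ← Sylow.card_eq_multiplicity P, hP]
  let T : Sylow p G → Finset G :=
    fun Q => (Finset.univ.filter (fun g : G => g ∈ (Q : Subgroup G))).erase 1
  have hS : Finset.univ.filter (fun g : G => p ∣ orderOf g) = Finset.univ.biUnion T := by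
    ext g
    simp only [Finset.mem_filter, Finset.mem_univ, true_and, Finset.mem_biUnion, T,
      Finset.mem_erase]
    constructor
    · intro hg
      obtain ⟨h, hh⟩ := sing_conj P hP hC g hg
      refine ⟨h⁻¹ • P, ?_, ?_⟩
      · rintro rfl
        rw [orderOf_one] at hg
        exact hp.one_lt.ne' (Nat.dvd_one.mp hg)
      · rw [Sylow.coe_subgroup_smul]
        have : g = MulAut.conj h⁻¹ • (h * g * h⁻¹) := by
          rw [MulAut.smul_def, MulAut.conj_apply]; group
        rw [this]
        exact Subgroup.smul_mem_pointwise_smul _ _ _ hh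
    · rintro ⟨Q, hg1, hgQ⟩
      have h1 := sylow_eq_zpowers Q (hcardQ Q) g hgQ hg1
      have h2 : Nat.card (Subgroup.zpowers g) = p := by
        rw [h1]; exact hcardQ Q
      rw [Nat.card_zpowers] at h2
      rw [h2]
  have hT : ∀ Q : Sylow p G, (T Q).card = p - 1 := by
    intro Q
    show ((Finset.univ.filter (fun g : G => g ∈ (Q : Subgroup G))).erase 1).card = p - 1
    rw [Finset.card_erase_of_mem (by simp [one_mem])]
    congr 1
    have h1 := hcardQ Q
    rw [Nat.card_eq_fintype_card, Fintype.card_subtype] at h1
    exact h1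
  have hdisj : ∀ Q ∈ (Finset.univ : Finset (Sylow p G)), ∀ Q' ∈ (Finset.univ : Finset (Sylow p G)),
      Q ≠ Q' → Disjoint (T Q) (T Q') := by
    intro Q _ Q' _ hne
    rw [Finset.disjoint_left]
    intro g hg hg'
    apply hne
    simp only [T, Finset.mem_erase, Finset.mem_filter, Finset.mem_univ, true_and] at hg hg'
    apply Sylow.ext
    rw [← sylow_eq_zpowers Q (hcardQ Q) g hg.2 hg.1, ← sylow_eq_zpowers Q' (hcardQ Q') g hg'.2 hg'.1]
  have hidx : Nat.card (Sylow p G) = (Subgroup.normalizer ((P : Subgroup G) : Set G)).index :=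
    Sylow.card_eq_index_normalizer P
  rw [hS, Finset.card_biUnion hdisj, Finset.sum_congr rfl (fun Q _ => hT Q), Finset.sum_const,
    Finset.card_univ, smul_eq_mul, ← Nat.card_eq_fintype_card, hidx,
    ← Subgroup.card_mul_index (Subgroup.normalizer ((P : Subgroup G) : Set G)), hN]
  ring

end Cfsg.Agent.H14.PD
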