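import Cfsg.Agent.H51.QdSylow2

/-!
# Failure of control of strong fusion in `Qd(p)` (for S1989)
-/

set_option autoImplicit false
open Cfsg Matrix

namespace Cfsg.Agent.H14.QdFusion

open Cfsg.Agent.H51

universe u

section core
variable {F : Type*} [Field F] [Fintype F] {p : ℕ} [Fact p.Prime] [CharP F p]

/-- In the affine group `F² ⋊ SL₂(F)`: for a nontrivial characteristic subgroup `C` of a Sylow
`p`-subgroup there are a translation `a` and an element `g` such that no element of `N(C)` induces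
the same conjugation on `a` as `g`. -/
theorem core_fail (S : Sylow p ↥(affSub F)) (C : Subgroup ↥(S : Subgroup ↥(affSub F)))
    (hC : C ≠ ⊥) (hCc : C.Characteristic) :
    ∃ a g : ↥(affSub F), a ∈ (blockHom F).ker ∧
      ∀ x ∈ Subgroup.normalizer ((C.map (S : Subgroup ↥(affSub F)).subtype :
          Subgroup ↥(affSub F)) : Set ↥(affSub F)),
        x * a * x⁻¹ ≠ g * a * g⁻¹ := by
  obtain ⟨h, hS⟩ := sylow_eq_conj S
  have hN := (qd_sylow_char (affSub F) rfl S C hC hCc).1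
  have hNS : Subgroup.normalizer ((S : Subgroup ↥(affSub F)) : Set ↥(affSub F)) =
      (affB F).map (MulAut.conj h).toMonoidHom := by
    rw [hS, ← Subgroup.map_equiv_normalizer_eq, normalizer_affU]
  obtain ⟨τ, hτ⟩ : ∃ τ : ↥(affSub F), τ = mkAff (1 : SpecialLinearGroup (Fin 2) F) ![1, 0] :=
    ⟨_, rfl⟩
  obtain ⟨w, hw⟩ : ∃ w : ↥(affSub F), w = mkAff (sl2W F) 0 := ⟨_, rfl⟩
  have hτk : τ ∈ (blockHom F).ker := by rw [hτ]; exact mkAff_one_mem_ker _
  refine ⟨h * τ * h⁻¹, h * w * h⁻¹, (MonoidHom.normal_ker (blockHom F)).conj_mem τ hτk h, ?_⟩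
  intro x hx heq
  rw [hN, hNS] at hx
  obtain ⟨b, hb, rfl⟩ := hx
  have hb' : (MulAut.conj h).toMonoidHom b = h * b * h⁻¹ := rfl
  rw [hb'] at heq
  have e1 : h * b * h⁻¹ * (h * τ * h⁻¹) * (h * b * h⁻¹)⁻¹ = h * (b * τ * b⁻¹) * h⁻¹ := by group
  have e2 : h * w * h⁻¹ * (h * τ * h⁻¹) * (h * w * h⁻¹)⁻¹ = h * (w * τ * w⁻¹) * h⁻¹ := by group
  rw [e1, e2] at heq
  have h2 : b * τ * b⁻¹ = w * τ * w⁻¹ := mul_left_cancel (mul_right_cancel heq)
  have h3 := (conj_ker b τ hτk).2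
  have h4 := (conj_ker w τ hτk).2
  rw [h2, h4] at h3
  have hb10 : (blockA b : Matrix (Fin 2) (Fin 2) F) 1 0 = 0 := hb
  have h5 := congrFun h3 1
  rw [hτ, hw, transl_mkAff, blockA_mkAff] at h5
  simp [sl2W, Matrix.mulVec, dotProduct, hb10] at h5

end core

/-- In a group isomorphic to `Qd(p)`, no nontrivial characteristic subgroup of a Sylow
`p`-subgroup controls strong fusion. -/
theorem qd_fail {Q : Type u} [Group Q] [Finite Q] {p : ℕ} [Fact p.Prime]
    (e : Q ≃* ↥(Cfsg.qd p)) (T₀ : Sylow p Q) (C : Subgroup ↥(T₀ : Subgroup Q))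
    (hC : Nontrivial ↥(T₀ : Subgroup Q) → C ≠ ⊥) (hCc : C.Characteristic) :
    ¬ Cfsg.ControlsStrongFusion p (C.map (T₀ : Subgroup Q).subtype) := by
  rintro ⟨T', -, hctl⟩
  obtain ⟨e', -⟩ : ∃ e' : Q ≃* ↥(affSub (ZMod p)), True :=
    ⟨e.trans (MulEquiv.subgroupCongr (qd_eq p)), trivial⟩
  -- the normal `p`-subgroup of translations lies in every Sylow subgroup
  haveI hNn : (((blockHom (ZMod p)).ker).comap e'.toMonoidHom).Normal :=
    Subgroup.Normal.comap (MonoidHom.normal_ker _) _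
  have hNp : IsPGroup p ↥(((blockHom (ZMod p)).ker).comap e'.toMonoidHom) :=
    (ker_isPGroup (F := ZMod p) (p := p)).comap_of_injective e'.toMonoidHom e'.injective
  have hNQ : ∀ (P : Sylow p Q) (y : ↥(affSub (ZMod p))), y ∈ (blockHom (ZMod p)).ker →
      e'.symm y ∈ (P : Subgroup Q) := by
    intro P y hy
    apply hNp.le_sylow_of_normal P
    rw [Subgroup.mem_comap]
    show e' (e'.symm y) ∈ (blockHom (ZMod p)).ker
    rw [MulEquiv.apply_symm_apply]
    exact hy
  -- `T₀` is nontrivial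
  have hnt : Nontrivial ↥(T₀ : Subgroup Q) := by
    have h1 := hNQ T₀ (mkAff (1 : SpecialLinearGroup (Fin 2) (ZMod p)) ![1, 0]) (mkAff_one_mem_ker _)
    refine ⟨⟨⟨_, h1⟩, 1, ?_⟩⟩
    intro h
    have h2 : e'.symm (mkAff (1 : SpecialLinearGroup (Fin 2) (ZMod p)) ![1, 0]) = 1 :=
      congrArg Subtype.val h
    have h3 : mkAff (1 : SpecialLinearGroup (Fin 2) (ZMod p)) ![1, 0] = 1 := by
      have := congrArg e' h2
      rwa [MulEquiv.apply_symm_apply, map_one] at this
    have h4 := congrArg transl h3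
    rw [transl_mkAff, transl_one] at h4
    have h5 := congrFun h4 0
    simp at h5
  have hC' := hC hnt
  -- transport the Sylow subgroup
  obtain ⟨S, hS⟩ : ∃ S : Sylow p ↥(affSub (ZMod p)),
      (S : Subgroup ↥(affSub (ZMod p))) = (T₀ : Subgroup Q).comap e'.symm.toMonoidHom := by
    refine ⟨T₀.comapOfInjective e'.symm.toMonoidHom e'.symm.injective ?_, ?_⟩
    · intro x _
      exact MonoidHom.mem_range.mpr ⟨e' x, e'.symm_apply_apply x⟩
    · exact Sylow.coe_comapOfInjective _ _ _ _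
  have hmemS : ∀ y : ↥(affSub (ZMod p)), y ∈ (S : Subgroup ↥(affSub (ZMod p))) ↔
      e'.symm y ∈ (T₀ : Subgroup Q) := by
    intro y
    rw [hS, Subgroup.mem_comap]
    rfl
  let φ : ↥(T₀ : Subgroup Q) ≃* ↥(S : Subgroup ↥(affSub (ZMod p))) :=
    { toFun := fun x => ⟨e' x, by rw [hmemS, MulEquiv.symm_apply_apply]; exact x.2⟩
      invFun := fun y => ⟨e'.symm y, (hmemS y).mp y.2⟩
      left_inv := fun x => by apply Subtype.ext; simp
      right_inv := fun y => by apply Subtype.ext; simp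
      map_mul' := fun x y => by apply Subtype.ext; simp }
  have hφ : ∀ x : ↥(T₀ : Subgroup Q), ((φ x : ↥(S : Subgroup ↥(affSub (ZMod p)))) :
      ↥(affSub (ZMod p))) = e' x := fun x => rfl
  have hφs : ∀ y : ↥(S : Subgroup ↥(affSub (ZMod p))), ((φ.symm y : ↥(T₀ : Subgroup Q)) : Q) =
      e'.symm y := fun y => rfl
  have hCD'c : (C.map φ.toMonoidHom).Characteristic := by
    have hch := Subgroup.characteristic_iff_map_eq.mp hCc
    rw [Subgroup.characteristic_iff_map_le]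
    intro ψ
    rintro _ ⟨_, ⟨c, hc, rfl⟩, rfl⟩
    have h1 := hch ((φ.trans ψ).trans φ.symm)
    have h2 : ((φ.trans ψ).trans φ.symm) c ∈ C := by
      rw [← h1]
      exact ⟨c, hc, rfl⟩
    refine ⟨((φ.trans ψ).trans φ.symm) c, h2, ?_⟩
    show φ (φ.symm (ψ (φ c))) = ψ (φ c)
    rw [MulEquiv.apply_symm_apply]
  have hC'ne : C.map φ.toMonoidHom ≠ ⊥ := by
    intro h
    apply hC'
    rwa [Subgroup.map_eq_bot_iff_of_injective _ φ.injective] at h
  obtain ⟨a, g, ha, hne⟩ := core_fail S (C.map φ.toMonoidHom) hC'ne hCD'c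
  have key : ∀ y : ↥(affSub (ZMod p)),
      y ∈ (C.map φ.toMonoidHom).map (S : Subgroup ↥(affSub (ZMod p))).subtype ↔
        e'.symm y ∈ C.map (T₀ : Subgroup Q).subtype := by
    intro y
    constructor
    · rintro ⟨_, ⟨c, hc, rfl⟩, rfl⟩
      refine ⟨c, hc, ?_⟩
      show (c : Q) = e'.symm (e' c)
      rw [MulEquiv.symm_apply_apply]
    · rintro ⟨c, hc, hcy⟩
      refine ⟨φ c, ⟨c, hc, rfl⟩, ?_⟩
      show e' (c : Q) = y
      have : (c : Q) = e'.symm y := hcy
      rw [this, MulEquiv.apply_symm_apply]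
  have hA : ({e'.symm a} : Set Q) ⊆ ((T' : Subgroup Q) : Set Q) := by
    rintro _ rfl
    exact hNQ T' a ha
  obtain ⟨-, hc⟩ := hctl {e'.symm a} hA
  obtain ⟨x, hx, hxa⟩ := hc (e'.symm g) (by
    rintro _ ⟨_, rfl, rfl⟩
    have h1 := hNQ T' (g * a * g⁻¹) ((MonoidHom.normal_ker (blockHom (ZMod p))).conj_mem a ha g)
    rw [map_mul, map_mul, map_inv] at h1
    exact h1)
  have hxa' := hxa (e'.symm a) rfl
  apply hne (e' x)
  · rw [Subgroup.mem_normalizer_iff] at hx ⊢
    intro y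
    rw [key, key, hx (e'.symm y)]
    have e3 : e'.symm (e' x * y * (e' x)⁻¹) = x * e'.symm y * x⁻¹ := by
      rw [map_mul, map_mul, map_inv, MulEquiv.symm_apply_apply]
    rw [e3]
  · have h1 := congrArg e' hxa'
    rw [map_mul, map_mul, map_inv, map_mul, map_mul, map_inv, MulEquiv.apply_symm_apply,
      MulEquiv.apply_symm_apply] at h1
    exact h1.symm

end Cfsg.Agent.H14.QdFusion
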