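import Mathlib
import Cfsg.Agent.H91.SMDefs
import Cfsg.Agent.H85.StLin

/-!
# helper14: central extensions of `SL_n(K)` -- basic tools for S2086 (pieces REL3, C4H)
-/

set_option autoImplicit false

namespace Cfsg.Agent.H14.SM

open Matrix Subgroup
open scoped commutatorElement
open Cfsg.Agent.H91.SM

section Grp

variable {G : Type*} [Group G]

theorem comm_central_left {z : G} (hz : z ∈ center G) (u v : G) : ⁅u * z, v⁆ = ⁅u, v⁆ := by
  have h := Subgroup.mem_center_iff.mp hz
  rw [commutatorElement_def, commutatorElement_def]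
  have e : u * z * v * (u * z)⁻¹ = u * v * u⁻¹ := by
    calc u * z * v * (u * z)⁻¹ = u * (z * v) * z⁻¹ * u⁻¹ := by group
      _ = u * (v * z) * z⁻¹ * u⁻¹ := by rw [h v]
      _ = u * v * u⁻¹ := by group
  rw [e]

theorem comm_central_right {z : G} (hz : z ∈ center G) (u v : G) : ⁅u, v * z⁆ = ⁅u, v⁆ := by
  have h := Subgroup.mem_center_iff.mp hz
  rw [commutatorElement_def, commutatorElement_def]
  calc u * (v * z) * u⁻¹ * (v * z)⁻¹ = u * v * (z * u⁻¹) * z⁻¹ * v⁻¹ := by group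
    _ = u * v * (u⁻¹ * z) * z⁻¹ * v⁻¹ := by rw [h u⁻¹]
    _ = u * v * u⁻¹ * v⁻¹ := by group

theorem conj_comm (g u v : G) : g * ⁅u, v⁆ * g⁻¹ = ⁅g * u * g⁻¹, g * v * g⁻¹⁆ := by
  simp only [commutatorElement_def]; group

theorem comm_mul_right' (u w w' : G) : ⁅u, w * w'⁆ = ⁅u, w⁆ * (w * ⁅u, w'⁆ * w⁻¹) := by
  simp only [commutatorElement_def]; group

theorem comm_mul_left' (u u' v : G) : ⁅u * u', v⁆ = u * ⁅u', v⁆ * u⁻¹ * ⁅u, v⁆ := by
  simp only [commutatorElement_def]; group

theorem conj_eq_comm_mul (u q : G) : u * q * u⁻¹ = ⁅u, q⁆ * q := by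
  simp only [commutatorElement_def]; group

theorem central_conj {z : G} (hz : z ∈ center G) (g : G) : g * z * g⁻¹ = z := by
  have h := Subgroup.mem_center_iff.mp hz
  rw [h g]; group

end Grp

section Ext

variable {n : ℕ} {K : Type*} [Field K] {E : Type*} [Group E]

/-- The commutator of two lifts depends only on the images. -/
theorem comm_congr {ρ : E →* SLn n K} (hker : ρ.ker ≤ center E) {u u' v v' : E}
    (hu : ρ u = ρ u') (hv : ρ v = ρ v') : ⁅u, v⁆ = ⁅u', v'⁆ := by
  have h1 : u⁻¹ * u' ∈ center E := hker (by rw [MonoidHom.mem_ker, map_mul, map_inv, hu]; group)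
  have h2 : v⁻¹ * v' ∈ center E := hker (by rw [MonoidHom.mem_ker, map_mul, map_inv, hv]; group)
  have e1 : u' = u * (u⁻¹ * u') := by group
  have e2 : v' = v * (v⁻¹ * v') := by group
  rw [e1, e2, comm_central_left h1, comm_central_right h2]

/-- The commutator of two lifts of commuting elements is central. -/
theorem comm_mem_center {ρ : E →* SLn n K} (hker : ρ.ker ≤ center E) {u v : E}
    (h : ρ u * ρ v = ρ v * ρ u) : ⁅u, v⁆ ∈ center E := by
  apply hker
  rw [MonoidHom.mem_ker, map_commutatorElement, commutatorElement_eq_one_iff_mul_comm]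
  exact h

/-- `[x_ij(a), x_jl(b)] = x_il(ab)`. -/
theorem tv_comm {i j l : Fin n} (hij : i ≠ j) (hjl : j ≠ l) (hil : i ≠ l) (a b : K) :
    ⁅(tv hij a : SLn n K), tv hjl b⁆ = tv hil (a * b) := by
  rw [commutatorElement_def]
  have h1 : (tv hij a : SLn n K)⁻¹ = tv hij (-a) := Cfsg.Agent.H85.StLin.tr_inv hij a
  have h2 : (tv hjl b : SLn n K)⁻¹ = tv hjl (-b) := Cfsg.Agent.H85.StLin.tr_inv hjl b
  rw [h1, h2]
  exact Cfsg.Agent.H45.transvection_comm_rel hij hjl hil a b

theorem tv_mul {i j : Fin n} (hij : i ≠ j) (a b : K) :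
    (tv hij a : SLn n K) * tv hij b = tv hij (a + b) :=
  Cfsg.Agent.H85.StLin.tr_mul hij a b

theorem tv_commute {i j k l : Fin n} (hij : i ≠ j) (hkl : k ≠ l) (hil : i ≠ l) (hjk : j ≠ k)
    (a b : K) : (tv hij a : SLn n K) * tv hkl b = tv hkl b * tv hij a :=
  Cfsg.Agent.H85.StLin.tr_comm hij hkl hil hjk a b

/-- Additivity on the left of the commutator of lifts of commuting elementary matrices. -/
theorem comm_add_left {ρ : E →* SLn n K} (hker : ρ.ker ≤ center E) {i j k l : Fin n}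
    (hij : i ≠ j) (hkl : k ≠ l) (hil : i ≠ l) (hjk : j ≠ k) {s s' t : K} {u u' u'' v : E}
    (hu : ρ u = tv hij s) (hu' : ρ u' = tv hij s') (hu'' : ρ u'' = tv hij (s + s'))
    (hv : ρ v = tv hkl t) : ⁅u'', v⁆ = ⁅u, v⁆ * ⁅u', v⁆ := by
  have e1 : ⁅u'', v⁆ = ⁅u * u', v⁆ :=
    comm_congr hker (by rw [hu'', map_mul, hu, hu', tv_mul]) rfl
  have c1 : ⁅u', v⁆ ∈ center E :=
    comm_mem_center hker (by rw [hu', hv]; exact tv_commute hij hkl hil hjk _ _)
  have c2 : ⁅u, v⁆ ∈ center E :=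
    comm_mem_center hker (by rw [hu, hv]; exact tv_commute hij hkl hil hjk _ _)
  rw [e1, comm_mul_left', central_conj c1]
  exact Subgroup.mem_center_iff.mp c2 _

/-- Additivity on the right of the commutator of lifts of commuting elementary matrices. -/
theorem comm_add_right {ρ : E →* SLn n K} (hker : ρ.ker ≤ center E) {i j k l : Fin n}
    (hij : i ≠ j) (hkl : k ≠ l) (hil : i ≠ l) (hjk : j ≠ k) {s t t' : K} {u v v' v'' : E}
    (hu : ρ u = tv hij s) (hv : ρ v = tv hkl t) (hv' : ρ v' = tv hkl t')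
    (hv'' : ρ v'' = tv hkl (t + t')) : ⁅u, v''⁆ = ⁅u, v⁆ * ⁅u, v'⁆ := by
  have e1 : ⁅u, v''⁆ = ⁅u, v * v'⁆ :=
    comm_congr hker rfl (by rw [hv'', map_mul, hv, hv', tv_mul])
  have c1 : ⁅u, v'⁆ ∈ center E :=
    comm_mem_center hker (by rw [hu, hv']; exact tv_commute hij hkl hil hjk _ _)
  rw [e1, comm_mul_right', central_conj c1]

end Ext

section Mat

variable {n : ℕ} {K : Type*} [Field K]

/-- A diagonal element of `SL_n(K)`. -/
def dg (f : Fin n → K) (hf : ∏ x, f x = 1) : SLn n K :=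
  ⟨Matrix.diagonal f, by rw [Matrix.det_diagonal]; exact hf⟩

theorem dg_conj (f : Fin n → K) (hf : ∏ x, f x = 1) {i j : Fin n} (hij : i ≠ j) (a : K) :
    dg f hf * tv hij a * (dg f hf)⁻¹ = tv hij (f i * a * (f j)⁻¹) := by
  have hne : f j ≠ 0 := by
    intro h0
    have : ∏ x, f x = 0 := Finset.prod_eq_zero (Finset.mem_univ j) h0
    rw [hf] at this
    exact one_ne_zero this
  rw [mul_inv_eq_iff_eq_mul]
  apply Subtype.ext
  show Matrix.diagonal f * Matrix.transvection i j a =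
    Matrix.transvection i j (f i * a * (f j)⁻¹) * Matrix.diagonal f
  ext x y
  rw [Matrix.diagonal_mul, Matrix.mul_diagonal]
  simp only [Matrix.transvection, Matrix.add_apply, Matrix.one_apply, Matrix.single_apply]
  by_cases hxy : x = y
  · subst hxy
    have h0 : ¬ (i = x ∧ j = x) := fun h => hij (h.1.trans h.2.symm)
    simp [h0]
  · by_cases h : i = x ∧ j = y
    · obtain ⟨rfl, rfl⟩ := h
      simp [hxy]
      field_simp
    · simp [hxy, h]

/-- A permutation matrix of sign `1` as an element of `SL_n(K)`. -/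
def pm (σ : Equiv.Perm (Fin n)) (hσ : Equiv.Perm.sign σ = 1) : SLn n K :=
  ⟨σ.permMatrix K, by rw [Matrix.det_permutation, hσ]; simp⟩

theorem pm_conj (σ : Equiv.Perm (Fin n)) (hσ : Equiv.Perm.sign σ = 1) {a b a' b' : Fin n}
    (hab : a ≠ b) (hab' : a' ≠ b') (ha : σ a' = a) (hb : σ b' = b) (c : K) :
    (pm σ hσ : SLn n K) * tv hab c * (pm σ hσ)⁻¹ = tv hab' c := by
  rw [mul_inv_eq_iff_eq_mul]
  apply Subtype.ext
  show σ.permMatrix K * Matrix.transvection a b c = Matrix.transvection a' b' c * σ.permMatrix K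
  rw [Equiv.Perm.permMatrix, PEquiv.toMatrix_toPEquiv_mul,
    PEquiv.mul_toMatrix_toPEquiv]
  ext x y
  simp only [Matrix.submatrix_apply, id, Matrix.transvection, Matrix.add_apply, Matrix.one_apply,
    Matrix.single_apply]
  have h1 : (σ x = y) ↔ (x = σ.symm y) := by
    constructor
    · intro h; rw [← h]; simp
    · intro h; rw [h]; simp
  have h2 : (a = σ x) ↔ (a' = x) := by
    rw [← ha]; exact σ.injective.eq_iff
  have h3 : (b' = σ.symm y) ↔ (b = y) := by
    rw [← hb]
    constructor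
    · intro h; rw [h]; simp
    · intro h; rw [← h]; simp
  simp only [h1, h2, h3]

end Mat

end Cfsg.Agent.H14.SM
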