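import Mathlib
import Cfsg.Agent.H91.SMDefs
import Cfsg.Agent.H14.SMBase

/-!
# helper14: S2086-REL3 -- `Comm ρ` implies `Rel3 ρ` for `SL_3(K)` with a torus element
-/

set_option autoImplicit false

namespace Cfsg.Agent.H14.SM

open Matrix Subgroup
open scoped commutatorElement
open Cfsg.Agent.H91.SM

universe u v

/-- The torus function for `Fin 3`: `r` off `l`, `r⁻²` at `l`. -/
theorem torus3_prod {K : Type*} [Field K] (r : K) (hr : r ≠ 0) {i j l : Fin 3} (hij : i ≠ j)
    (hjl : j ≠ l) (hil : i ≠ l) :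
    ∏ x : Fin 3, (if x = l then (r⁻¹) ^ 2 else r) = 1 := by
  have huniv : (Finset.univ : Finset (Fin 3)) = {i, j, l} := by
    symm
    apply Finset.eq_univ_of_card
    rw [Finset.card_insert_of_notMem, Finset.card_insert_of_notMem, Finset.card_singleton]
    · simp
    · simpa using hjl
    · simp only [Finset.mem_insert, Finset.mem_singleton, not_or]; exact ⟨hij, hil⟩
  rw [huniv, Finset.prod_insert (by simp only [Finset.mem_insert, Finset.mem_singleton, not_or]; exact ⟨hij, hil⟩),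
    Finset.prod_insert (by simpa using hjl), Finset.prod_singleton]
  simp only [if_neg hil, if_neg hjl, if_true]
  field_simp

theorem rel3 : Rel3Stmt.{u, v} := by
  intro K _ E _ ρ hsurj hker hC r hr hr3 i j l hij hjl hil a b u w p q hu hw hp hq
  -- lifts
  let L : SLn 3 K → E := Function.surjInv hsurj
  have hL : ∀ g, ρ (L g) = g := Function.surjInv_eq hsurj
  let t : K → K → E := fun a b => ⁅L (tv hij a), L (tv hjl b)⁆
  have ht : ∀ (a b : K) (u w : E), ρ u = tv hij a → ρ w = tv hjl b → ⁅u, w⁆ = t a b := by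
    intro a b u w hu hw
    exact comm_congr hker (by rw [hu, hL]) (by rw [hw, hL])
  have hρt : ∀ a b, ρ (t a b) = tv hil (a * b) := by
    intro a b
    show ρ ⁅L (tv hij a), L (tv hjl b)⁆ = _
    rw [map_commutatorElement, hL, hL, tv_comm hij hjl hil]
  have hadd : ∀ a b b', t a (b + b') = t a b * t a b' := by
    intro a b b'
    have e1 : t a (b + b') = ⁅L (tv hij a), L (tv hjl b) * L (tv hjl b')⁆ := by
      symm
      apply ht
      · exact hL _
      · rw [map_mul, hL, hL, tv_mul]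
    rw [e1, comm_mul_right']
    have hc : L (tv hjl b) * ⁅L (tv hij a), L (tv hjl b')⁆ =
        ⁅L (tv hij a), L (tv hjl b')⁆ * L (tv hjl b) :=
      hC j l i l hjl hil hjl (Ne.symm hil) b (a * b') _ _ (hL _) (hρt a b')
    rw [hc]
    show t a b * (t a b' * L (tv hjl b) * (L (tv hjl b))⁻¹) = t a b * t a b'
    group
  let Dv : K → K → E := fun a b => t a b * (t 1 (a * b))⁻¹
  have hDc : ∀ a b, Dv a b ∈ center E := by
    intro a b
    apply hker
    rw [MonoidHom.mem_ker]
    show ρ (t a b * (t 1 (a * b))⁻¹) = 1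
    rw [map_mul, map_inv, hρt, hρt, one_mul, mul_inv_cancel]
  have hDadd : ∀ a b b', Dv a (b + b') = Dv a b * Dv a b' := by
    intro a b b'
    have hz := Subgroup.mem_center_iff.mp (hDc a b')
    show t a (b + b') * (t 1 (a * (b + b')))⁻¹ =
      t a b * (t 1 (a * b))⁻¹ * Dv a b'
    rw [mul_add, hadd, hadd, _root_.mul_inv_rev]
    calc t a b * t a b' * ((t 1 (a * b'))⁻¹ * (t 1 (a * b))⁻¹)
        = t a b * (t a b' * (t 1 (a * b'))⁻¹) * (t 1 (a * b))⁻¹ := by group
      _ = t a b * Dv a b' * (t 1 (a * b))⁻¹ := rfl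
      _ = t a b * (Dv a b' * (t 1 (a * b))⁻¹) := by group
      _ = t a b * ((t 1 (a * b))⁻¹ * Dv a b') := by rw [hz]
      _ = t a b * (t 1 (a * b))⁻¹ * Dv a b' := by group
  -- the torus element
  let f : Fin 3 → K := fun x => if x = l then (r⁻¹) ^ 2 else r
  have hf : ∏ x, f x = 1 := torus3_prod r hr hij hjl hil
  let d : SLn 3 K := dg f hf
  have hfi : f i = r := if_neg hil
  have hfj : f j = r := if_neg hjl
  have hfl : f l = (r⁻¹) ^ 2 := if_pos rfl
  have hd1 : ∀ a, d * tv hij a * d⁻¹ = tv hij a := by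
    intro a
    show dg f hf * tv hij a * (dg f hf)⁻¹ = tv hij a
    rw [dg_conj, hfi, hfj]
    congr 1
    field_simp
  have hd2 : ∀ b, d * tv hjl b * d⁻¹ = tv hjl (r ^ 3 * b) := by
    intro b
    show dg f hf * tv hjl b * (dg f hf)⁻¹ = tv hjl (r ^ 3 * b)
    rw [dg_conj, hfj, hfl]
    congr 1
    field_simp
  have hconj : ∀ a b, L d * t a b * (L d)⁻¹ = t a (r ^ 3 * b) := by
    intro a b
    show L d * ⁅L (tv hij a), L (tv hjl b)⁆ * (L d)⁻¹ = _
    rw [conj_comm]
    apply ht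
    · rw [map_mul, map_mul, map_inv, hL, hL, hd1]
    · rw [map_mul, map_mul, map_inv, hL, hL, hd2]
  have hDconj : ∀ a b, Dv a (r ^ 3 * b) = Dv a b := by
    intro a b
    have h1 : L d * Dv a b * (L d)⁻¹ = Dv a b := central_conj (hDc a b) _
    rw [← h1]
    show t a (r ^ 3 * b) * (t 1 (a * (r ^ 3 * b)))⁻¹ = L d * (t a b * (t 1 (a * b))⁻¹) * (L d)⁻¹
    have h2 : L d * (t a b * (t 1 (a * b))⁻¹) * (L d)⁻¹ =
        (L d * t a b * (L d)⁻¹) * (L d * t 1 (a * b) * (L d)⁻¹)⁻¹ := by group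
    rw [h2, hconj, hconj, mul_left_comm a (r ^ 3) b]
  have hD0 : ∀ a, Dv a 0 = 1 := by
    intro a
    have h := hDadd a 0 0
    rw [add_zero] at h
    exact (mul_eq_left.mp h.symm)
  have hDneg : ∀ a b, Dv a b * Dv a (-b) = 1 := by
    intro a b
    rw [← hDadd, add_neg_cancel, hD0]
  have hDone : ∀ a b, Dv a ((r ^ 3 - 1) * b) = 1 := by
    intro a b
    have e : (r ^ 3 - 1) * b = r ^ 3 * b + -b := by ring
    rw [e, hDadd, hDconj, hDneg]
  have hne : r ^ 3 - 1 ≠ 0 := sub_ne_zero.mpr hr3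
  have hDall : ∀ a b, Dv a b = 1 := by
    intro a b
    have e : b = (r ^ 3 - 1) * (b / (r ^ 3 - 1)) := by field_simp
    rw [e]
    exact hDone a _
  have hfin : t a b = t 1 (a * b) := by
    have h := hDall a b
    exact mul_inv_eq_one.mp h
  rw [ht a b u w hu hw, hfin]
  symm
  exact ht 1 (a * b) p q hp hq

end Cfsg.Agent.H14.SM
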