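import Cfsg.Agent.H14.SpDefs
import Cfsg.Agent.S0617
import Cfsg.Agent.H14.TFail

set_option autoImplicit false
set_option linter.unusedVariables false

/-! SP-PURE (helper14, for helper52's S2944 team project): the pure involution at the group
level, from the holomorph-level statement `StCore` and Glauberman's structure theorem S0617. -/

open Cfsg
open scoped commutatorElement Pointwise

namespace Cfsg.Agent.H14.Sp

open Cfsg.Agent.H14.Holo

universe u

theorem pure (h : StCore.{u}) : StPure.{u} := by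
  intro X _ _ V _ hV hsep hO k hk hko hkC W hW hWk
  haveI : Fact (Nat.Prime 2) := ⟨Nat.prime_two⟩
  haveI hJn := thompsonSubgroup_normal 2 X
  have hV' := Vh_elemAb V hV
  have hHV : (thompsonSubgroup 2 X).map (psi V) ≤
      Subgroup.normalizer ((Vh V : Subgroup (Hol V)) : Set (Hol V)) := by
    haveI := Vh_normal V
    rw [Subgroup.normalizer_eq_top]
    exact le_top
  have hHR : (thompsonSubgroup 2 X).map (psi V) ≤ (psi V).range := by
    rintro _ ⟨j, -, rfl⟩
    exact ⟨j, rfl⟩
  have hf : (thompsonSubgroup 2 X).map (psi V) ⊓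
      Subgroup.centralizer ((Vh V : Subgroup (Hol V)) : Set (Hol V)) = ⊥ := by
    rw [eq_bot_iff, ← range_faithful V]
    exact inf_le_inf_right _ hHR
  have hnorm : (psi V).range ≤
      Subgroup.normalizer (((thompsonSubgroup 2 X).map (psi V) : Subgroup (Hol V)) :
        Set (Hol V)) := by
    rintro _ ⟨g, rfl⟩
    rw [Subgroup.mem_normalizer_iff]
    intro h
    constructor
    · rintro ⟨j, hj, rfl⟩
      refine ⟨g * j * g⁻¹, hJn.conj_mem j hj g, ?_⟩
      simp
    · rintro ⟨j, hj, hjh⟩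
      refine ⟨g⁻¹ * j * g, ?_, ?_⟩
      · have := hJn.conj_mem j hj g⁻¹
        simpa using this
      · rw [map_mul, map_mul, hjh, map_inv]
        group
  have hS1 := hS1_of_normal (p := 2) (psi V).range ((thompsonSubgroup 2 X).map (psi V)) hHR
    hnorm (range_isPSolvable V hsep) (range_pCore_eq_bot V hO)
  have hS3 : (thompsonSubgroup 2 X).map (psi V) = ⨆ A : {A : Subgroup (Hol V) //
      A ≤ (thompsonSubgroup 2 X).map (psi V) ∧ IsBestOffenderOn 2 (Vh V) A},
      (A : Subgroup (Hol V)) := by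
    apply le_antisymm
    · conv_lhs => unfold Cfsg.thompsonSubgroup
      rw [Subgroup.map_le_iff_le_comap]
      apply sSup_le
      intro A hA
      rw [← Subgroup.map_le_iff_le_comap]
      exact le_iSup (fun A : {A : Subgroup (Hol V) //
        A ≤ (thompsonSubgroup 2 X).map (psi V) ∧ IsBestOffenderOn 2 (Vh V) A} =>
          (A : Subgroup (Hol V)))
        ⟨A.map (psi V), Subgroup.map_mono (le_sSup hA), bestOffender_map V hV hA⟩
    · exact iSup_le fun A => A.2.1
  -- the element `x = psi k`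
  have hxH : psi V k ∈ (thompsonSubgroup 2 X).map (psi V) := Subgroup.mem_map_of_mem _ hk
  have hx1 : psi V k ≠ 1 := by
    intro h1
    apply hkC
    rw [← psi_ker, MonoidHom.mem_ker]
    exact h1
  have hxodd : Odd (orderOf (psi V k)) := Odd.of_dvd_nat hko (orderOf_map_dvd (psi V) k)
  have hH1 : (thompsonSubgroup 2 X).map (psi V) ≠ ⊥ := by
    intro h0
    rw [h0, Subgroup.mem_bot] at hxH
    exact hx1 hxH
  obtain ⟨-, hE, hind, hsup, hindV, hsupV⟩ :=
    Cfsg.Agent.S0617.result _ _ hV' hHV hf hS1 hS3 hH1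
  -- the image of `W ⊓ V` in the holomorph
  have hWY : Nat.card ↥((W.subgroupOf V).map (SemidirectProduct.inl : ↥V →* Hol V)) ≤ 4 := by
    have e1 : Nat.card ↥((W.subgroupOf V).map (SemidirectProduct.inl : ↥V →* Hol V)) =
        Nat.card ↥(W.subgroupOf V) :=
      Nat.card_congr ((W.subgroupOf V).equivMapOfInjective _
        SemidirectProduct.inl_injective).symm.toEquiv
    rw [e1, ← hW]
    apply Nat.card_le_card_of_injective
      (fun a : ↥(W.subgroupOf V) => (⟨(a.1 : X), Subgroup.mem_subgroupOf.mp a.2⟩ : ↥W))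
    intro a b hab
    have h1 : ((a.1 : ↥V) : X) = ((b.1 : ↥V) : X) := by
      have h2 := congrArg (fun z : ↥W => (z : X)) hab
      exact h2
    exact Subtype.ext (Subtype.ext h1)
  have hcomm : ∀ v ∈ Vh V, psi V k * v * (psi V k)⁻¹ * v⁻¹ ∈
      (W.subgroupOf V).map (SemidirectProduct.inl : ↥V →* Hol V) := by
    rintro _ ⟨v, rfl⟩
    rw [psi_conj, ← map_inv, ← map_mul]
    refine Subgroup.mem_map_of_mem _ ?_
    rw [Subgroup.mem_subgroupOf]
    have h1 := hWk (v : X) v.2
    have e : ((MulAut.conjNormal k v * v⁻¹ : ↥V) : X) = k * (v : X) * k⁻¹ * (v : X)⁻¹ := by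
      rw [Subgroup.coe_mul, MulAut.conjNormal_apply, Subgroup.coe_inv]
    rw [e]
    exact h1
  obtain ⟨t, htH, htt, htx, hy⟩ := h (Vh V) ((thompsonSubgroup 2 X).map (psi V))
    (fun E : {E : Subgroup (Hol V) // ∃ A : Subgroup (Hol V),
      A ≤ (thompsonSubgroup 2 X).map (psi V) ∧ Cfsg.IsBestOffenderOn 2 (Vh V) A ∧
      ⁅Vh V, A⁆ ≠ ⊥ ∧ (∀ B : Subgroup (Hol V), B ≤ A → Cfsg.IsBestOffenderOn 2 (Vh V) B →
        ⁅Vh V, B⁆ ≠ ⊥ → B = A) ∧
      E = ⁅((Cfsg.pPrimeCore 2 ↥((thompsonSubgroup 2 X).map (psi V))).map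
        ((thompsonSubgroup 2 X).map (psi V)).subtype), A⁆ ⊔ A} => (E : Subgroup (Hol V)))
    hV' hHV hf (fun i => (hE i).1) (fun i => (hE i).2.1)
    (fun i => by
      have := (hE i).2.2
      norm_num at this
      exact this)
    hind hsup hindV hsupV (psi V k) hxH hxodd hx1 _ hWY hcomm
  obtain ⟨j, hj, rfl⟩ := htH
  refine ⟨j, hj, ?_, ?_, ?_⟩
  · rw [← psi_ker, MonoidHom.mem_ker, map_mul]
    exact htt
  · rw [← psi_ker, MonoidHom.mem_ker, map_mul, map_mul, map_mul, map_inv, htx]
    group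
  · intro n hn
    have hy1 : psi V n ∈ Subgroup.normalizer
        (((thompsonSubgroup 2 X).map (psi V) : Subgroup (Hol V)) : Set (Hol V)) :=
      hnorm ⟨n, rfl⟩
    have hy2 : psi V n ∈ Subgroup.normalizer ((Vh V : Subgroup (Hol V)) : Set (Hol V)) := by
      haveI := Vh_normal V
      rw [Subgroup.normalizer_eq_top]
      exact Subgroup.mem_top _
    have hy3 : psi V n * psi V k * (psi V n)⁻¹ = psi V k ∨
        psi V n * psi V k * (psi V n)⁻¹ = (psi V k)⁻¹ := by
      rcases hn with hn | hn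
      · left
        rw [← psi_ker, MonoidHom.mem_ker, map_mul, map_mul, map_mul, map_inv, map_inv] at hn
        exact mul_inv_eq_one.mp hn
      · right
        rw [← psi_ker, MonoidHom.mem_ker, map_mul, map_mul, map_mul, map_inv] at hn
        exact eq_inv_of_mul_eq_one_left hn
    obtain ⟨m, hm⟩ := hy (psi V n) hy1 hy2 hy3
    refine ⟨m * (orderOf k - 1), ?_⟩
    rw [← psi_ker, MonoidHom.mem_ker, map_mul, map_mul, map_mul, map_mul, map_inv, map_inv,
      map_pow, hm, ← pow_add]
    have ho : 1 ≤ orderOf k := orderOf_pos k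
    have e : m + m * (orderOf k - 1) = orderOf k * m := by
      obtain ⟨c, hc⟩ : ∃ c, orderOf k = c + 1 := ⟨orderOf k - 1, by omega⟩
      rw [hc]
      simp only [Nat.add_sub_cancel]
      ring
    rw [e, pow_mul, ← map_pow, pow_orderOf_eq_one, map_one, one_pow]

example (h : Cfsg.Agent.H14.Sp.StCore.{u}) : Cfsg.Agent.H14.Sp.StPure.{u} := pure h

end Cfsg.Agent.H14.Sp

#print axioms Cfsg.Agent.H14.Sp.pure
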