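import Cfsg.Agent.H14.Constrained
import Cfsg.Agent.H14.GReplace

set_option autoImplicit false
open Cfsg
open scoped commutatorElement

namespace Cfsg.Agent.H14

/-- Transfer of "the image of `A` lies in `O_p(N / C)`" along a surjection `ψ : N → N'`
mapping `C` onto `C'` with kernel inside `C`. -/
theorem transfer_pCore {N N' : Type*} [Group N] [Group N'] (p : ℕ) (ψ : N →* N')
    (hψ : Function.Surjective ψ) (C : Subgroup N) [C.Normal] (C' : Subgroup N') [C'.Normal]
    (hC : C.map ψ = C') (hker : ψ.ker ≤ C) (A : Subgroup N) :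
    A.map (QuotientGroup.mk' C) ≤ Cfsg.pCore p (N ⧸ C) ↔
      (A.map ψ).map (QuotientGroup.mk' C') ≤ Cfsg.pCore p (N' ⧸ C') := by
  have hle : C ≤ C'.comap ψ := by rw [← Subgroup.map_le_iff_le_comap, hC]
  have hφinj : Function.Injective (QuotientGroup.map C C' ψ hle) := by
    rw [injective_iff_map_eq_one]
    intro x hx
    induction x using QuotientGroup.induction_on with
    | H n =>
      rw [QuotientGroup.map_mk, QuotientGroup.eq_one_iff, ← hC] at hx
      obtain ⟨c, hc, hcn⟩ := hx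
      have h2 : c⁻¹ * n ∈ ψ.ker := by
        rw [MonoidHom.mem_ker, map_mul, map_inv, hcn, inv_mul_cancel]
      have h3 : n = c * (c⁻¹ * n) := by group
      rw [QuotientGroup.eq_one_iff, h3]
      exact mul_mem hc (hker h2)
  have hφsurj : Function.Surjective (QuotientGroup.map C C' ψ hle) := by
    intro y
    induction y using QuotientGroup.induction_on with
    | H n' =>
      obtain ⟨n, rfl⟩ := hψ n'
      exact ⟨(n : N ⧸ C), rfl⟩
  have hcore : (Cfsg.pCore p (N ⧸ C)).map (QuotientGroup.map C C' ψ hle) =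
      Cfsg.pCore p (N' ⧸ C') :=
    pCore_map_equiv p (MulEquiv.ofBijective (QuotientGroup.map C C' ψ hle) ⟨hφinj, hφsurj⟩)
  have hcomp : (A.map ψ).map (QuotientGroup.mk' C') =
      (A.map (QuotientGroup.mk' C)).map (QuotientGroup.map C C' ψ hle) := by
    rw [Subgroup.map_map, Subgroup.map_map]
    rfl
  rw [hcomp, ← hcore, Subgroup.map_le_map_iff_of_injective hφinj]

section Concrete

variable {G : Type*} [Group G]

/-- The map `N_G(P) → N_{G/O}(PO/O)`. -/
def normMap (O : Subgroup G) [O.Normal] (P : Subgroup G) :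
    ↥(Subgroup.normalizer (P : Set G)) →*
      ↥(Subgroup.normalizer ((P.map (QuotientGroup.mk' O) : Subgroup (G ⧸ O)) : Set (G ⧸ O))) :=
  ((QuotientGroup.mk' O).comp (Subgroup.normalizer (P : Set G)).subtype).codRestrict _
    (fun n => Subgroup.le_normalizer_map (QuotientGroup.mk' O) ⟨n.1, n.2, rfl⟩)

theorem normMap_coe (O : Subgroup G) [O.Normal] (P : Subgroup G)
    (n : ↥(Subgroup.normalizer (P : Set G))) :
    ((normMap O P n : ↥(Subgroup.normalizer ((P.map (QuotientGroup.mk' O) : Subgroup (G ⧸ O)) :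
      Set (G ⧸ O)))) : G ⧸ O) = QuotientGroup.mk' O (n : G) := rfl

variable [Finite G] {p : ℕ} [Fact p.Prime]

theorem normMap_surjective (O : Subgroup G) [O.Normal] (hO : (Nat.card O).Coprime p)
    (P : Subgroup G) (hP : IsPGroup p P) : Function.Surjective (normMap O P) := by
  rintro ⟨x, hx⟩
  obtain ⟨g, rfl⟩ := QuotientGroup.mk'_surjective O x
  obtain ⟨n, hn, hng⟩ := exists_mem_normalizer_of_mk_mem_normalizer hP hO g hx
  exact ⟨⟨n, hn⟩, Subtype.ext hng⟩

theorem normMap_map_centralizer (O : Subgroup G) [O.Normal] (hO : (Nat.card O).Coprime p)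
    (P : Subgroup G) (hP : IsPGroup p P) :
    ((Subgroup.centralizer (P : Set G)).subgroupOf (Subgroup.normalizer (P : Set G))).map
      (normMap O P) =
    (Subgroup.centralizer ((P.map (QuotientGroup.mk' O) : Subgroup (G ⧸ O)) : Set (G ⧸ O))).subgroupOf
      (Subgroup.normalizer ((P.map (QuotientGroup.mk' O) : Subgroup (G ⧸ O)) : Set (G ⧸ O))) := by
  ext ⟨x, hx⟩
  rw [Subgroup.mem_subgroupOf]
  constructor
  · rintro ⟨⟨c, hcN⟩, hc, hcx⟩
    have hcx' : QuotientGroup.mk' O c = x := congrArg Subtype.val hcx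
    show x ∈ Subgroup.centralizer _
    rw [← hcx', Subgroup.mem_centralizer_iff]
    rintro _ ⟨y, hy, rfl⟩
    have hc' : c ∈ Subgroup.centralizer (P : Set G) := hc
    rw [Subgroup.mem_centralizer_iff] at hc'
    rw [← map_mul, ← map_mul, hc' y hy]
  · intro hxc
    have hxc' : x ∈ Subgroup.centralizer
        ((P.map (QuotientGroup.mk' O) : Subgroup (G ⧸ O)) : Set (G ⧸ O)) := hxc
    obtain ⟨g, rfl⟩ := QuotientGroup.mk'_surjective O x
    obtain ⟨c, hc, hcg⟩ := exists_mem_centralizer_of_mk_mem_centralizer hP hO g hxc'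
    exact ⟨⟨c, Subgroup.centralizer_le_normalizer _ hc⟩, hc, Subtype.ext hcg⟩

theorem normMap_ker_le (O : Subgroup G) [O.Normal] (hO : (Nat.card O).Coprime p)
    (P : Subgroup G) (hP : IsPGroup p P) :
    (normMap O P).ker ≤
      (Subgroup.centralizer (P : Set G)).subgroupOf (Subgroup.normalizer (P : Set G)) := by
  rintro ⟨n, hn⟩ hker
  rw [MonoidHom.mem_ker] at hker
  have h1 : QuotientGroup.mk' O n = 1 := congrArg Subtype.val hker
  have hnO : n ∈ O := (QuotientGroup.eq_one_iff n).mp h1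
  rw [Subgroup.mem_subgroupOf]
  show n ∈ Subgroup.centralizer (P : Set G)
  rw [Subgroup.mem_centralizer_iff]
  intro x hx
  have hPO : P ⊓ O = ⊥ := pGroup_inf_coprime_eq_bot hP hO
  have h2 : ⁅n, x⁆ ∈ P ⊓ O := by
    rw [Subgroup.mem_inf]
    constructor
    · have e : ⁅n, x⁆ = (n * x * n⁻¹) * x⁻¹ := by simp only [commutatorElement_def]
      rw [e]
      exact mul_mem ((Subgroup.mem_normalizer_iff.mp hn x).mp hx) (inv_mem hx)
    · have e : ⁅n, x⁆ = n * (x * n⁻¹ * x⁻¹) := by simp only [commutatorElement_def]; group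
      rw [e]
      exact mul_mem hnO (‹O.Normal›.conj_mem _ (inv_mem hnO) x)
  rw [hPO, Subgroup.mem_bot, commutatorElement_eq_one_iff_commute] at h2
  exact h2.eq.symm

theorem normMap_map_subgroupOf (O : Subgroup G) [O.Normal] (P A : Subgroup G)
    (hA : A ≤ Subgroup.normalizer (P : Set G)) :
    (A.subgroupOf (Subgroup.normalizer (P : Set G))).map (normMap O P) =
      (A.map (QuotientGroup.mk' O)).subgroupOf
        (Subgroup.normalizer ((P.map (QuotientGroup.mk' O) : Subgroup (G ⧸ O)) : Set (G ⧸ O))) := by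
  ext ⟨x, hx⟩
  rw [Subgroup.mem_subgroupOf]
  constructor
  · rintro ⟨⟨a, haN⟩, ha, hax⟩
    have hax' : QuotientGroup.mk' O a = x := congrArg Subtype.val hax
    exact ⟨a, ha, hax'⟩
  · rintro ⟨a, ha, hax⟩
    exact ⟨⟨a, hA ha⟩, ha, Subtype.ext hax⟩

/-- The `p`-stability conclusion for `(A, P)` in `G` is equivalent to that for the images in
`G / O`, `O` a normal `p'`-subgroup. -/
theorem stab_iff_quotient (O : Subgroup G) [O.Normal] (hO : (Nat.card O).Coprime p)
    (P A : Subgroup G) (hP : IsPGroup p P) (hA : A ≤ Subgroup.normalizer (P : Set G)) :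
    (A.subgroupOf (Subgroup.normalizer (P : Set G))).map
        (QuotientGroup.mk' ((Subgroup.centralizer (P : Set G)).subgroupOf
          (Subgroup.normalizer (P : Set G)))) ≤ Cfsg.pCore p _ ↔
    ((A.map (QuotientGroup.mk' O)).subgroupOf
        (Subgroup.normalizer ((P.map (QuotientGroup.mk' O) : Subgroup (G ⧸ O)) : Set (G ⧸ O)))).map
        (QuotientGroup.mk' ((Subgroup.centralizer
          ((P.map (QuotientGroup.mk' O) : Subgroup (G ⧸ O)) : Set (G ⧸ O))).subgroupOf
          (Subgroup.normalizer ((P.map (QuotientGroup.mk' O) : Subgroup (G ⧸ O)) : Set (G ⧸ O))))) ≤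
      Cfsg.pCore p _ := by
  rw [transfer_pCore p (normMap O P) (normMap_surjective O hO P hP) _ _
    (normMap_map_centralizer O hO P hP) (normMap_ker_le O hO P hP), normMap_map_subgroupOf O P A hA]

theorem stab_iff_quotient' (O : Subgroup G) [O.Normal] (hO : (Nat.card O).Coprime p)
    (P A : Subgroup G) (P' A' : Subgroup (G ⧸ O)) (hP' : P.map (QuotientGroup.mk' O) = P')
    (hA' : A.map (QuotientGroup.mk' O) = A')
    (hP : IsPGroup p P) (hA : A ≤ Subgroup.normalizer (P : Set G)) :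
    (A.subgroupOf (Subgroup.normalizer (P : Set G))).map
        (QuotientGroup.mk' ((Subgroup.centralizer (P : Set G)).subgroupOf
          (Subgroup.normalizer (P : Set G)))) ≤ Cfsg.pCore p _ ↔
    (A'.subgroupOf (Subgroup.normalizer (P' : Set (G ⧸ O)))).map
        (QuotientGroup.mk' ((Subgroup.centralizer (P' : Set (G ⧸ O))).subgroupOf
          (Subgroup.normalizer (P' : Set (G ⧸ O))))) ≤ Cfsg.pCore p _ := by
  subst hP' hA'
  exact stab_iff_quotient O hO P A hP hA

/-- Every `p`-subgroup of `G / O` is the image of a `p`-subgroup of `G`. -/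
theorem exists_pGroup_map_eq (O : Subgroup G) [O.Normal] (X : Subgroup (G ⧸ O))
    (hX : IsPGroup p X) : ∃ A : Subgroup G, IsPGroup p A ∧ A.map (QuotientGroup.mk' O) = X := by
  let f : ↥(X.comap (QuotientGroup.mk' O)) →* ↥X := (QuotientGroup.mk' O).subgroupComap X
  have hsurj : Function.Surjective f :=
    MonoidHom.subgroupComap_surjective_of_surjective _ X (QuotientGroup.mk'_surjective _)
  let P : Sylow p ↥(X.comap (QuotientGroup.mk' O)) := default
  let P' : Sylow p ↥X := Sylow.mapSurjective hsurj P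
  have hP' : (P' : Subgroup ↥X) = ⊤ := sylow_eq_top_of_isPGroup hX P'
  have hP'' : (P : Subgroup _).map f = ⊤ := hP'
  have hcomp : (QuotientGroup.mk' O).comp (X.comap (QuotientGroup.mk' O)).subtype =
      X.subtype.comp f := by
    ext x; rfl
  refine ⟨(P : Subgroup _).map (X.comap (QuotientGroup.mk' O)).subtype, P.2.map _, ?_⟩
  rw [Subgroup.map_map, hcomp, ← Subgroup.map_map, hP'', ← MonoidHom.range_eq_map,
    Subgroup.range_subtype]

/-- `p`-stability passes to and from the quotient by `O_{p'}(G)` when `O_p(G) ≠ 1`. -/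
theorem isPStable_iff_quotient (hO : Cfsg.pCore p G ≠ ⊥) :
    Cfsg.IsPStable p G ↔ Cfsg.IsPStable p (G ⧸ Cfsg.pPrimeCore p G) := by
  have hOc : (Nat.card (Cfsg.pPrimeCore p G)).Coprime p := pPrimeCore_coprime p G
  have hbot : Cfsg.pPrimeCore p (G ⧸ Cfsg.pPrimeCore p G) = ⊥ := pPrimeCore_quotient_eq_bot p G
  have hpp : Cfsg.pPrimePCore p (G ⧸ Cfsg.pPrimeCore p G) = Cfsg.pCore p (G ⧸ Cfsg.pPrimeCore p G) :=
    pPrimePCore_eq_pCore hbot
  have hsurj := QuotientGroup.mk'_surjective (Cfsg.pPrimeCore p G)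
  constructor
  · rintro ⟨hodd, -, hst⟩
    refine ⟨hodd, ?_, ?_⟩
    · intro hb
      apply hO
      have h1 : (Cfsg.pCore p G).map (QuotientGroup.mk' (Cfsg.pPrimeCore p G)) ≤
          Cfsg.pCore p (G ⧸ Cfsg.pPrimeCore p G) :=
        le_pCore (Subgroup.Normal.map (pCore_normal p G) _ hsurj) ((pCore_isPGroup p G).map _)
      rw [hb, le_bot_iff, Subgroup.map_eq_bot_iff, QuotientGroup.ker_mk'] at h1
      have h2 : Cfsg.pCore p G ⊓ Cfsg.pPrimeCore p G = ⊥ :=
        pGroup_inf_coprime_eq_bot (pCore_isPGroup p G) hOc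
      rw [eq_bot_iff, ← h2]
      exact le_inf le_rfl h1
    · intro A' P' hA' hP' hconj hle hn hq
      have hP'n : P'.Normal := by
        rw [hbot, bot_sup_eq] at hn; exact hn
      obtain ⟨A, hA, hAmap⟩ := exists_pGroup_map_eq (Cfsg.pPrimeCore p G) A' hA'
      obtain ⟨S, hAS⟩ := hA.exists_le_sylow
      obtain ⟨P, hPdef⟩ : ∃ P : Subgroup G,
          P = (S : Subgroup G) ⊓ P'.comap (QuotientGroup.mk' (Cfsg.pPrimeCore p G)) := ⟨_, rfl⟩
      have hPS : P ≤ S := by rw [hPdef]; exact inf_le_left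
      have hP : IsPGroup p P := S.2.to_le hPS
      have hPmap : P.map (QuotientGroup.mk' (Cfsg.pPrimeCore p G)) = P' := by
        apply le_antisymm
        · rw [Subgroup.map_le_iff_le_comap, hPdef]; exact inf_le_right
        · intro y hy
          have hle2 := hP'.le_sylow_of_normal (Sylow.mapSurjective hsurj S)
          have hy' : y ∈ (S : Subgroup G).map (QuotientGroup.mk' (Cfsg.pPrimeCore p G)) := by
            rw [← Sylow.coe_mapSurjective hsurj S]; exact hle2 hy
          obtain ⟨s, hs, rfl⟩ := hy'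
          refine ⟨s, ?_, rfl⟩
          rw [hPdef]
          exact Subgroup.mem_inf.mpr ⟨hs, hy⟩
      have hAN : A ≤ Subgroup.normalizer (P : Set G) := by
        intro a ha
        apply mem_normalizer_of_conj_mem
        intro x hx
        rw [hPdef] at hx ⊢
        obtain ⟨hx1, hx2⟩ := Subgroup.mem_inf.mp hx
        refine Subgroup.mem_inf.mpr ⟨mul_mem (mul_mem (hAS ha) hx1) (inv_mem (hAS ha)), ?_⟩
        rw [Subgroup.mem_comap, map_mul, map_mul, map_inv]
        exact hP'n.conj_mem _ hx2 _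
      have hconj' : ∀ a ∈ A, ∀ x ∈ P, a * x * a⁻¹ ∈ P :=
        fun a ha x hx => (Subgroup.mem_normalizer_iff.mp (hAN ha) x).mp hx
      have hle' : P ≤ Cfsg.pPrimePCore p G := by
        unfold Cfsg.pPrimePCore
        rw [← Subgroup.map_le_iff_le_comap, hPmap, ← hpp]; exact hle
      have hn' : (Cfsg.pPrimeCore p G ⊔ P).Normal := by
        have h5 : Cfsg.pPrimeCore p G ⊔ P =
            P'.comap (QuotientGroup.mk' (Cfsg.pPrimeCore p G)) := by
          rw [← hPmap, Subgroup.comap_map_eq, QuotientGroup.ker_mk', sup_comm]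
        rw [h5]; exact hP'n.comap _
      have hq' : ⁅⁅P, A⁆, A⁆ = ⊥ := by
        have h1 : ⁅⁅P, A⁆, A⁆ ≤ Cfsg.pPrimeCore p G := by
          rw [← QuotientGroup.ker_mk' (Cfsg.pPrimeCore p G), ← Subgroup.map_eq_bot_iff,
            Subgroup.map_commutator, Subgroup.map_commutator, hPmap, hAmap]
          exact hq
        have h2 : ⁅⁅P, A⁆, A⁆ ≤ P := by
          have h3 : ⁅P, A⁆ ≤ P := Subgroup.le_normalizer_iff_commutator_le_left.mp hAN
          exact (Subgroup.commutator_mono h3 le_rfl).trans h3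
        have h4 := pGroup_inf_coprime_eq_bot hP hOc
        rw [eq_bot_iff, ← h4]; exact le_inf h2 h1
      have key := hst A P hA hP hconj' hle' hn' hq'
      exact (stab_iff_quotient' (Cfsg.pPrimeCore p G) hOc P A P' A' hPmap hAmap hP hAN).mp key
  · rintro ⟨hodd, -, hst⟩
    refine ⟨hodd, hO, ?_⟩
    intro A P hA hP hconj hle hn hq
    have hAN : A ≤ Subgroup.normalizer (P : Set G) :=
      fun a ha => mem_normalizer_of_conj_mem P a (hconj a ha)
    have hconj' : ∀ a ∈ A.map (QuotientGroup.mk' (Cfsg.pPrimeCore p G)),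
        ∀ x ∈ P.map (QuotientGroup.mk' (Cfsg.pPrimeCore p G)),
          a * x * a⁻¹ ∈ P.map (QuotientGroup.mk' (Cfsg.pPrimeCore p G)) := by
      rintro _ ⟨a, ha, rfl⟩ _ ⟨x, hx, rfl⟩
      exact ⟨a * x * a⁻¹, hconj a ha x hx, by simp⟩
    have hle' : P.map (QuotientGroup.mk' (Cfsg.pPrimeCore p G)) ≤
        Cfsg.pPrimePCore p (G ⧸ Cfsg.pPrimeCore p G) := by
      rw [hpp, Subgroup.map_le_iff_le_comap]; exact hle
    have hn' : (Cfsg.pPrimeCore p (G ⧸ Cfsg.pPrimeCore p G) ⊔
        P.map (QuotientGroup.mk' (Cfsg.pPrimeCore p G))).Normal := by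
      rw [hbot, bot_sup_eq]
      have h5 : P.map (QuotientGroup.mk' (Cfsg.pPrimeCore p G)) =
          (Cfsg.pPrimeCore p G ⊔ P).map (QuotientGroup.mk' (Cfsg.pPrimeCore p G)) := by
        rw [Subgroup.map_sup, QuotientGroup.map_mk'_self, bot_sup_eq]
      rw [h5]; exact Subgroup.Normal.map hn _ hsurj
    have hq' : ⁅⁅P.map (QuotientGroup.mk' (Cfsg.pPrimeCore p G)),
        A.map (QuotientGroup.mk' (Cfsg.pPrimeCore p G))⁆,
        A.map (QuotientGroup.mk' (Cfsg.pPrimeCore p G))⁆ = ⊥ := by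
      rw [← Subgroup.map_commutator, ← Subgroup.map_commutator, hq, Subgroup.map_bot]
    have key := hst _ _ (hA.map _) (hP.map _) hconj' hle' hn' hq'
    exact (stab_iff_quotient (Cfsg.pPrimeCore p G) hOc P A hP hAN).mpr key

end Concrete

end Cfsg.Agent.H14
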