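/-
helper14 library for helper99's S5965 (piece EXCD): a diagonal matrix of `r`-th roots of unity
whose multiset of entries is stable under inversion is conjugate to a matrix over the subfield
`F₀` when `r ∣ |F₀| + 1`.
-/
import Mathlib
import Cfsg.Agent.H18.SubSYM

set_option autoImplicit false

open scoped MatrixGroups

namespace Cfsg.Agent.H14.Sub

variable {F : Type*} [Field F] [Fintype F]

/-! ### A canonical pairing of the indices -/

open Classical in
/-- The fibre of `d` over `ν`. -/
noncomputable def fib {n : ℕ} (d : Fin n → F) (ν : F) : Finset (Fin n) :=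
  Finset.univ.filter (fun i => d i = ν)

omit [Fintype F] in
theorem mem_fib {n : ℕ} (d : Fin n → F) (ν : F) (i : Fin n) : i ∈ fib d ν ↔ d i = ν := by
  classical
  simp [fib]

/-- The element of the fibre over `μ` of the same rank as `i` in the fibre over `ν`. -/
noncomputable def pairFun {n : ℕ} (d : Fin n → F) (ν μ : F)
    (h : (fib d ν).card = (fib d μ).card) (i : Fin n) (hi : d i = ν) : Fin n :=
  (((fib d μ).orderIsoOfFin rfl)
    (Fin.cast h (((fib d ν).orderIsoOfFin rfl).symm ⟨i, (mem_fib d ν i).2 hi⟩)) : Fin n)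

omit [Fintype F] in
theorem d_pairFun {n : ℕ} (d : Fin n → F) (ν μ : F)
    (h : (fib d ν).card = (fib d μ).card) (i : Fin n) (hi : d i = ν) :
    d (pairFun d ν μ h i hi) = μ :=
  (mem_fib d μ _).1 (((fib d μ).orderIsoOfFin rfl)
    (Fin.cast h (((fib d ν).orderIsoOfFin rfl).symm ⟨i, (mem_fib d ν i).2 hi⟩))).2

omit [Fintype F] in
theorem pairFun_pairFun {n : ℕ} (d : Fin n → F) (ν μ : F)
    (h : (fib d ν).card = (fib d μ).card) (h' : (fib d μ).card = (fib d ν).card)
    (i : Fin n) (hi : d i = ν) (hj : d (pairFun d ν μ h i hi) = μ) :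
    pairFun d μ ν h' (pairFun d ν μ h i hi) hj = i := by
  simp only [pairFun, Subtype.coe_eta, OrderIso.symm_apply_apply, Fin.cast_cast,
    Fin.cast_eq_self, OrderIso.apply_symm_apply]

omit [Fintype F] in
theorem pairFun_self {n : ℕ} (d : Fin n → F) (ν : F)
    (h : (fib d ν).card = (fib d ν).card) (i : Fin n) (hi : d i = ν) :
    pairFun d ν ν h i hi = i := by
  simp only [pairFun, Fin.cast_eq_self, OrderIso.apply_symm_apply]

omit [Fintype F] in
theorem pairFun_congr {n : ℕ} (d : Fin n → F) {ν ν' μ μ' : F} (hν : ν = ν') (hμ : μ = μ')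
    (h : (fib d ν).card = (fib d μ).card) (h' : (fib d ν').card = (fib d μ').card)
    (i : Fin n) (hi : d i = ν) (hi' : d i = ν') :
    pairFun d ν μ h i hi = pairFun d ν' μ' h' i hi' := by
  subst hν; subst hμ; rfl

omit [Fintype F] in
theorem exists_pairing {n : ℕ} (d : Fin n → F) (r : ℕ) (hr : Odd r) (hd : ∀ i, d i ^ r = 1)
    (hsym : ∀ ν : F, Nat.card {i // d i = ν} = Nat.card {i // d i = ν⁻¹}) :
    ∃ π : Fin n → Fin n, (∀ i, π (π i) = i) ∧ (∀ i, d (π i) = (d i)⁻¹) ∧
      (∀ i, π i = i ↔ d i = 1) := by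
  classical
  have hc : ∀ ν : F, (fib d ν).card = (fib d ν⁻¹).card := by
    intro ν
    have := hsym ν
    rw [Nat.card_eq_fintype_card, Nat.card_eq_fintype_card, Fintype.card_subtype,
      Fintype.card_subtype] at this
    convert this using 2 <;> (unfold fib; congr)
  have hodd : ∀ i, d i = (d i)⁻¹ → d i = 1 := by
    intro i hi
    obtain ⟨m, hm⟩ := hr
    have h1 := hd i
    have h0 : d i ≠ 0 := by
      intro h0
      rw [h0, zero_pow (by omega)] at h1
      exact zero_ne_one h1
    have h2 : d i * d i = 1 := by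
      nth_rewrite 2 [hi]
      exact mul_inv_cancel₀ h0
    rw [hm, pow_succ, pow_mul, pow_two, h2, one_pow, one_mul] at h1
    exact h1
  refine ⟨fun i => pairFun d (d i) (d i)⁻¹ (hc (d i)) i rfl, fun i => ?_, fun i => ?_,
    fun i => ?_⟩
  · have h1 : d (pairFun d (d i) (d i)⁻¹ (hc (d i)) i rfl) = (d i)⁻¹ := d_pairFun d _ _ _ i rfl
    show pairFun d (d (pairFun d (d i) (d i)⁻¹ (hc (d i)) i rfl))
      (d (pairFun d (d i) (d i)⁻¹ (hc (d i)) i rfl))⁻¹ _
      (pairFun d (d i) (d i)⁻¹ (hc (d i)) i rfl) rfl = i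
    rw [pairFun_congr d h1 (by rw [h1, inv_inv]) _ ((hc (d i)).symm) _ rfl h1]
    exact pairFun_pairFun d _ _ _ _ i rfl h1
  · exact d_pairFun d _ _ _ i rfl
  · constructor
    · intro h
      have h1 : d (pairFun d (d i) (d i)⁻¹ (hc (d i)) i rfl) = (d i)⁻¹ := d_pairFun d _ _ _ i rfl
      have h2 : pairFun d (d i) (d i)⁻¹ (hc (d i)) i rfl = i := h
      rw [h2] at h1
      exact hodd i h1
    · intro h
      have e : (d i)⁻¹ = d i := by rw [h, inv_one]
      show pairFun d (d i) (d i)⁻¹ (hc (d i)) i rfl = i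
      rw [pairFun_congr d rfl e (hc (d i)) rfl i rfl rfl]
      exact pairFun_self d _ _ i rfl

/-! ### Membership in the subfield (copied from helper18's `mem_subfield_of_pow_card`) -/

theorem mem_subfield_of_pow_card' (K : Subfield F) (x : F) (hx : x ^ Nat.card K = x) :
    x ∈ K := by
  classical
  haveI : Fintype K := Fintype.ofFinite K
  obtain ⟨k, hk⟩ : ∃ k, k = Nat.card K := ⟨_, rfl⟩
  rw [← hk] at hx
  have hk1 : 1 < k := by rw [hk, Nat.card_eq_fintype_card]; exact Fintype.one_lt_card
  have hP : (Polynomial.X ^ k - Polynomial.X : Polynomial F) ≠ 0 :=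
    FiniteField.X_pow_card_sub_X_ne_zero F hk1
  have hdeg : (Polynomial.X ^ k - Polynomial.X : Polynomial F).natDegree = k :=
    FiniteField.X_pow_card_sub_X_natDegree_eq F hk1
  have hroots : (Polynomial.X ^ k - Polynomial.X : Polynomial F).roots.toFinset.card ≤ k :=
    (Multiset.toFinset_card_le _).trans ((Polynomial.card_roots' _).trans_eq hdeg)
  have hsub : (Finset.univ.image (fun c : K => (c : F))) ⊆
      (Polynomial.X ^ k - Polynomial.X : Polynomial F).roots.toFinset := by
    intro y hy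
    obtain ⟨c, -, rfl⟩ := Finset.mem_image.1 hy
    rw [Multiset.mem_toFinset, Polynomial.mem_roots hP, Polynomial.IsRoot, Polynomial.eval_sub,
      Polynomial.eval_pow, Polynomial.eval_X, sub_eq_zero]
    have h := FiniteField.pow_card c
    rw [← Nat.card_eq_fintype_card, ← hk] at h
    have := congrArg Subtype.val h
    simpa using this
  have hcard : (Finset.univ.image (fun c : K => (c : F))).card = k := by
    rw [Finset.card_image_of_injective _ Subtype.val_injective, Finset.card_univ,
      ← Nat.card_eq_fintype_card, hk]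
  have heq := Finset.eq_of_subset_of_card_le hsub (by rw [hcard]; exact hroots)
  have hx' : x ∈ (Polynomial.X ^ k - Polynomial.X : Polynomial F).roots.toFinset := by
    rw [Multiset.mem_toFinset, Polynomial.mem_roots hP, Polynomial.IsRoot, Polynomial.eval_sub,
      Polynomial.eval_pow, Polynomial.eval_X, sub_eq_zero]
    exact hx
  rw [← heq] at hx'
  obtain ⟨c, -, rfl⟩ := Finset.mem_image.1 hx'
  exact c.2

/-! ### The matrices -/

/-- Row coefficients of `Q` and `Y`. -/
def cα {n : ℕ} (d : Fin n → F) (π : Fin n → Fin n) (i : Fin n) : F :=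
  if i ≤ π i then 1 else d i

def cβ {n : ℕ} (d : Fin n → F) (π : Fin n → Fin n) (i : Fin n) : F :=
  if π i = i then 0 else if i < π i then d i else 1

def cγ {n : ℕ} (d : Fin n → F) (π : Fin n → Fin n) (i : Fin n) : F :=
  if π i = i then 1 else if i < π i then 0 else d i + d (π i)

def cδ {n : ℕ} (F : Type*) [Field F] (π : Fin n → Fin n) (i : Fin n) : F :=
  if π i = i then 0 else if i < π i then -1 else 1

def matQ {n : ℕ} (d : Fin n → F) (π : Fin n → Fin n) : Matrix (Fin n) (Fin n) F :=
  fun i j => (if j = i then cα d π i else 0) + (if j = π i then cβ d π i else 0)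

def matY {n : ℕ} (d : Fin n → F) (π : Fin n → Fin n) : Matrix (Fin n) (Fin n) F :=
  fun i j => (if j = i then cγ d π i else 0) + (if j = π i then cδ F π i else 0)

omit [Fintype F] in
theorem matQ_mulVec {n : ℕ} (d : Fin n → F) (π : Fin n → Fin n) (c : Fin n → F) (i : Fin n) :
    (matQ d π).mulVec c i = cα d π i * c i + cβ d π i * c (π i) := by
  simp only [Matrix.mulVec, dotProduct, matQ, add_mul, ite_mul, zero_mul, Finset.sum_add_distrib,
    Finset.sum_ite_eq', Finset.mem_univ, if_true]

omit [Fintype F] in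
theorem matQ_mul {n : ℕ} (d : Fin n → F) (π : Fin n → Fin n) (Y : Matrix (Fin n) (Fin n) F)
    (i j : Fin n) :
    (matQ d π * Y) i j = cα d π i * Y i j + cβ d π i * Y (π i) j := by
  simp only [Matrix.mul_apply, matQ, add_mul, ite_mul, zero_mul, Finset.sum_add_distrib,
    Finset.sum_ite_eq', Finset.mem_univ, if_true]

omit [Fintype F] in
theorem matQ_isUnit {n : ℕ} (d : Fin n → F) (π : Fin n → Fin n) (hππ : ∀ i, π (π i) = i)
    (hne : ∀ i, π i ≠ i → d i ≠ d (π i)) : IsUnit (matQ d π).det := by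
  rw [← Matrix.isUnit_iff_isUnit_det, ← Matrix.mulVec_injective_iff_isUnit]
  intro c₁ c₂ h12
  have h0 : (matQ d π).mulVec (c₁ - c₂) = 0 := by rw [Matrix.mulVec_sub, h12, sub_self]
  have hrow : ∀ i, cα d π i * (c₁ - c₂) i + cβ d π i * (c₁ - c₂) (π i) = 0 := by
    intro i
    rw [← matQ_mulVec, h0]
    rfl
  have key : ∀ i, i < π i → (c₁ - c₂) i = 0 ∧ (c₁ - c₂) (π i) = 0 := by
    intro i hi
    have e1 := hrow i
    have e2 := hrow (π i)
    have hα1 : cα d π i = 1 := by simp [cα, hi.le]
    have hβ1 : cβ d π i = d i := by simp [cβ, hi.ne', hi]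
    have hα2 : cα d π (π i) = d (π i) := by
      simp only [cα, hππ]
      rw [if_neg (not_le.2 hi)]
    have hβ2 : cβ d π (π i) = 1 := by
      simp only [cβ, hππ]
      rw [if_neg hi.ne, if_neg (not_lt.2 hi.le)]
    rw [hα1, hβ1, one_mul] at e1
    rw [hα2, hβ2, hππ, one_mul] at e2
    have e3 : (d i - d (π i)) * (c₁ - c₂) (π i) = 0 := by linear_combination e1 - e2
    have h4 : (c₁ - c₂) (π i) = 0 := by
      rcases mul_eq_zero.1 e3 with h5 | h5
      · exact absurd (sub_eq_zero.1 h5) (hne i hi.ne')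
      · exact h5
    rw [h4, mul_zero, add_zero] at e1
    exact ⟨e1, h4⟩
  have hall : ∀ i, (c₁ - c₂) i = 0 := by
    intro i
    rcases lt_trichotomy (π i) i with hlt | heq | hgt
    · have := (key (π i) (by rw [hππ]; exact hlt)).2
      rwa [hππ] at this
    · have e1 := hrow i
      have hα1 : cα d π i = 1 := by simp [cα, heq]
      have hβ1 : cβ d π i = 0 := by simp [cβ, heq]
      rw [hα1, hβ1, one_mul, zero_mul, add_zero] at e1
      exact e1
    · exact (key i hgt).1
  funext i
  have := hall i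
  rw [Pi.sub_apply, sub_eq_zero] at this
  exact this

omit [Fintype F] in
theorem diag_mul_matQ {n : ℕ} (d : Fin n → F) (π : Fin n → Fin n) (hππ : ∀ i, π (π i) = i)
    (hπd : ∀ i, d (π i) = (d i)⁻¹) (hπfix : ∀ i, π i = i → d i = 1) (hd0 : ∀ i, d i ≠ 0) :
    Matrix.diagonal d * matQ d π = matQ d π * matY d π := by
  ext i j
  rw [Matrix.diagonal_mul, matQ_mul]
  have hdd : d i * d (π i) = 1 := by rw [hπd, mul_inv_cancel₀ (hd0 i)]
  rcases lt_trichotomy (π i) i with hlt | heq | hgt
  · -- `π i < i`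
    have hα : cα d π i = d i := by simp only [cα]; rw [if_neg (not_le.2 hlt)]
    have hβ : cβ d π i = 1 := by
      simp only [cβ]; rw [if_neg hlt.ne, if_neg (not_lt.2 hlt.le)]
    have hγ : cγ d π i = d i + d (π i) := by
      simp only [cγ]; rw [if_neg hlt.ne, if_neg (not_lt.2 hlt.le)]
    have hδ : cδ F π i = 1 := by
      simp only [cδ]; rw [if_neg hlt.ne, if_neg (not_lt.2 hlt.le)]
    have hγ' : cγ d π (π i) = 0 := by
      simp only [cγ, hππ]; rw [if_neg hlt.ne', if_pos hlt]
    have hδ' : cδ F π (π i) = -1 := by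
      simp only [cδ, hππ]; rw [if_neg hlt.ne', if_pos hlt]
    simp only [matQ, matY, hα, hβ, hγ, hδ, hγ', hδ', hππ]
    by_cases hj : j = i
    · subst hj
      simp only [eq_self_iff_true, if_true, if_neg hlt.ne']
      linear_combination (-1 : F) * hdd
    · by_cases hj' : j = π i
      · subst hj'
        simp only [eq_self_iff_true, if_true, if_neg hj]
        ring
      · simp only [if_neg hj, if_neg hj']
        ring
  · -- `π i = i`
    have hα : cα d π i = 1 := by simp [cα, heq]
    have hβ : cβ d π i = 0 := by simp [cβ, heq]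
    have hγ : cγ d π i = 1 := by simp [cγ, heq]
    have hδ : cδ F π i = 0 := by simp [cδ, heq]
    have hdi : d i = 1 := hπfix i heq
    simp only [matQ, matY, hα, hβ, hγ, hδ, heq, hdi]
    by_cases hj : j = i
    · simp only [if_pos hj]; ring
    · simp only [if_neg hj]; ring
  · -- `i < π i`
    have hα : cα d π i = 1 := by simp [cα, hgt.le]
    have hβ : cβ d π i = d i := by simp [cβ, hgt.ne', hgt]
    have hγ : cγ d π i = 0 := by simp [cγ, hgt.ne', hgt]
    have hδ : cδ F π i = -1 := by simp [cδ, hgt.ne', hgt]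
    have hγ' : cγ d π (π i) = d (π i) + d i := by
      simp only [cγ, hππ]; rw [if_neg hgt.ne, if_neg (not_lt.2 hgt.le)]
    have hδ' : cδ F π (π i) = 1 := by
      simp only [cδ, hππ]; rw [if_neg hgt.ne, if_neg (not_lt.2 hgt.le)]
    simp only [matQ, matY, hα, hβ, hγ, hδ, hγ', hδ', hππ]
    by_cases hj : j = i
    · subst hj
      simp only [eq_self_iff_true, if_true, if_neg hgt.ne]
      ring
    · by_cases hj' : j = π i
      · subst hj'
        simp only [eq_self_iff_true, if_true, if_neg hj]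
        linear_combination (-1 : F) * hdd
      · simp only [if_neg hj, if_neg hj']
        ring

theorem exists_rational_form_of_symm (F₀ : Subfield F) (n r : ℕ) (hr : r.Prime) (hr2 : r ≠ 2)
    (hrq : r ∣ Nat.card ↥F₀ + 1) (d : Fin n → F) (hd : ∀ i, d i ^ r = 1)
    (hsym : ∀ ν : F, Nat.card {i // d i = ν} = Nat.card {i // d i = ν⁻¹}) :
    ∃ (Q : Matrix (Fin n) (Fin n) F) (Y₀ : Matrix (Fin n) (Fin n) ↥F₀), IsUnit Q.det ∧
      Matrix.diagonal d * Q = Q * Y₀.map F₀.subtype := by
  classical
  obtain ⟨π, hππ, hπd, hπfix⟩ := exists_pairing d r (hr.odd_of_ne_two hr2) hd hsym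
  obtain ⟨σ, hσ⟩ := Cfsg.Agent.H18.Sub.exists_frob F₀
  have hd0 : ∀ i, d i ≠ 0 := by
    intro i h0
    have h1 := hd i
    rw [h0, zero_pow hr.pos.ne'] at h1
    exact zero_ne_one h1
  have hdq : ∀ i, d i ^ Nat.card ↥F₀ = (d i)⁻¹ := by
    intro i
    obtain ⟨m, hm⟩ := hrq
    have h1 : d i ^ (Nat.card ↥F₀ + 1) = 1 := by rw [hm, pow_mul, hd i, one_pow]
    rw [pow_succ] at h1
    exact eq_inv_of_mul_eq_one_left h1
  have ht : ∀ i, d i + d (π i) ∈ F₀ := by
    intro i
    apply mem_subfield_of_pow_card'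
    rw [← hσ, map_add, hσ, hσ, hdq, hdq, hπd, inv_inv, add_comm]
  have hmem : ∀ i j, matY d π i j ∈ F₀ := by
    intro i j
    unfold matY
    refine F₀.add_mem ?_ ?_
    · split_ifs
      · unfold cγ
        split_ifs
        · exact F₀.one_mem
        · exact F₀.zero_mem
        · exact ht i
      · exact F₀.zero_mem
    · split_ifs
      · unfold cδ
        split_ifs
        · exact F₀.zero_mem
        · exact F₀.neg_mem F₀.one_mem
        · exact F₀.one_mem
      · exact F₀.zero_mem
  have hne : ∀ i, π i ≠ i → d i ≠ d (π i) := by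
    intro i hi h1
    rw [hπd] at h1
    -- `d i = (d i)⁻¹` forces `d i = 1`
    obtain ⟨m, hm⟩ := hr.odd_of_ne_two hr2
    have h2 : d i * d i = 1 := by
      nth_rewrite 2 [h1]
      exact mul_inv_cancel₀ (hd0 i)
    have h3 := hd i
    rw [hm, pow_succ, pow_mul, pow_two, h2, one_pow, one_mul] at h3
    exact hi ((hπfix i).2 h3)
  refine ⟨matQ d π, fun i j => ⟨matY d π i j, hmem i j⟩, matQ_isUnit d π hππ hne, ?_⟩
  have hY : (Matrix.map (fun i j => (⟨matY d π i j, hmem i j⟩ : ↥F₀)) F₀.subtype) = matY d π := by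
    ext i j
    rfl
  rw [hY]
  exact diag_mul_matQ d π hππ hπd (fun i hi => (hπfix i).1 hi) hd0

end Cfsg.Agent.H14.Sub
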