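/-
helper14 library for helper99's S5965 (piece IDX2): pure arithmetic on the orders of `q₀` and
`q₀ ^ k` modulo `r` from an inequality of `r`-adic valuations of the orders of `GL_n`.
-/
import Mathlib

set_option autoImplicit false

open scoped MatrixGroups

namespace Cfsg.Agent.H14.Sub

theorem padicValNat_prod' {ι : Type*} (r : ℕ) [Fact r.Prime] (s : Finset ι) (f : ι → ℕ)
    (hf : ∀ i ∈ s, f i ≠ 0) :
    padicValNat r (∏ i ∈ s, f i) = ∑ i ∈ s, padicValNat r (f i) := by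
  classical
  induction s using Finset.induction_on with
  | empty => simp
  | insert a s ha ih =>
    rw [Finset.prod_insert ha, Finset.sum_insert ha,
      padicValNat.mul (hf a (Finset.mem_insert_self a s))
        (Finset.prod_ne_zero_iff.2 (fun i hi => hf i (Finset.mem_insert_of_mem hi))),
      ih (fun i hi => hf i (Finset.mem_insert_of_mem hi))]

theorem factor_ne_zero (Q n i : ℕ) (hQ : 1 < Q) (hi : i < n) : Q ^ n - Q ^ i ≠ 0 := by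
  have : Q ^ i < Q ^ n := Nat.pow_lt_pow_right hQ hi
  omega

theorem padicValNat_factor (r Q n i : ℕ) [Fact r.Prime] (hQ : 1 < Q) (hrQ : ¬ r ∣ Q)
    (hi : i < n) : padicValNat r (Q ^ n - Q ^ i) = padicValNat r (Q ^ (n - i) - 1) := by
  have h1 : Q ^ n - Q ^ i = Q ^ i * (Q ^ (n - i) - 1) := by
    rw [Nat.mul_sub, mul_one, ← pow_add]
    congr 2
    omega
  have h2 : Q ^ (n - i) - 1 ≠ 0 := by
    have : 1 < Q ^ (n - i) := Nat.one_lt_pow (by omega) hQ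
    omega
  rw [h1, padicValNat.mul (pow_ne_zero _ (by omega)) h2, padicValNat.pow,
    padicValNat.eq_zero_of_not_dvd hrQ, mul_zero, zero_add]

theorem dvd_sub_one_iff (r m : ℕ) (hm : 1 ≤ m) : r ∣ m - 1 ↔ (m : ZMod r) = 1 := by
  rw [← Nat.modEq_iff_dvd' hm, ← ZMod.natCast_eq_natCast_iff, Nat.cast_one, eq_comm]

theorem order_facts_arith (q₀ k n r : ℕ) (hq₀ : 1 < q₀) (hk : k.Prime) (hr : r.Prime)
    (hr2 : r ≠ 2) (hrq : ¬ r ∣ q₀)
    (h : padicValNat r (∏ i : Fin n, (q₀ ^ n - q₀ ^ (i : ℕ)))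
      < padicValNat r (∏ i : Fin n, ((q₀ ^ k) ^ n - (q₀ ^ k) ^ (i : ℕ)))) :
    orderOf ((q₀ ^ k : ℕ) : ZMod r) ≤ n ∧
    (r ≠ k → orderOf (q₀ : ZMod r) = k * orderOf ((q₀ ^ k : ℕ) : ZMod r)) := by
  haveI : Fact r.Prime := ⟨hr⟩
  have hQ : 1 < q₀ ^ k := Nat.one_lt_pow hk.pos.ne' hq₀
  have hrQ : ¬ r ∣ q₀ ^ k := fun hd => hrq (hr.dvd_of_dvd_pow hd)
  have e1 : ∀ Q : ℕ, 1 < Q → ¬ r ∣ Q →
      padicValNat r (∏ i : Fin n, (Q ^ n - Q ^ (i : ℕ)))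
        = ∑ i : Fin n, padicValNat r (Q ^ (n - (i : ℕ)) - 1) := by
    intro Q hQ1 hrQ1
    rw [padicValNat_prod' r Finset.univ (fun i : Fin n => Q ^ n - Q ^ (i : ℕ))
      (fun i _ => factor_ne_zero Q n (i : ℕ) hQ1 i.2)]
    exact Finset.sum_congr rfl (fun i _ => padicValNat_factor r Q n (i : ℕ) hQ1 hrQ1 i.2)
  rw [e1 q₀ hq₀ hrq, e1 (q₀ ^ k) hQ hrQ] at h
  obtain ⟨i, -, hi⟩ := Finset.exists_lt_of_sum_lt h
  have hj1 : 1 ≤ n - (i : ℕ) := by have := i.2; omega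
  have hjn : n - (i : ℕ) ≤ n := Nat.sub_le _ _
  generalize n - (i : ℕ) = j at hi hj1 hjn
  -- `r ∣ (q₀ ^ k) ^ j - 1`
  have hd : r ∣ (q₀ ^ k) ^ j - 1 := dvd_of_one_le_padicValNat (by omega)
  have hQj : 1 ≤ (q₀ ^ k) ^ j := Nat.one_le_pow _ _ (by omega)
  have h1 : ((q₀ ^ k : ℕ) : ZMod r) ^ j = 1 := by
    have := (dvd_sub_one_iff r _ hQj).1 hd
    rwa [Nat.cast_pow] at this
  have hcj : orderOf ((q₀ ^ k : ℕ) : ZMod r) ∣ j := orderOf_dvd_of_pow_eq_one h1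
  refine ⟨(Nat.le_of_dvd (by omega) hcj).trans hjn, fun hrk => ?_⟩
  -- `r ∤ q₀ ^ j - 1`
  have hq0j : 1 < q₀ ^ j := Nat.one_lt_pow (by omega) hq₀
  have hnd : ¬ r ∣ q₀ ^ j - 1 := by
    intro hd0
    have hlte := padicValNat.pow_sub_pow (hr.odd_of_ne_two hr2) hq0j hd0
      (fun hd => hrq (hr.dvd_of_dvd_pow hd)) hk.pos.ne'
    rw [one_pow, padicValNat.eq_zero_of_not_dvd
      (fun hd => hrk ((Nat.prime_dvd_prime_iff_eq hr hk).1 hd)), add_zero] at hlte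
    have e : (q₀ ^ j) ^ k = (q₀ ^ k) ^ j := by
      rw [← pow_mul, ← pow_mul, mul_comm]
    rw [e] at hlte
    omega
  have h2 : (q₀ : ZMod r) ^ j ≠ 1 := by
    intro h3
    apply hnd
    rw [dvd_sub_one_iff r _ hq0j.le, Nat.cast_pow]
    exact h3
  have hc0j : ¬ orderOf (q₀ : ZMod r) ∣ j := fun hd => h2 (orderOf_dvd_iff_pow_eq_one.1 hd)
  have hcc0 : orderOf ((q₀ ^ k : ℕ) : ZMod r) ∣ orderOf (q₀ : ZMod r) := by
    apply orderOf_dvd_of_pow_eq_one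
    rw [Nat.cast_pow, ← pow_mul, mul_comm, pow_mul, pow_orderOf_eq_one, one_pow]
  have hc0kc : orderOf (q₀ : ZMod r) ∣ k * orderOf ((q₀ ^ k : ℕ) : ZMod r) := by
    apply orderOf_dvd_of_pow_eq_one
    rw [pow_mul, ← Nat.cast_pow]
    exact pow_orderOf_eq_one _
  have hcpos : 0 < orderOf ((q₀ ^ k : ℕ) : ZMod r) := Nat.pos_of_dvd_of_pos hcj (by omega)
  obtain ⟨d, hd⟩ := hcc0
  rw [hd, mul_comm k] at hc0kc
  have hdk : d ∣ k := Nat.dvd_of_mul_dvd_mul_left hcpos hc0kc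
  rcases (Nat.dvd_prime hk).1 hdk with rfl | rfl
  · exfalso
    apply hc0j
    rw [hd, mul_one]
    exact hcj
  · rw [hd, mul_comm]

end Cfsg.Agent.H14.Sub
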