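import Cfsg.Agent.H14.Regular
import Cfsg.Agent.H12.Subnormal
import Cfsg.Agent.H1.PQLemma
import Cfsg.Agent.H52.Subnormal
import Cfsg.Agent.H54.CharP2
import Cfsg.Agent.S0597

set_option autoImplicit false
open Cfsg
open scoped commutatorElement Pointwise

namespace Cfsg.Agent.H14

universe u

section SubnPair

variable {G : Type u} [Group G] [Finite G] {p : ℕ} [Fact p.Prime]

/-- `E` acts irreducibly on `[V, E]`. -/
def IrrOn (V E : Subgroup G) : Prop :=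
  ∀ U : Subgroup G, U ≤ ⁅V, E⁆ → E ≤ Subgroup.normalizer (U : Set G) → U = ⊥ ∨ U = ⁅V, E⁆

omit [Finite G] [Fact p.Prime] in
/-- A faithful group stabilizing a chain `V ≥ [V,T] ≥ 1` is a `p`-group. -/
theorem isPGroup_of_quadratic (V T : Subgroup G) (hV : Cfsg.IsElementaryAbelian p V)
    (hTV : T ≤ Subgroup.normalizer (V : Set G))
    (hf : T ⊓ Subgroup.centralizer (V : Set G) = ⊥) (hq : ⁅⁅V, T⁆, T⁆ = ⊥) : IsPGroup p T := by
  intro t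
  refine ⟨1, ?_⟩
  have hVT : ⁅V, T⁆ ≤ V := Subgroup.le_normalizer_iff_commutator_le_left.mp hTV
  have hcen : T ≤ Subgroup.centralizer ((⁅V, T⁆ : Subgroup G) : Set G) := by
    rw [Subgroup.commutator_eq_bot_iff_le_centralizer] at hq
    exact Subgroup.le_centralizer_iff.mp hq
  have ht : (t : G) ∈ Cfsg.Agent.S0597.chainStab V ⁅V, T⁆ := by
    refine ⟨hTV t.2, hcen t.2, ?_⟩
    intro v hv
    have h1 : (t : G) * v * (t : G)⁻¹ * v⁻¹ = ⁅(t : G), v⁆ := rfl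
    rw [h1, Subgroup.commutator_comm]
    exact Subgroup.commutator_mem_commutator t.2 hv
  have h1 := Cfsg.Agent.S0597.pow_mem_centralizer hV hVT ht
  have h2 : (t : G) ^ p ∈ T ⊓ Subgroup.centralizer (V : Set G) := ⟨pow_mem t.2 p, h1⟩
  rw [hf, Subgroup.mem_bot] at h2
  ext
  simpa using h2

omit [Finite G] [Fact p.Prime] in
theorem irrOn_conj {V E : Subgroup G} (h : IrrOn V E) {g : G}
    (hg : g ∈ Subgroup.normalizer (V : Set G)) : IrrOn V (MulAut.conj g • E) := by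
  have hgV : MulAut.conj g • V = V := Cfsg.Agent.H12.conj_smul_eq_of_mem_normalizer hg
  have hW : ⁅V, MulAut.conj g • E⁆ = MulAut.conj g • ⁅V, E⁆ := by
    rw [Cfsg.Agent.H1.conj_smul_commutator, hgV]
  intro U hU hEU
  rw [hW] at hU ⊢
  have h1 : MulAut.conj g⁻¹ • U ≤ ⁅V, E⁆ := by
    have := Subgroup.pointwise_smul_le_pointwise_smul_iff (a := MulAut.conj g⁻¹) |>.mpr hU
    rwa [Cfsg.Agent.H12.conj_inv_smul_conj_smul] at this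
  have h2 : E ≤ Subgroup.normalizer ((MulAut.conj g⁻¹ • U : Subgroup G) : Set G) := by
    have := Cfsg.Agent.H12.conj_smul_le_normalizer_conj_smul hEU g⁻¹
    rwa [Cfsg.Agent.H12.conj_inv_smul_conj_smul] at this
  rcases h _ h1 h2 with h3 | h3
  · left
    have h4 := congrArg (fun X => MulAut.conj g • X) h3
    simp only [Subgroup.smul_bot] at h4
    have h5 := Cfsg.Agent.H12.conj_smul_conj_inv_smul U g
    rw [← h5]; exact h4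
  · right
    have h4 := congrArg (fun X => MulAut.conj g • X) h3
    have h5 := Cfsg.Agent.H12.conj_smul_conj_inv_smul U g
    rw [← h5]; exact h4

omit [Finite G] [Fact p.Prime] in
theorem pair_disjoint {V E₁ E₂ : Subgroup G} (h1V : E₁ ≤ Subgroup.normalizer (V : Set G))
    (h2V : E₂ ≤ Subgroup.normalizer (V : Set G))
    (hirr₁ : IrrOn V E₁) (h12 : ¬ ⁅V, E₁⁆ ≤ ⁅V, E₂⁆)
    (hn21 : E₂ ≤ Subgroup.normalizer ((⁅V, E₁⁆ : Subgroup G) : Set G))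
    (hn12 : E₁ ≤ Subgroup.normalizer ((⁅V, E₂⁆ : Subgroup G) : Set G)) :
    ⁅V, E₁⁆ ⊓ ⁅V, E₂⁆ = ⊥ ∧ ⁅⁅V, E₁⁆, E₂⁆ = ⊥ ∧ ⁅⁅V, E₂⁆, E₁⁆ = ⊥ := by
  have hE₁W₁ : E₁ ≤ Subgroup.normalizer ((⁅V, E₁⁆ : Subgroup G) : Set G) :=
    Cfsg.Agent.H1.le_normalizer_commutator E₁ V E₁ h1V Subgroup.le_normalizer
  have hW₁V : ⁅V, E₁⁆ ≤ V := Subgroup.le_normalizer_iff_commutator_le_left.mp h1V
  have hW₂V : ⁅V, E₂⁆ ≤ V := Subgroup.le_normalizer_iff_commutator_le_left.mp h2V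
  have hd : ⁅V, E₁⁆ ⊓ ⁅V, E₂⁆ = ⊥ := by
    rcases hirr₁ _ inf_le_left (le_normalizer_inf hE₁W₁ hn12) with h | h
    · exact h
    · exact absurd (inf_eq_left.mp h) h12
  refine ⟨hd, ?_, ?_⟩
  · rw [eq_bot_iff, ← hd]
    exact le_inf (Subgroup.le_normalizer_iff_commutator_le_left.mp hn21)
      (Subgroup.commutator_mono hW₁V le_rfl)
  · rw [eq_bot_iff, ← hd]
    exact le_inf (Subgroup.commutator_mono hW₂V le_rfl)
      (Subgroup.le_normalizer_iff_commutator_le_left.mp hn12)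

/-- The statement proved by induction on `n`. -/
def PairStmt (p : ℕ) (V : Subgroup G) (n : ℕ) : Prop :=
  ∀ E₁ E₂ : Subgroup G, Nat.card ↥(E₁ ⊔ E₂) ≤ n → E₁ ⊔ E₂ ≤ Subgroup.normalizer (V : Set G) →
    (E₁ ⊔ E₂) ⊓ Subgroup.centralizer (V : Set G) = ⊥ →
    Cfsg.Agent.H12.SubnIn E₁ (E₁ ⊔ E₂) → Cfsg.Agent.H12.SubnIn E₂ (E₁ ⊔ E₂) →
    (∀ T : Subgroup G, IsPGroup p T → Cfsg.Agent.H12.SubnIn T (E₁ ⊔ E₂) → T = ⊥) →
    IrrOn V E₁ → IrrOn V E₂ → ¬ ⁅V, E₁⁆ ≤ ⁅V, E₂⁆ → ¬ ⁅V, E₂⁆ ≤ ⁅V, E₁⁆ →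
    2 < Nat.card E₁ → 2 < Nat.card E₂ →
    E₂ ≤ Subgroup.normalizer ((⁅V, E₁⁆ : Subgroup G) : Set G) ∧
      E₁ ≤ Subgroup.normalizer ((⁅V, E₂⁆ : Subgroup G) : Set G)

omit [Fact p.Prime] in
theorem pair_conj (V : Subgroup G) {n : ℕ} (ih : PairStmt p V n)
    {E E₁ : Subgroup G} (hcard : Nat.card E ≤ n + 1)
    (hEV : E ≤ Subgroup.normalizer (V : Set G))
    (hf : E ⊓ Subgroup.centralizer (V : Set G) = ⊥)
    (hO : ∀ T : Subgroup G, IsPGroup p T → Cfsg.Agent.H12.SubnIn T E → T = ⊥)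
    (hs₁ : Cfsg.Agent.H12.SubnIn E₁ E) (hne : E₁ ≠ E) (hirr₁ : IrrOn V E₁)
    (hc₁ : 2 < Nat.card E₁)
    {g : G} (hg : g ∈ E) (hgW : MulAut.conj g • ⁅V, E₁⁆ ≠ ⁅V, E₁⁆) :
    ⁅V, E₁⁆ ⊓ MulAut.conj g • ⁅V, E₁⁆ = ⊥ ∧ ⁅MulAut.conj g • ⁅V, E₁⁆, E₁⁆ = ⊥ := by
  have hgV : MulAut.conj g • V = V := Cfsg.Agent.H12.conj_smul_eq_of_mem_normalizer (hEV hg)
  have hWF : ⁅V, MulAut.conj g • E₁⁆ = MulAut.conj g • ⁅V, E₁⁆ := by
    rw [Cfsg.Agent.H1.conj_smul_commutator, hgV]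
  have hgE : MulAut.conj g • E = E :=
    Cfsg.Agent.H12.conj_smul_eq_of_mem_normalizer (Subgroup.le_normalizer hg)
  have hsF : Cfsg.Agent.H12.SubnIn (MulAut.conj g • E₁) E := by
    have h1 := hs₁.conj g
    rwa [hgE] at h1
  obtain ⟨M, hE₁M, hME, hEM, -⟩ := hs₁.exists_normal_lt hne
  have hFM : MulAut.conj g • E₁ ≤ M := by
    have h1 : MulAut.conj g • M = M := Cfsg.Agent.H12.conj_smul_eq_of_mem_normalizer (hEM hg)
    rw [← h1]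
    exact Subgroup.pointwise_smul_le_pointwise_smul_iff.mpr hE₁M
  have hE'M : E₁ ⊔ MulAut.conj g • E₁ ≤ M := sup_le hE₁M hFM
  have hE'E : E₁ ⊔ MulAut.conj g • E₁ ≤ E := hE'M.trans hME.le
  have hcard' : Nat.card ↥(E₁ ⊔ MulAut.conj g • E₁) ≤ n := by
    have h1 := card_lt_of_lt' (lt_of_le_of_lt hE'M hME)
    omega
  have hsub' : Cfsg.Agent.H12.SubnIn (E₁ ⊔ MulAut.conj g • E₁) E := hs₁.sup hsF
  have h1V : E₁ ≤ Subgroup.normalizer (V : Set G) := hs₁.le.trans hEV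
  have hFV : MulAut.conj g • E₁ ≤ Subgroup.normalizer (V : Set G) := hsF.le.trans hEV
  have hirrF : IrrOn V (MulAut.conj g • E₁) := irrOn_conj hirr₁ (hEV hg)
  have hn1 : ¬ ⁅V, E₁⁆ ≤ ⁅V, MulAut.conj g • E₁⁆ := by
    rw [hWF]
    intro h
    exact hgW (Cfsg.Agent.H12.conj_smul_eq_of_le h)
  have hn2 : ¬ ⁅V, MulAut.conj g • E₁⁆ ≤ ⁅V, E₁⁆ := by
    rw [hWF]
    intro h
    exact hgW (Cfsg.Agent.H12.conj_smul_eq_of_ge h)
  have hres := ih E₁ (MulAut.conj g • E₁) hcard' (hE'E.trans hEV)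
    (by rw [eq_bot_iff, ← hf]; exact inf_le_inf_right _ hE'E)
    (hs₁.of_le le_sup_left hE'E) (hsF.of_le le_sup_right hE'E)
    (fun T hT hTs => hO T hT (hTs.trans hsub')) hirr₁ hirrF hn1 hn2 hc₁
    (by rw [Cfsg.Agent.H12.card_conj_smul]; exact hc₁)
  obtain ⟨h1, -, h3⟩ := pair_disjoint h1V hFV hirr₁ hn1 hres.1 hres.2
  rw [hWF] at h1 h3
  exact ⟨h1, h3⟩

theorem side (V : Subgroup G) (hV : Cfsg.IsElementaryAbelian p V) {E E₁ E₂ : Subgroup G}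
    (hEV : E ≤ Subgroup.normalizer (V : Set G))
    (hf : E ⊓ Subgroup.centralizer (V : Set G) = ⊥)
    (hO : ∀ T : Subgroup G, IsPGroup p T → Cfsg.Agent.H12.SubnIn T E → T = ⊥)
    (hs₁ : Cfsg.Agent.H12.SubnIn E₁ E) (hs₂ : Cfsg.Agent.H12.SubnIn E₂ E)
    (hirr₁ : IrrOn V E₁) (hirr₂ : IrrOn V E₂) (h12 : ¬ ⁅V, E₁⁆ ≤ ⁅V, E₂⁆)
    (hc₁ : 2 < Nat.card E₁) (hc₂ : 2 < Nat.card E₂)
    (hS1 : ∀ g ∈ E₂, MulAut.conj g • ⁅V, E₁⁆ ≠ ⁅V, E₁⁆ →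
      ⁅MulAut.conj g • ⁅V, E₁⁆, E₁⁆ = ⊥)
    (hS2 : ∀ e ∈ E₁, MulAut.conj e • ⁅V, E₂⁆ ≠ ⁅V, E₂⁆ →
      ⁅V, E₂⁆ ⊓ MulAut.conj e • ⁅V, E₂⁆ = ⊥) :
    E₂ ≤ Subgroup.normalizer ((⁅V, E₁⁆ : Subgroup G) : Set G) := by
  by_contra hcon
  obtain ⟨g₀, hg₀, hg₀N⟩ := SetLike.not_le_iff_exists.mp hcon
  have h1E := hs₁.le
  have h2E := hs₂.le
  have h1V := h1E.trans hEV
  have h2V := h2E.trans hEV
  obtain ⟨W₁, hW₁⟩ : ∃ W₁, W₁ = ⁅V, E₁⁆ := ⟨_, rfl⟩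
  obtain ⟨W₂, hW₂⟩ : ∃ W₂, W₂ = ⁅V, E₂⁆ := ⟨_, rfl⟩
  rw [← hW₁] at hg₀N hS1 hcon
  rw [← hW₂] at hS2
  rw [← hW₁, ← hW₂] at h12
  have hW₁V : W₁ ≤ V := by
    rw [hW₁]; exact Subgroup.le_normalizer_iff_commutator_le_left.mp h1V
  have hW₂V : W₂ ≤ V := by
    rw [hW₂]; exact Subgroup.le_normalizer_iff_commutator_le_left.mp h2V
  have hE₁W₁ : E₁ ≤ Subgroup.normalizer (W₁ : Set G) := by
    rw [hW₁]
    exact Cfsg.Agent.H1.le_normalizer_commutator E₁ V E₁ h1V Subgroup.le_normalizer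
  have hE₂W₂ : E₂ ≤ Subgroup.normalizer (W₂ : Set G) := by
    rw [hW₂]
    exact Cfsg.Agent.H1.le_normalizer_commutator E₂ V E₂ h2V Subgroup.le_normalizer
  have hmemW₂ : ∀ h ∈ E₂, ∀ v ∈ V, ⁅h, v⁆ ∈ W₂ := by
    intro h hh v hv
    rw [hW₂, Subgroup.commutator_comm]
    exact Subgroup.commutator_mem_commutator hh hv
  -- `[W₁, E₁] = W₁`
  have hWW : ⁅W₁, E₁⁆ = W₁ := by
    have h1 : ⁅W₁, E₁⁆ ≤ ⁅V, E₁⁆ := by
      rw [← hW₁]; exact Subgroup.le_normalizer_iff_commutator_le_left.mp hE₁W₁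
    rcases hirr₁ ⁅W₁, E₁⁆ h1
      (Cfsg.Agent.H1.le_normalizer_commutator E₁ W₁ E₁ hE₁W₁ Subgroup.le_normalizer) with h | h
    · exfalso
      have hq : ⁅⁅V, E₁⁆, E₁⁆ = ⊥ := by rw [← hW₁]; exact h
      have hp : IsPGroup p E₁ := isPGroup_of_quadratic V E₁ hV h1V
        (by rw [eq_bot_iff, ← hf]; exact inf_le_inf_right _ h1E) hq
      have h2 := hO E₁ hp hs₁
      rw [h2, Subgroup.card_bot] at hc₁
      omega
    · rw [h, hW₁]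
  -- `E₁` centralizes the moved conjugates of `W₁`
  have hcent : ∀ h ∈ E₂, h ∉ Subgroup.normalizer (W₁ : Set G) → ∀ w ∈ W₁, ∀ e ∈ E₁,
      e * (h * w * h⁻¹) = (h * w * h⁻¹) * e := by
    intro h hh hhN w hw e he
    have hne : MulAut.conj h • W₁ ≠ W₁ := fun heq =>
      hhN (Cfsg.Agent.H12.conj_smul_eq_iff_mem_normalizer.mp heq)
    have h1 := hS1 h hh hne
    rw [Subgroup.commutator_eq_bot_iff_le_centralizer] at h1
    have h2 := h1 (Cfsg.Agent.H12.conj_mem_conj_smul hw)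
    rw [Subgroup.mem_centralizer_iff] at h2
    exact h2 e he
  -- `W₂` is not normalized by `E₁`
  have hnot : ¬ E₁ ≤ Subgroup.normalizer (W₂ : Set G) := by
    intro hn
    apply h12
    rw [← hWW, Subgroup.commutator_le]
    intro w hw e he
    have hd : ⁅g₀, w⁆ ∈ W₂ := hmemW₂ g₀ hg₀ w (hW₁V hw)
    have hd' : e * ⁅g₀, w⁆ * e⁻¹ ∈ W₂ := conj_mem_of_mem_normalizer (hn he) hd
    have hc := hcent g₀ hg₀ hg₀N w hw e he
    have e1 : ⁅w, e⁆ = ⁅g₀, w⁆⁻¹ * (e * ⁅g₀, w⁆ * e⁻¹) := by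
      simp only [commutatorElement_def]
      calc w * e * w⁻¹ * e⁻¹
          = w * (g₀ * w * g₀⁻¹)⁻¹ * ((g₀ * w * g₀⁻¹) * e) * w⁻¹ * e⁻¹ := by group
        _ = w * (g₀ * w * g₀⁻¹)⁻¹ * (e * (g₀ * w * g₀⁻¹)) * w⁻¹ * e⁻¹ := by rw [hc]
        _ = (g₀ * w * g₀⁻¹ * w⁻¹)⁻¹ * (e * (g₀ * w * g₀⁻¹ * w⁻¹) * e⁻¹) := by group
    rw [e1]
    exact mul_mem (inv_mem hd) hd'
  obtain ⟨e₀, he₀, he₀N⟩ := SetLike.not_le_iff_exists.mp hnot
  have hdisj := hS2 e₀ he₀ (fun heq =>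
    he₀N (Cfsg.Agent.H12.conj_smul_eq_iff_mem_normalizer.mp heq))
  have htriv : ∀ x ∈ W₂, e₀ * x = x * e₀ → x = 1 := by
    intro x hx hcomm
    have h1 : x ∈ W₂ ⊓ MulAut.conj e₀ • W₂ := by
      refine ⟨hx, ?_⟩
      have h2 := Cfsg.Agent.H12.conj_mem_conj_smul (g := e₀) hx
      have e : e₀ * x * e₀⁻¹ = x := by rw [hcomm]; group
      rwa [e] at h2
    rw [hdisj, Subgroup.mem_bot] at h1
    exact h1
  have hsame : ∀ h ∈ E₂, h ∉ Subgroup.normalizer (W₁ : Set G) → ∀ h' ∈ E₂,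
      h' ∉ Subgroup.normalizer (W₁ : Set G) → ∀ w ∈ W₁, h * w * h⁻¹ = h' * w * h'⁻¹ := by
    intro h hh hhN h' hh' hh'N w hw
    have hx : (h * w * h⁻¹) * (h' * w * h'⁻¹)⁻¹ ∈ W₂ := by
      have e : (h * w * h⁻¹) * (h' * w * h'⁻¹)⁻¹ = ⁅h, w⁆ * ⁅h', w⁆⁻¹ := by
        simp only [commutatorElement_def]; group
      rw [e]
      exact mul_mem (hmemW₂ h hh w (hW₁V hw)) (inv_mem (hmemW₂ h' hh' w (hW₁V hw)))
    have c1 : Commute e₀ (h * w * h⁻¹) := hcent h hh hhN w hw e₀ he₀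
    have c2 : Commute e₀ (h' * w * h'⁻¹) := hcent h' hh' hh'N w hw e₀ he₀
    have h3 := htriv _ hx (c1.mul_right c2.inv_right).eq
    exact mul_inv_eq_one.mp h3
  obtain ⟨T, hT⟩ : ∃ T, T = E₂ ⊓ Subgroup.normalizer (W₁ : Set G) := ⟨_, rfl⟩
  have hTE₂ : T ≤ E₂ := by rw [hT]; exact inf_le_left
  have hTN : T ≤ Subgroup.normalizer (W₁ : Set G) := by rw [hT]; exact inf_le_right
  have hmemT : ∀ h ∈ E₂, h ∈ Subgroup.normalizer (W₁ : Set G) → h ∈ T := by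
    intro h hh hhN; rw [hT]; exact ⟨hh, hhN⟩
  have hTcent : ∀ t ∈ T, ∀ w ∈ W₁, t * w * t⁻¹ = w := by
    intro t ht w hw
    have h1 : g₀ * t ∈ E₂ := mul_mem hg₀ (hTE₂ ht)
    have h2 : g₀ * t ∉ Subgroup.normalizer (W₁ : Set G) := by
      intro hmem
      apply hg₀N
      have h3 := mul_mem hmem (inv_mem (hTN ht))
      simpa using h3
    have h3 := hsame g₀ hg₀ hg₀N (g₀ * t) h1 h2 w hw
    have e : g₀ * t * w * (g₀ * t)⁻¹ = g₀ * (t * w * t⁻¹) * g₀⁻¹ := by group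
    rw [e] at h3
    exact (mul_left_cancel (mul_right_cancel h3)).symm
  have hcoset : ∀ h ∈ E₂, h ∉ Subgroup.normalizer (W₁ : Set G) → g₀⁻¹ * h ∈ T := by
    intro h hh hhN
    apply hmemT _ (mul_mem (inv_mem hg₀) hh)
    apply mem_normalizer_of_conj_mem
    intro w hw
    have h3 := hsame g₀ hg₀ hg₀N h hh hhN w hw
    have e : g₀⁻¹ * h * w * (g₀⁻¹ * h)⁻¹ = g₀⁻¹ * (h * w * h⁻¹) * g₀ := by group
    rw [e, ← h3]
    have e2 : g₀⁻¹ * (g₀ * w * g₀⁻¹) * g₀ = w := by group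
    rw [e2]
    exact hw
  have hTn : E₂ ≤ Subgroup.normalizer (T : Set G) := by
    intro h hh
    apply mem_normalizer_of_conj_mem
    intro t ht
    by_cases hhN : h ∈ Subgroup.normalizer (W₁ : Set G)
    · exact mul_mem (mul_mem (hmemT h hh hhN) ht) (inv_mem (hmemT h hh hhN))
    · have ht' := hcoset h hh hhN
      have ht'' : (g₀⁻¹ * h) * t * (g₀⁻¹ * h)⁻¹ ∈ T := mul_mem (mul_mem ht' ht) (inv_mem ht')
      have e : h * t * h⁻¹ = g₀ * ((g₀⁻¹ * h) * t * (g₀⁻¹ * h)⁻¹) * g₀⁻¹ := by group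
      rw [e]
      obtain ⟨s, hs⟩ : ∃ s, s = (g₀⁻¹ * h) * t * (g₀⁻¹ * h)⁻¹ := ⟨_, rfl⟩
      rw [← hs] at ht'' ⊢
      have hsE : g₀ * s * g₀⁻¹ ∈ E₂ := mul_mem (mul_mem hg₀ (hTE₂ ht'')) (inv_mem hg₀)
      by_contra hcon2
      have hcon3 : g₀ * s * g₀⁻¹ ∉ Subgroup.normalizer (W₁ : Set G) :=
        fun hmem => hcon2 (hmemT _ hsE hmem)
      have h4 := hcoset (g₀ * s * g₀⁻¹) hsE hcon3
      have e3 : g₀⁻¹ * (g₀ * s * g₀⁻¹) = s * g₀⁻¹ := by group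
      rw [e3] at h4
      have h5 : g₀⁻¹ ∈ T := by
        have h6 := mul_mem (inv_mem ht'') h4
        simpa using h6
      apply hg₀N
      have h7 := inv_mem (hTN h5)
      simpa using h7
  -- `T` centralizes `W₂`
  have hTW₂ : W₂ ≤ Subgroup.centralizer (T : Set G) := by
    have hZn : E₂ ≤ Subgroup.normalizer
        ((W₂ ⊓ Subgroup.centralizer (T : Set G) : Subgroup G) : Set G) :=
      le_normalizer_inf hE₂W₂
        (hTn.trans (Cfsg.Agent.H54.normalizer_le_normalizer_centralizer T))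
    have hZle : W₂ ⊓ Subgroup.centralizer (T : Set G) ≤ ⁅V, E₂⁆ := by
      rw [← hW₂]; exact inf_le_left
    rcases hirr₂ (W₂ ⊓ Subgroup.centralizer (T : Set G)) hZle hZn with h | h
    · exfalso
      apply hg₀N
      apply mem_normalizer_of_conj_mem
      intro w hw
      have hd : ⁅g₀, w⁆ ∈ W₂ ⊓ Subgroup.centralizer (T : Set G) := by
        refine Subgroup.mem_inf.mpr ⟨hmemW₂ g₀ hg₀ w (hW₁V hw), ?_⟩
        rw [Subgroup.mem_centralizer_iff]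
        intro t ht
        have c1 : t * w * t⁻¹ = w := hTcent t ht w hw
        have ht2 : g₀⁻¹ * t * g₀ ∈ T := by
          have h8 := conj_mem_of_mem_normalizer (hTn (inv_mem hg₀)) ht
          simpa using h8
        have c2 : (g₀⁻¹ * t * g₀) * w * (g₀⁻¹ * t * g₀)⁻¹ = w := hTcent _ ht2 w hw
        have e : t * ⁅g₀, w⁆ * t⁻¹ =
            g₀ * ((g₀⁻¹ * t * g₀) * w * (g₀⁻¹ * t * g₀)⁻¹) * g₀⁻¹ * (t * w * t⁻¹)⁻¹ := by
          simp only [commutatorElement_def]; group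
        rw [c2, c1] at e
        calc t * ⁅g₀, w⁆ = (t * ⁅g₀, w⁆ * t⁻¹) * t := by group
          _ = ⁅g₀, w⁆ * t := by rw [e]; rfl
      rw [h, Subgroup.mem_bot] at hd
      have e4 : g₀ * w * g₀⁻¹ = w := by
        rw [commutatorElement_def] at hd
        exact mul_inv_eq_one.mp hd
      rw [e4]
      exact hw
    · have h9 : W₂ ≤ W₂ ⊓ Subgroup.centralizer (T : Set G) := by rw [h, hW₂]
      exact h9.trans inf_le_right
  have hTp : IsPGroup p T := by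
    apply isPGroup_of_quadratic V T hV (hTE₂.trans h2V)
      (by rw [eq_bot_iff, ← hf]; exact inf_le_inf_right _ (hTE₂.trans h2E))
    rw [eq_bot_iff]
    have h1 : ⁅V, T⁆ ≤ W₂ := by rw [hW₂]; exact Subgroup.commutator_mono le_rfl hTE₂
    have h2 : ⁅W₂, T⁆ = ⊥ := Subgroup.commutator_eq_bot_iff_le_centralizer.mpr hTW₂
    rw [← h2]
    exact Subgroup.commutator_mono h1 le_rfl
  have hTbot : T = ⊥ := hO T hTp ((Cfsg.Agent.H12.SubnIn.of_normal hTE₂ hTn).trans hs₂)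
  have hsub : (E₂ : Set G) ⊆ {1, g₀} := by
    intro h hh
    by_cases hhN : h ∈ Subgroup.normalizer (W₁ : Set G)
    · have h1 := hmemT h hh hhN
      rw [hTbot, Subgroup.mem_bot] at h1
      left; exact h1
    · have h1 := hcoset h hh hhN
      rw [hTbot, Subgroup.mem_bot] at h1
      right
      rw [Set.mem_singleton_iff]
      exact (inv_mul_eq_one.mp h1).symm
  have hle2 : Nat.card E₂ ≤ 2 := by
    have h1 : Nat.card E₂ = (E₂ : Set G).ncard := Nat.card_coe_set_eq _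
    rw [h1]
    refine (Set.ncard_le_ncard hsub (Set.toFinite _)).trans ?_
    refine (Set.ncard_insert_le 1 {g₀}).trans ?_
    rw [Set.ncard_singleton]
  omega

theorem pairStmt (V : Subgroup G) (hV : Cfsg.IsElementaryAbelian p V) :
    ∀ n, PairStmt p V n := by
  intro n
  induction n with
  | zero =>
    intro E₁ E₂ hcard
    exfalso
    have h1 : 0 < Nat.card ↥(E₁ ⊔ E₂) := Nat.card_pos
    omega
  | succ n ih =>
    intro E₁ E₂ hcard hEV hf hs₁ hs₂ hO hirr₁ hirr₂ h12 h21 hc₁ hc₂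
    have hne₁ : E₁ ≠ E₁ ⊔ E₂ := by
      intro h
      apply h21
      exact Subgroup.commutator_mono le_rfl (le_sup_right.trans h.ge)
    have hne₂ : E₂ ≠ E₁ ⊔ E₂ := by
      intro h
      apply h12
      exact Subgroup.commutator_mono le_rfl (le_sup_left.trans h.ge)
    have P1 : ∀ g ∈ E₂, MulAut.conj g • ⁅V, E₁⁆ ≠ ⁅V, E₁⁆ →
        ⁅V, E₁⁆ ⊓ MulAut.conj g • ⁅V, E₁⁆ = ⊥ ∧ ⁅MulAut.conj g • ⁅V, E₁⁆, E₁⁆ = ⊥ :=
      fun g hg hgW => pair_conj V ih hcard hEV hf hO hs₁ hne₁ hirr₁ hc₁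
        (show g ∈ E₁ ⊔ E₂ from le_sup_right (a := E₁) hg) hgW
    have P2 : ∀ e ∈ E₁, MulAut.conj e • ⁅V, E₂⁆ ≠ ⁅V, E₂⁆ →
        ⁅V, E₂⁆ ⊓ MulAut.conj e • ⁅V, E₂⁆ = ⊥ ∧ ⁅MulAut.conj e • ⁅V, E₂⁆, E₂⁆ = ⊥ :=
      fun e he heW => pair_conj V ih hcard hEV hf hO hs₂ hne₂ hirr₂ hc₂
        (show e ∈ E₁ ⊔ E₂ from le_sup_left (b := E₂) he) heW
    exact ⟨side V hV hEV hf hO hs₁ hs₂ hirr₁ hirr₂ h12 hc₁ hc₂
        (fun g hg h => (P1 g hg h).2) (fun e he h => (P2 e he h).1),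
      side V hV hEV hf hO hs₂ hs₁ hirr₂ hirr₁ h21 hc₂ hc₁
        (fun e he h => (P2 e he h).2) (fun g hg h => (P1 g hg h).1)⟩

end SubnPair

end Cfsg.Agent.H14
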