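import Cfsg.Agent.H14.SuzMain
import Cfsg.Agent.H14.SuzCoord
import Cfsg.Agent.H14.SuzField
import Cfsg.Agent.H14.SuzIso

set_option autoImplicit false

namespace Cfsg.Agent.H14.Suz

open scoped commutatorElement

section typeA

variable {P : Type*} [Group P] [Finite P] (h2 : IsPGroup 2 P) (K : Subgroup (MulAut P))
  (hreg : Reg K)

include h2 hreg in
/-- `K` is transitive on the nonidentity cosets of the centre when `|P| = |Z|²` -/
theorem quot_trans (hc : ∀ z ∈ Subgroup.center P, z * z = 1)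
    (hcard : Nat.card P = Nat.card (Subgroup.center P) ^ 2)
    (z₀ : P) (hz₀ : z₀ ≠ 1) (hz₀2 : z₀ * z₀ = 1) (x₀ : P) (hx₀ : x₀ ∉ Subgroup.center P) :
    ∀ v : P ⧸ Subgroup.center P, v ≠ 1 →
      ∃ k : K, v = QuotientGroup.mk ((k : MulAut P) x₀) := by
  classical
  have hcardQ : Nat.card (P ⧸ Subgroup.center P) ≤ Nat.card (Option K) := by
    have h1 := Subgroup.card_eq_card_quotient_mul_card_subgroup (Subgroup.center P)
    have hpos : 0 < Nat.card (Subgroup.center P) := Nat.card_pos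
    have h3 : Nat.card (P ⧸ Subgroup.center P) = Nat.card (Subgroup.center P) := by
      rw [hcard, pow_two] at h1
      exact (Nat.eq_of_mul_eq_mul_right hpos h1).symm
    rw [h3]
    let g : Option K → Subgroup.center P := fun o => o.elim 1 (fun k =>
      ⟨(k : MulAut P) z₀, aut_mem_center _ (invol_central h2 K hreg z₀ hz₀ hz₀2)⟩)
    apply Nat.card_le_card_of_surjective g
    rintro ⟨z, hz⟩
    by_cases h1 : z = 1
    · exact ⟨none, by apply Subtype.ext; simp [g, h1]⟩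
    · obtain ⟨k, hk, -⟩ := hreg z₀ z hz₀ hz₀2 h1 (hc z hz)
      exact ⟨some k, by apply Subtype.ext; exact hk⟩
  let Φ : Option K → P ⧸ Subgroup.center P := fun o => o.elim 1 (fun k =>
    QuotientGroup.mk ((k : MulAut P) x₀))
  have hΦ : Function.Injective Φ := by
    have hnone : ∀ k : K, Φ (some k) ≠ Φ none := by
      intro k h
      have h' : (k : MulAut P) x₀ ∈ Subgroup.center P := (QuotientGroup.eq_one_iff _).mp h
      exact hx₀ ((aut_mem_center_iff _).mp h')
    intro o o' h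
    cases o with
    | none =>
      cases o' with
      | none => rfl
      | some k' => exact absurd h.symm (hnone k')
    | some k =>
      cases o' with
      | none => exact absurd h (hnone k)
      | some k' =>
        have hcen : ((k : MulAut P) x₀)⁻¹ * (k' : MulAut P) x₀ ∈ Subgroup.center P :=
          QuotientGroup.eq.mp h
        have : k⁻¹ * k' = 1 := by
          apply free_mod_center h2 K hreg (k⁻¹ * k') x₀
            ((k : MulAut P)⁻¹ (((k : MulAut P) x₀)⁻¹ * (k' : MulAut P) x₀)) hx₀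
            (aut_mem_center _ hcen)
          simp [map_mul]
        congr 1
        exact (inv_mul_eq_one.mp this)
  have hbij := hΦ.bijective_of_nat_card_le hcardQ
  intro v hv
  obtain ⟨o, ho⟩ := hbij.2 v
  cases o with
  | none => exact absurd ho.symm hv
  | some k => exact ⟨k, ho.symm⟩

include h2 hreg in
theorem typeA_of_card_sq [IsCyclic K]
    (hinv : ∃ x y : P, x ≠ y ∧ x ≠ 1 ∧ x * x = 1 ∧ y ≠ 1 ∧ y * y = 1)
    (hnonab : ∃ x y : P, x * y ≠ y * x)
    (hcard : Nat.card P = Nat.card (Subgroup.center P) ^ 2) :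
    ∃ (F : Type) (_ : Field F) (_ : Fintype F) (φ : F ≃+* F),
      Fintype.card F = Nat.card (Subgroup.center P) ∧ φ ≠ RingEquiv.refl F ∧
      Odd (orderOf φ) ∧ Nonempty (P ≃* Cfsg.suzukiTypeA F (φ : F →+* F)) := by
  classical
  haveI : Fact (Nat.Prime 2) := ⟨Nat.prime_two⟩
  have hc : ∀ z ∈ Subgroup.center P, z * z = 1 :=
    center_sq ⟨inferInstance, h2, hinv, K, inferInstance, hreg⟩ hnonab
  have hic : ∀ x : P, x * x = 1 → x ∈ Subgroup.center P := sq_one_central h2 K hreg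
  obtain ⟨z₀, -, -, hz₀, hz₀2, -, -⟩ := hinv
  have hz₀c : z₀ ∈ Subgroup.center P := hic z₀ hz₀2
  obtain ⟨m, hm⟩ := IsPGroup.iff_card.mp (h2.to_subgroup (Subgroup.center P))
  have hm0 : m ≠ 0 := by
    intro h
    rw [h, pow_zero] at hm
    haveI := (Nat.card_eq_one_iff_unique.mp hm).1
    exact hz₀ (congrArg Subtype.val (Subsingleton.elim (⟨z₀, hz₀c⟩ : Subgroup.center P) 1))
  letI : Fintype (GaloisField 2 m) := Fintype.ofFinite _
  have hFcard : Fintype.card (GaloisField 2 m) = Nat.card (Subgroup.center P) := by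
    rw [hm, ← Nat.card_eq_fintype_card]; exact GaloisField.card 2 m hm0
  have hQcard : Nat.card (P ⧸ Subgroup.center P) = Nat.card (Subgroup.center P) := by
    have h1 := Subgroup.card_eq_card_quotient_mul_card_subgroup (Subgroup.center P)
    have hpos : 0 < Nat.card (Subgroup.center P) := Nat.card_pos
    rw [hcard, pow_two] at h1
    exact (Nat.eq_of_mul_eq_mul_right hpos h1).symm
  obtain ⟨xa, ya, hxy⟩ := hnonab
  have hxa : xa ∉ Subgroup.center P := fun h => hxy ((Subgroup.mem_center_iff.mp h ya).symm)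
  obtain ⟨n₀, hn₀1, hn₀2⟩ := exists_pow_invol (h2.to_quotient (Subgroup.center P))
    (QuotientGroup.mk xa) (fun h => hxa ((QuotientGroup.eq_one_iff _).mp h))
  have hx₀ : xa ^ n₀ ∉ Subgroup.center P := fun h =>
    hn₀1 (by rw [← QuotientGroup.mk_pow]; exact (QuotientGroup.eq_one_iff _).mpr h)
  have hx₀2 : xa ^ n₀ * xa ^ n₀ ∈ Subgroup.center P := by
    rw [← QuotientGroup.mk_pow, ← QuotientGroup.mk_mul, QuotientGroup.eq_one_iff] at hn₀2
    exact hn₀2
  generalize xa ^ n₀ = x₀ at hx₀ hx₀2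
  have htr := quot_trans h2 K hreg hc hcard z₀ hz₀ hz₀2 x₀ hx₀
  have hQ2 : ∀ v : P ⧸ Subgroup.center P, v * v = 1 := by
    intro v
    by_cases hv : v = 1
    · rw [hv, one_mul]
    · obtain ⟨k, rfl⟩ := htr v hv
      rw [← QuotientGroup.mk_mul, QuotientGroup.eq_one_iff, ← map_mul]
      exact aut_mem_center _ hx₀2
  have hsqc : ∀ x : P, x * x ∈ Subgroup.center P := by
    intro x
    have := hQ2 (QuotientGroup.mk x)
    rwa [← QuotientGroup.mk_mul, QuotientGroup.eq_one_iff] at this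
  have hQab : ∀ a b : P ⧸ Subgroup.center P, a * b = b * a := by
    intro a b
    have ha : a⁻¹ = a := inv_eq_of_mul_eq_one_right (hQ2 a)
    have hb : b⁻¹ = b := inv_eq_of_mul_eq_one_right (hQ2 b)
    have : a * b = (a * b)⁻¹ := (inv_eq_of_mul_eq_one_right (hQ2 (a * b))).symm
    rw [this, mul_inv_rev, ha, hb]
  have hcomm : ∀ x y : P, ⁅x, y⁆ ∈ Om P := by
    intro x y
    have h1 : ⁅x, y⁆ ∈ Subgroup.center P := by
      have : (QuotientGroup.mk ⁅x, y⁆ : P ⧸ Subgroup.center P) =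
          ⁅(QuotientGroup.mk x : P ⧸ Subgroup.center P), QuotientGroup.mk y⁆ := rfl
      rw [← QuotientGroup.eq_one_iff, this, commutatorElement_eq_one_iff_commute]
      exact hQab _ _
    exact ⟨h1, hc _ h1⟩
  obtain ⟨ξ, hξ⟩ := IsCyclic.exists_generator (α := K)
  have hξpow : ∀ k : K, ∃ n : ℕ, ξ ^ n = k := by
    intro k
    have := hξ k
    rw [← mem_powers_iff_mem_zpowers] at this
    exact this
  have hξcoe : ∀ n : ℕ, ((ξ ^ n : K) : MulAut P) = (ξ : MulAut P) ^ n := fun n => rfl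
  let g₂ : (P ⧸ Subgroup.center P) ≃* (P ⧸ Subgroup.center P) :=
    QuotientGroup.congr (Subgroup.center P) (Subgroup.center P) (ξ : MulAut P)
      (Subgroup.characteristic_iff_map_eq.mp inferInstance (ξ : MulAut P))
  have hg₂ : ∀ x : P, g₂ (QuotientGroup.mk x) = QuotientGroup.mk ((ξ : MulAut P) x) :=
    fun x => rfl
  have hg₂pow : ∀ (n : ℕ) (x : P),
      (g₂ ^ n) (QuotientGroup.mk x) = QuotientGroup.mk (((ξ : MulAut P) ^ n) x) := by
    intro n
    induction n with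
    | zero => intro x; rfl
    | succ n ih =>
      intro x
      rw [pow_succ, pow_succ]
      show (g₂ ^ n) (g₂ (QuotientGroup.mk x)) = _
      rw [hg₂, ih]; rfl
  obtain ⟨β₁, μ, hβ₁bij, hβ₁add, hβ₁g, hβ₁1⟩ := coord hQ2 g₂ (QuotientGroup.mk x₀)
    (fun h => hx₀ ((QuotientGroup.eq_one_iff _).mp h))
    (by
      intro v hv
      obtain ⟨k, rfl⟩ := htr v hv
      obtain ⟨n, rfl⟩ := hξpow k
      exact ⟨n, by rw [hg₂pow]; rfl⟩)
    (F := GaloisField 2 m) (by rw [hFcard, hQcard])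
  let g₁ : Subgroup.center P ≃* Subgroup.center P :=
    { toFun := fun z => ⟨(ξ : MulAut P) z, aut_mem_center _ z.2⟩
      invFun := fun z => ⟨(ξ : MulAut P)⁻¹ z, aut_mem_center _ z.2⟩
      left_inv := fun z => by apply Subtype.ext; simp
      right_inv := fun z => by apply Subtype.ext; simp
      map_mul' := fun z z' => by apply Subtype.ext; simp }
  have hg₁ : ∀ z : Subgroup.center P, ((g₁ z : Subgroup.center P) : P) = (ξ : MulAut P) z :=
    fun z => rfl
  have hg₁pow : ∀ (n : ℕ) (z : Subgroup.center P),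
      (((g₁ ^ n) z : Subgroup.center P) : P) = ((ξ : MulAut P) ^ n) z := by
    intro n
    induction n with
    | zero => intro z; rfl
    | succ n ih =>
      intro z
      rw [pow_succ, pow_succ]
      show (((g₁ ^ n) (g₁ z) : Subgroup.center P) : P) = _
      rw [ih]; rfl
  have hZ2 : ∀ z : Subgroup.center P, z * z = 1 := fun z => Subtype.ext (hc z z.2)
  obtain ⟨β₂, lam, hβ₂bij, hβ₂add, hβ₂g, hβ₂1⟩ := coord hZ2 g₁ ⟨z₀, hz₀c⟩
    (fun h => hz₀ (congrArg Subtype.val h))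
    (by
      rintro ⟨z, hz⟩ hz1
      have hz1' : z ≠ 1 := fun h => hz1 (Subtype.ext h)
      obtain ⟨k, hk, -⟩ := hreg z₀ z hz₀ hz₀2 hz1' (hc z hz)
      obtain ⟨n, rfl⟩ := hξpow k
      exact ⟨n, Subtype.ext (by rw [hg₁pow]; exact hk)⟩)
    (F := GaloisField 2 m) hFcard
  have hβ₁one : β₁ 1 = 0 := by
    have := hβ₁add 1 1
    rw [one_mul] at this
    exact add_eq_left.mp this.symm
  have hβ₂one : β₂ 1 = 0 := by
    have := hβ₂add 1 1
    rw [one_mul] at this
    exact add_eq_left.mp this.symm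
  have hβ₁zero : ∀ v, β₁ v = 0 → v = 1 := fun v h => hβ₁bij.1 (h.trans hβ₁one.symm)
  have hβ₂zero : ∀ z, β₂ z = 0 → z = 1 := fun z h => hβ₂bij.1 (h.trans hβ₂one.symm)
  have hβ₁pow : ∀ (n : ℕ) v, β₁ ((g₂ ^ n) v) = μ ^ n * β₁ v := by
    intro n
    induction n with
    | zero => intro v; simp
    | succ n ih =>
      intro v
      rw [pow_succ, pow_succ]
      show β₁ ((g₂ ^ n) (g₂ v)) = _
      rw [ih, hβ₁g]; ring
  have hβ₂pow : ∀ (n : ℕ) z, β₂ ((g₁ ^ n) z) = lam ^ n * β₂ z := by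
    intro n
    induction n with
    | zero => intro v; simp
    | succ n ih =>
      intro v
      rw [pow_succ, pow_succ]
      show β₂ ((g₁ ^ n) (g₁ v)) = _
      rw [ih, hβ₂g]; ring
  have hμ0 : μ ≠ 0 := by
    intro h
    have := hβ₁g (QuotientGroup.mk x₀)
    rw [h, zero_mul] at this
    have h1 := hβ₁zero _ this
    rw [hg₂] at h1
    exact hx₀ ((aut_mem_center_iff _).mp ((QuotientGroup.eq_one_iff _).mp h1))
  have hpowμ : ∀ u : GaloisField 2 m, u ≠ 0 → ∃ n : ℕ, u = μ ^ n := by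
    intro u hu
    obtain ⟨v, rfl⟩ := hβ₁bij.2 u
    have hv : v ≠ 1 := fun h => hu (by rw [h, hβ₁one])
    obtain ⟨k, rfl⟩ := htr v hv
    obtain ⟨n, rfl⟩ := hξpow k
    refine ⟨n, ?_⟩
    have : (QuotientGroup.mk (((ξ ^ n : K) : MulAut P) x₀) : P ⧸ Subgroup.center P) =
        (g₂ ^ n) (QuotientGroup.mk x₀) := by rw [hg₂pow]; rfl
    rw [this, hβ₁pow, hβ₁1, mul_one]
  have hpowl : ∀ u : GaloisField 2 m, u ≠ 0 → ∃ n : ℕ, u = lam ^ n := by
    intro u hu
    obtain ⟨⟨z, hz⟩, rfl⟩ := hβ₂bij.2 u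
    have hz1 : z ≠ 1 := fun h => hu (by subst h; exact hβ₂one)
    obtain ⟨k, hk, -⟩ := hreg z₀ z hz₀ hz₀2 hz1 (hc z hz)
    obtain ⟨n, rfl⟩ := hξpow k
    refine ⟨n, ?_⟩
    have : (⟨z, hz⟩ : Subgroup.center P) = (g₁ ^ n) ⟨z₀, hz₀c⟩ :=
      Subtype.ext (by rw [hg₁pow]; exact hk.symm)
    rw [this, hβ₂pow, hβ₂1, mul_one]
  let sqZ : P → Subgroup.center P := fun x => ⟨x * x, hsqc x⟩
  have hsqZ : ∀ (x : P) (c : P), c ∈ Subgroup.center P → sqZ (x * c) = sqZ x := by
    intro x c hcc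
    apply Subtype.ext
    show x * c * (x * c) = x * x
    have h1 := Subgroup.mem_center_iff.mp hcc
    calc x * c * (x * c) = x * (c * x) * c := by group
      _ = x * (x * c) * c := by rw [← h1 x]
      _ = x * x * (c * c) := by group
      _ = x * x := by rw [hc c hcc, mul_one]
  let e₁ : (P ⧸ Subgroup.center P) ≃ GaloisField 2 m := Equiv.ofBijective β₁ hβ₁bij
  let S : GaloisField 2 m → GaloisField 2 m := fun u => β₂ (sqZ (e₁.symm u).out)
  have hS : ∀ x : P, S (β₁ (QuotientGroup.mk x)) = β₂ (sqZ x) := by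
    intro x
    show β₂ (sqZ (e₁.symm (e₁ (QuotientGroup.mk x))).out) = _
    rw [Equiv.symm_apply_apply]
    obtain ⟨⟨c, hcc⟩, hh⟩ := QuotientGroup.mk_out_eq_mul (Subgroup.center P) x
    rw [hh, hsqZ x c hcc]
  have h2F : (2 : GaloisField 2 m) = 0 := CharP.cast_eq_zero (GaloisField 2 m) 2
  have hpolar : ∀ x y : P, S (β₁ (QuotientGroup.mk x) + β₁ (QuotientGroup.mk y)) +
      S (β₁ (QuotientGroup.mk x)) + S (β₁ (QuotientGroup.mk y)) =
        β₂ ⟨⁅y, x⁆, (hcomm y x).1⟩ := by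
    intro x y
    rw [← hβ₁add, ← QuotientGroup.mk_mul, hS, hS, hS]
    have : sqZ (x * y) = ⟨⁅y, x⁆, (hcomm y x).1⟩ * (sqZ x * sqZ y) :=
      Subtype.ext (mul_sq hcomm x y)
    rw [this, hβ₂add, hβ₂add]
    linear_combination (β₂ (sqZ x) + β₂ (sqZ y)) * h2F
  have hS0 : S 0 = 0 := by
    have := hS 1
    rw [QuotientGroup.mk_one, hβ₁one] at this
    rw [this]
    have : sqZ 1 = 1 := Subtype.ext (one_mul 1)
    rw [this, hβ₂one]
  have hsurj₁ : ∀ u : GaloisField 2 m, ∃ x : P, β₁ (QuotientGroup.mk x) = u := by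
    intro u
    obtain ⟨v, rfl⟩ := hβ₁bij.2 u
    obtain ⟨x, rfl⟩ := QuotientGroup.mk_surjective v
    exact ⟨x, rfl⟩
  have hSeq : ∀ u, S (μ * u) = lam * S u := by
    intro u
    obtain ⟨x, rfl⟩ := hsurj₁ u
    rw [← hβ₁g, hg₂, hS, hS, ← hβ₂g]
    congr 1
    apply Subtype.ext
    show (ξ : MulAut P) x * (ξ : MulAut P) x = (ξ : MulAut P) (x * x)
    rw [map_mul]
  have hBadd : ∀ u u' v, S (u + u' + v) + S (u + u') + S v =
      (S (u + v) + S u + S v) + (S (u' + v) + S u' + S v) := by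
    intro u u' v
    obtain ⟨x, rfl⟩ := hsurj₁ u
    obtain ⟨x', rfl⟩ := hsurj₁ u'
    obtain ⟨y, rfl⟩ := hsurj₁ v
    rw [hpolar x y, hpolar x' y, ← hβ₁add, ← QuotientGroup.mk_mul, hpolar (x * x') y,
      ← hβ₂add]
    congr 1
    apply Subtype.ext
    exact comm_mul_right hcomm y x x'
  have hBne : ∃ u v, S (u + v) ≠ S u + S v := by
    refine ⟨β₁ (QuotientGroup.mk xa), β₁ (QuotientGroup.mk ya), ?_⟩
    intro h
    have hp := hpolar xa ya
    rw [h] at hp
    have h0 : β₂ ⟨⁅ya, xa⁆, (hcomm ya xa).1⟩ = 0 := by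
      rw [← hp]
      linear_combination
        (S (β₁ (QuotientGroup.mk xa)) + S (β₁ (QuotientGroup.mk ya))) * h2F
    have h1 := hβ₂zero _ h0
    have h1' : ⁅ya, xa⁆ = 1 := congrArg Subtype.val h1
    rw [commutatorElement_eq_one_iff_commute] at h1'
    exact hxy h1'.eq.symm
  obtain ⟨σ, τ, hστ, hSform⟩ := field_quad S μ lam hμ0 hpowμ hS0 hSeq hBadd hBne
  have ha : S 1 ≠ 0 := by
    rw [← hβ₁1, hS]
    intro h
    have := hβ₂zero _ h
    have h1 : x₀ * x₀ = 1 := congrArg Subtype.val this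
    exact hx₀ (hic x₀ h1)
  have hlam : lam = σ μ * τ μ := by
    have := hSeq 1
    rw [mul_one, hSform μ] at this
    have h' : S 1 * (σ μ * τ μ) = S 1 * lam := by rw [this]; ring
    exact (mul_left_cancel₀ ha h').symm
  have hφ : ∀ t, (τ.symm.trans σ) t = σ (τ.symm t) := fun t => rfl
  have hβ₁c : ∀ z : P, τ (β₁ (QuotientGroup.mk z)) = 0 → z ∈ Subgroup.center P := by
    intro z hz
    have : β₁ (QuotientGroup.mk z) = 0 := (map_eq_zero_iff τ τ.injective).mp hz
    exact (QuotientGroup.eq_one_iff z).mp (hβ₁zero _ this)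
  refine ⟨GaloisField 2 m, inferInstance, inferInstance, τ.symm.trans σ, hFcard, ?_, ?_, ?_⟩
  · intro h
    apply hστ
    ext u
    have := congrArg (fun ψ : GaloisField 2 m ≃+* GaloisField 2 m => ψ (τ u)) h
    simpa [hφ] using this
  · apply odd_order_of_inj
    intro u hu huu
    have ht₀ : τ μ ≠ 0 := by
      intro h; exact hμ0 ((map_eq_zero_iff τ τ.injective).mp h)
    obtain ⟨m', hm'⟩ := hpowl (τ μ) ht₀
    have hu' : τ.symm u ≠ 0 := by
      intro h; exact hu ((map_eq_zero_iff τ.symm τ.symm.injective).mp h)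
    obtain ⟨n, hn⟩ := hpowμ (τ.symm u) hu'
    have hun : u = (τ μ) ^ n := by
      have := congrArg τ hn
      rwa [RingEquiv.apply_symm_apply, map_pow] at this
    have hN : (τ.symm.trans σ) u * u = lam ^ n := by
      rw [hun, hφ, map_pow, RingEquiv.symm_apply_apply, map_pow, hlam, mul_pow]
    rw [huu] at hN
    rw [hun, hm', ← pow_mul, mul_comm, pow_mul, ← hN, one_pow]
  · refine iso_typeA ((τ.symm.trans σ : GaloisField 2 m ≃+* GaloisField 2 m) :
        GaloisField 2 m →+* GaloisField 2 m)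
      (fun p => τ (β₁ (QuotientGroup.mk p))) ?_ ?_ hβ₁c
      (fun p => (S 1)⁻¹ * (if h : p ∈ Subgroup.center P then β₂ ⟨p, h⟩ else 0)) ?_ ?_ ?_ ?_
    · intro p p'
      show τ (β₁ (QuotientGroup.mk (p * p'))) = _
      rw [QuotientGroup.mk_mul, hβ₁add, map_add]
    · intro u
      obtain ⟨x, hx⟩ := hsurj₁ (τ.symm u)
      exact ⟨x, by show τ (β₁ (QuotientGroup.mk x)) = u; rw [hx, RingEquiv.apply_symm_apply]⟩
    · intro z z' hz hz'
      have hzc := hβ₁c z hz
      have hzc' := hβ₁c z' hz'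
      show (S 1)⁻¹ * _ = (S 1)⁻¹ * _ + (S 1)⁻¹ * _
      rw [dif_pos hzc, dif_pos hzc', dif_pos (mul_mem hzc hzc')]
      have : (⟨z * z', mul_mem hzc hzc'⟩ : Subgroup.center P) = ⟨z, hzc⟩ * ⟨z', hzc'⟩ := rfl
      rw [this, hβ₂add]; ring
    · intro z hz h
      have hzc := hβ₁c z hz
      have h' : (S 1)⁻¹ * β₂ ⟨z, hzc⟩ = 0 := by
        have h'' : (S 1)⁻¹ * (if h : z ∈ Subgroup.center P then β₂ ⟨z, h⟩ else 0) = 0 := h
        rwa [dif_pos hzc] at h''
      have : β₂ ⟨z, hzc⟩ = 0 := by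
        rcases mul_eq_zero.mp h' with h'' | h''
        · exact absurd h'' (inv_ne_zero ha)
        · exact h''
      exact congrArg Subtype.val (hβ₂zero _ this)
    · intro y
      obtain ⟨⟨z, hz⟩, hzy⟩ := hβ₂bij.2 (S 1 * y)
      refine ⟨z, ?_, ?_⟩
      · show τ (β₁ (QuotientGroup.mk z)) = 0
        rw [(QuotientGroup.eq_one_iff z).mpr hz, hβ₁one, map_zero]
      · show (S 1)⁻¹ * (if h : z ∈ Subgroup.center P then β₂ ⟨z, h⟩ else 0) = y
        rw [dif_pos hz, hzy]
        field_simp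
    · intro p
      refine ⟨?_, ?_⟩
      · show τ (β₁ (QuotientGroup.mk (p * p))) = 0
        rw [(QuotientGroup.eq_one_iff _).mpr (hsqc p), hβ₁one, map_zero]
      · show (S 1)⁻¹ * (if h : p * p ∈ Subgroup.center P then β₂ ⟨p * p, h⟩ else 0) =
          σ (τ.symm (τ (β₁ (QuotientGroup.mk p)))) * τ (β₁ (QuotientGroup.mk p))
        rw [dif_pos (hsqc p)]
        have : β₂ ⟨p * p, hsqc p⟩ = S (β₁ (QuotientGroup.mk p)) := (hS p).symm
        rw [this, hSform (β₁ (QuotientGroup.mk p)), RingEquiv.symm_apply_apply]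
        field_simp

end typeA

end Cfsg.Agent.H14.Suz
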