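import Cfsg.Agent.H51.SyDefs
import Cfsg.Agent.H14.SxStruct
import Cfsg.Agent.H84.SpGLPA

set_option autoImplicit false
set_option linter.unusedVariables false

/-! SY-GENS (helper14, for helper51's S2949 project): every element of odd order of `J(X)` lies in
the subgroup generated by the component elements and `C_X(V)` (Glauberman's structure theorem
S0617 in the holomorph of `V`). -/

open Cfsg
open scoped commutatorElement Pointwise

namespace Cfsg.Agent.H14.Sy

open Cfsg.Agent.H14.Holo Cfsg.Agent.H14.Sx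

universe u

theorem sl22_sq : ∀ e : Matrix.SpecialLinearGroup (Fin 2) (ZMod 2),
    e * e = 1 ∨ e * e = y0 ∨ e * e = y0⁻¹ := by
  decide

/-- Facts on a group isomorphic to `SL(2,2)`: an element `y` of order 3, the elements of order 3
are `y^{±1}`, every square is `1` or `y^{±1}`. -/
theorem s3_sq {E : Type*} [Group E]
    (e : E ≃* Matrix.SpecialLinearGroup (Fin 2) (ZMod 2)) :
    ∃ y : E, y ≠ 1 ∧ y ^ 3 = 1 ∧ (∀ z : E, z ≠ 1 → z ^ 3 = 1 → z = y ∨ z = y⁻¹) ∧
      (∀ g : E, g * g = 1 ∨ g * g = y ∨ g * g = y⁻¹) := by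
  obtain ⟨h1, h2, h3, h4⟩ := sl22_facts
  refine ⟨e.symm y0, ?_, ?_, ?_, ?_⟩
  · intro h
    apply h1
    have := congrArg e h
    simpa using this
  · rw [← map_pow, h2, map_one]
  · intro z hz hz3
    have := h4 (e z) (by intro h; apply hz; apply e.injective; rw [h, map_one])
      (by rw [← map_pow, hz3, map_one])
    rcases this with h | h
    · left
      apply e.injective
      rw [h, e.apply_symm_apply]
    · right
      apply e.injective
      rw [h, map_inv, e.apply_symm_apply]
  · intro g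
    rcases sl22_sq (e g) with h | h | h
    · left
      apply e.injective
      rw [map_mul, h, map_one]
    · right
      left
      apply e.injective
      rw [map_mul, h, e.apply_symm_apply]
    · right
      right
      apply e.injective
      rw [map_mul, h, map_inv, e.apply_symm_apply]

/-- The holomorph-level statement. -/
theorem genS_core {Y : Type u} [Group Y] [Finite Y] (V H : Subgroup Y)
    (hV : IsElementaryAbelian 2 V) (hHV : H ≤ Subgroup.normalizer (V : Set Y))
    (hf : H ⊓ Subgroup.centralizer (V : Set Y) = ⊥)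
    (hS1 : Subgroup.centralizer (pPrimeCore 2 ↥H : Set ↥H) ≤ pPrimeCore 2 ↥H)
    (hS3 : H = ⨆ A : {A : Subgroup Y // A ≤ H ∧ IsBestOffenderOn 2 V A}, (A : Subgroup Y)) :
    ∀ h ∈ H, Odd (orderOf h) → h ∈ Subgroup.closure {s : Y | s ∈ H ∧ s ≠ 1 ∧ s ^ 3 = 1 ∧
      (∀ g ∈ H, g * s * g⁻¹ = s ∨ g * s * g⁻¹ = s⁻¹) ∧
      ∃ W : Subgroup Y, W ≤ V ∧ Nat.card ↥W = 4 ∧ ∀ v ∈ V, s * v * s⁻¹ * v⁻¹ ∈ W} := by
  intro h hh hodd
  haveI : Fact (Nat.Prime 2) := ⟨Nat.prime_two⟩
  by_cases hH1 : H = ⊥
  · rw [hH1, Subgroup.mem_bot] at hh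
    rw [hh]
    exact Subgroup.one_mem _
  obtain ⟨-, hE, hind, hsup, -, -⟩ := Cfsg.Agent.S0617.result V H hV hHV hf hS1 hS3 hH1
  have h1 := Cfsg.Agent.H84.Sn.glpa_odd_mem _ H (fun i => (hE i).1) hind hsup h hh hodd
  refine (Subgroup.closure_le _).mpr ?_ h1
  rintro s ⟨i, e, he, rfl⟩
  obtain ⟨hEnorm, ⟨iso⟩, hEcard⟩ := hE i
  obtain ⟨y, hy1, hy3, hyz, hysq⟩ := s3_sq iso
  have hEH : (i : Subgroup Y) ≤ H :=
    (le_iSup (fun E : {E : Subgroup Y // ∃ A : Subgroup Y, A ≤ H ∧
      Cfsg.IsBestOffenderOn 2 V A ∧ ⁅V, A⁆ ≠ ⊥ ∧ (∀ B : Subgroup Y, B ≤ A →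
        Cfsg.IsBestOffenderOn 2 V B → ⁅V, B⁆ ≠ ⊥ → B = A) ∧
      E = ⁅((Cfsg.pPrimeCore 2 ↥H).map H.subtype), A⁆ ⊔ A} => (E : Subgroup Y)) i).trans
      hsup.le
  have hgood : (y : Y) ∈ {s : Y | s ∈ H ∧ s ≠ 1 ∧ s ^ 3 = 1 ∧
      (∀ g ∈ H, g * s * g⁻¹ = s ∨ g * s * g⁻¹ = s⁻¹) ∧
      ∃ W : Subgroup Y, W ≤ V ∧ Nat.card ↥W = 4 ∧ ∀ v ∈ V, s * v * s⁻¹ * v⁻¹ ∈ W} := by
    refine ⟨hEH y.2, ?_, ?_, ?_, ?_⟩
    · intro h
      apply hy1
      exact Subtype.ext h
    · have := congrArg Subtype.val hy3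
      simpa using this
    · intro g hg
      have hgn := hEnorm hg
      rw [Subgroup.mem_normalizer_iff] at hgn
      have hz : g * (y : Y) * g⁻¹ ∈ (i : Subgroup Y) := (hgn (y : Y)).mp y.2
      have h := hyz ⟨g * (y : Y) * g⁻¹, hz⟩
        (by
          intro h
          apply hy1
          have h' : g * (y : Y) * g⁻¹ = 1 := congrArg Subtype.val h
          apply Subtype.ext
          rw [Subgroup.coe_one]
          have : (y : Y) = g⁻¹ * (g * (y : Y) * g⁻¹) * g := by group
          rw [this, h']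
          group)
        (by
          apply Subtype.ext
          rw [Subgroup.coe_pow, Subgroup.coe_one]
          show (g * (y : Y) * g⁻¹) ^ 3 = 1
          rw [conj_pow]
          have : ((y : Y)) ^ 3 = 1 := by
            have := congrArg Subtype.val hy3
            simpa using this
          rw [this]
          group)
      rcases h with h | h
      · left
        exact congrArg Subtype.val h
      · right
        have := congrArg Subtype.val h
        simpa using this
    · refine ⟨⁅V, (i : Subgroup Y)⁆, ?_, ?_, ?_⟩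
      · rw [Subgroup.commutator_le]
        intro v hv g hg
        have hgn := hHV (hEH hg)
        rw [Subgroup.mem_normalizer_iff] at hgn
        have h1 : g * v⁻¹ * g⁻¹ ∈ V := (hgn v⁻¹).mp (V.inv_mem hv)
        have : ⁅v, g⁆ = v * (g * v⁻¹ * g⁻¹) := by
          rw [commutatorElement_def]
          group
        rw [this]
        exact V.mul_mem hv h1
      · exact hEcard.trans (by norm_num)
      · intro v hv
        have h1 : ⁅(y : Y), v⁆ ∈ ⁅(i : Subgroup Y), V⁆ :=
          Subgroup.commutator_mem_commutator y.2 hv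
        rw [Subgroup.commutator_comm] at h1
        rw [commutatorElement_def] at h1
        exact h1
  rcases hysq ⟨e, he⟩ with h | h | h
  · have h' : e * e = 1 := congrArg Subtype.val h
    rw [SetLike.mem_coe, h']
    exact Subgroup.one_mem _
  · have h' : e * e = (y : Y) := congrArg Subtype.val h
    rw [SetLike.mem_coe, h']
    exact Subgroup.subset_closure hgood
  · have h' : e * e = (y : Y)⁻¹ := by
      have := congrArg Subtype.val h
      simpa using this
    rw [SetLike.mem_coe, h']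
    exact Subgroup.inv_mem _ (Subgroup.subset_closure hgood)

theorem genS : Cfsg.Agent.H51.Sy.StGenS.{u} := by
  intro X _ _ V _ hV hsep hO y hy hodd
  haveI : Fact (Nat.Prime 2) := ⟨Nat.prime_two⟩
  haveI hJn := thompsonSubgroup_normal 2 X
  have hV' := Vh_elemAb V hV
  have hHV : (thompsonSubgroup 2 X).map (psi V) ≤
      Subgroup.normalizer ((Vh V : Subgroup (Hol V)) : Set (Hol V)) := by
    haveI := Vh_normal V
    rw [Subgroup.normalizer_eq_top]
    exact le_top
  have hHR : (thompsonSubgroup 2 X).map (psi V) ≤ (psi V).range := by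
    rintro _ ⟨j, -, rfl⟩
    exact ⟨j, rfl⟩
  have hf : (thompsonSubgroup 2 X).map (psi V) ⊓
      Subgroup.centralizer ((Vh V : Subgroup (Hol V)) : Set (Hol V)) = ⊥ := by
    rw [eq_bot_iff, ← range_faithful V]
    exact inf_le_inf_right _ hHR
  have hnorm : (psi V).range ≤
      Subgroup.normalizer (((thompsonSubgroup 2 X).map (psi V) : Subgroup (Hol V)) :
        Set (Hol V)) := by
    rintro _ ⟨g, rfl⟩
    rw [Subgroup.mem_normalizer_iff]
    intro h
    constructor
    · rintro ⟨j, hj, rfl⟩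
      refine ⟨g * j * g⁻¹, hJn.conj_mem j hj g, ?_⟩
      simp
    · rintro ⟨j, hj, hjh⟩
      refine ⟨g⁻¹ * j * g, ?_, ?_⟩
      · have := hJn.conj_mem j hj g⁻¹
        simpa using this
      · rw [map_mul, map_mul, hjh, map_inv]
        group
  have hS1 := hS1_of_normal (p := 2) (psi V).range ((thompsonSubgroup 2 X).map (psi V)) hHR
    hnorm (range_isPSolvable V hsep) (range_pCore_eq_bot V hO)
  have hS3 : (thompsonSubgroup 2 X).map (psi V) = ⨆ A : {A : Subgroup (Hol V) //
      A ≤ (thompsonSubgroup 2 X).map (psi V) ∧ IsBestOffenderOn 2 (Vh V) A},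
      (A : Subgroup (Hol V)) := by
    apply le_antisymm
    · conv_lhs => unfold Cfsg.thompsonSubgroup
      rw [Subgroup.map_le_iff_le_comap]
      apply sSup_le
      intro A hA
      rw [← Subgroup.map_le_iff_le_comap]
      exact le_iSup (fun A : {A : Subgroup (Hol V) //
        A ≤ (thompsonSubgroup 2 X).map (psi V) ∧ IsBestOffenderOn 2 (Vh V) A} =>
          (A : Subgroup (Hol V)))
        ⟨A.map (psi V), Subgroup.map_mono (le_sSup hA), bestOffender_map V hV hA⟩
    · exact iSup_le fun A => A.2.1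
  have hcore := genS_core (Vh V) _ hV' hHV hf hS1 hS3 (psi V y) (Subgroup.mem_map_of_mem _ hy)
    (Odd.of_dvd_nat hodd (orderOf_map_dvd (psi V) y))
  have hle : Subgroup.closure {s : Hol V | s ∈ (thompsonSubgroup 2 X).map (psi V) ∧ s ≠ 1 ∧
      s ^ 3 = 1 ∧
      (∀ g ∈ (thompsonSubgroup 2 X).map (psi V), g * s * g⁻¹ = s ∨ g * s * g⁻¹ = s⁻¹) ∧
      ∃ W : Subgroup (Hol V), W ≤ Vh V ∧ Nat.card ↥W = 4 ∧
        ∀ v ∈ Vh V, s * v * s⁻¹ * v⁻¹ ∈ W} ≤
      (Subgroup.closure {k : X | Cfsg.Agent.H51.Sy.IsCompElt V k} ⊔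
        Subgroup.centralizer (V : Set X)).map (psi V) := by
    rw [Subgroup.closure_le]
    rintro s ⟨hsH, hy1, hy3, hgy, W, hWV, hW4, hWy⟩
    obtain ⟨k, hk, rfl⟩ := hsH
    refine Subgroup.mem_map_of_mem _ (Subgroup.mem_sup_left (Subgroup.subset_closure ?_))
    refine ⟨hk, ?_, ?_, ?_, ?_⟩
    · intro hkC
      apply hy1
      rw [← psi_ker, MonoidHom.mem_ker] at hkC
      exact hkC
    · rw [← psi_ker, MonoidHom.mem_ker, map_pow]
      exact hy3
    · intro g hg
      rcases hgy (psi V g) (Subgroup.mem_map_of_mem _ hg) with h | h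
      · left
        rw [← psi_ker, MonoidHom.mem_ker, map_mul, map_mul, map_mul, map_inv, map_inv, h]
        group
      · right
        rw [← psi_ker, MonoidHom.mem_ker, map_mul, map_mul, map_mul, map_inv, h]
        group
    · refine ⟨(W.comap (SemidirectProduct.inl : ↥V →* Hol V)).map V.subtype, ?_, ?_⟩
      · have e1 : Nat.card ↥((W.comap (SemidirectProduct.inl : ↥V →* Hol V)).map V.subtype) =
            Nat.card ↥(W.comap (SemidirectProduct.inl : ↥V →* Hol V)) :=
          Nat.card_congr ((W.comap (SemidirectProduct.inl : ↥V →* Hol V)).equivMapOfInjective _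
            V.subtype_injective).symm.toEquiv
        have e2 : Nat.card ↥(W.comap (SemidirectProduct.inl : ↥V →* Hol V)) = Nat.card ↥W := by
          apply Nat.card_congr
          refine Equiv.ofBijective
            (fun v : ↥(W.comap (SemidirectProduct.inl : ↥V →* Hol V)) =>
              (⟨SemidirectProduct.inl (v : ↥V), Subgroup.mem_comap.mp v.2⟩ : ↥W)) ⟨?_, ?_⟩
          · intro v1 v2 h12
            have h3 : (SemidirectProduct.inl (v1 : ↥V) : Hol V) =
                SemidirectProduct.inl (v2 : ↥V) := congrArg Subtype.val h12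
            exact Subtype.ext (SemidirectProduct.inl_injective h3)
          · intro w
            obtain ⟨v, hv⟩ := hWV w.2
            refine ⟨⟨v, ?_⟩, ?_⟩
            · rw [Subgroup.mem_comap, hv]
              exact w.2
            · exact Subtype.ext hv
        rw [e1, e2, hW4]
      · intro v hv
        have h1 := hWy (SemidirectProduct.inl (⟨v, hv⟩ : ↥V)) ⟨_, rfl⟩
        rw [psi_conj, ← map_inv, ← map_mul] at h1
        refine ⟨MulAut.conjNormal k (⟨v, hv⟩ : ↥V) * (⟨v, hv⟩ : ↥V)⁻¹, ?_, ?_⟩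
        · exact h1
        · rw [Subgroup.coe_subtype, Subgroup.coe_mul, MulAut.conjNormal_apply, Subgroup.coe_inv]
  obtain ⟨x', hx', hxy⟩ := hle hcore
  have hker : y * x'⁻¹ ∈ Subgroup.centralizer (V : Set X) := by
    rw [← psi_ker, MonoidHom.mem_ker, map_mul, map_inv, hxy]
    group
  have hyx : y = (y * x'⁻¹) * x' := by group
  rw [hyx]
  exact Subgroup.mul_mem _ (Subgroup.mem_sup_right hker) hx'

example : Cfsg.Agent.H51.Sy.StGenS.{u} := genS

end Cfsg.Agent.H14.Sy

#print axioms Cfsg.Agent.H14.Sy.genS
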