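import Mathlib
import Cfsg.Agent.H42.TiDefs
import Cfsg.Agent.H16.SpdBlock
import Cfsg.Agent.H67.SpdRel
import Cfsg.Agent.H77.SpdHyp
import Cfsg.Agent.H77.SpdFix
import Cfsg.Agent.H77.SpdCompl
import Cfsg.Agent.H18.SpdSum
import Cfsg.Agent.H24.SpdModc
import Cfsg.Agent.H24.SpdSub
import Cfsg.Agent.H99.ElSTR

/-! helper14: piece SPI-STEPODD of helper42's S5955 project. -/

set_option autoImplicit false

namespace Cfsg.Agent.H14.Ti

open Cfsg.Agent.H45 Cfsg.Agent.H42.Spd Cfsg.Agent.H42.Spn Cfsg.Agent.H42.Ti Module Polynomial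

universe u v

/-- helper24's SPD-MODC with all its inputs plugged in. -/
theorem spdModc : StModc.{u, v} :=
  Cfsg.Agent.H24.Spd.modc (Cfsg.Agent.H67.Spd.blockRel Cfsg.Agent.H16.Spd.block)
    Cfsg.Agent.H77.Spd.fix Cfsg.Agent.H77.Spd.compl

/-- helper24's SPD-SUB with all its inputs plugged in. -/
theorem spdSub : StSub.{u, v} :=
  Cfsg.Agent.H24.Spd.sub (Cfsg.Agent.H67.Spd.blockRel Cfsg.Agent.H16.Spd.block)
    Cfsg.Agent.H77.Spd.hyp Cfsg.Agent.H77.Spd.fix Cfsg.Agent.H77.Spd.compl Cfsg.Agent.H18.Spd.sum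

theorem cc_of_odd (F : Type u) [Fintype F] (r : ℕ) (h : Odd (ii F r)) : cc F r = 2 * ii F r := by
  have h' : ¬ Even (orderOf (Fintype.card F : ZMod r)) := Nat.not_even_iff_odd.mpr h
  unfold cc ii
  rw [if_neg h']

theorem cc_of_even (F : Type u) [Fintype F] (r : ℕ) (h : Even (ii F r)) : cc F r = ii F r := by
  have h' : Even (orderOf (Fintype.card F : ZMod r)) := h
  unfold cc ii
  rw [if_pos h']

theorem tiStepOdd : StTiStepOdd.{u, v} := by
  intro F _ _ V _ _ _ r B T hc hodd W hW hlt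
  have hi0 : 0 < ii F r := Cfsg.Agent.H99.El.orderOf_card_pos r hc.prime hc.cast_ne
  have hcc : cc F r = 2 * ii F r := cc_of_odd F r hodd
  obtain ⟨s, hs⟩ := spdModc F V r B T hc W hW
  have hs1 : 1 ≤ s := by
    by_contra hcon
    have : s = 0 := by omega
    rw [this, mul_zero, add_zero] at hs
    omega
  have h1 : kk T W + cc F r * 1 ≤ finrank F W := by
    rw [hs]
    exact Nat.add_le_add_left (Nat.mul_le_mul_left _ hs1) _
  obtain ⟨H, hHW, hHnd, hHf, hHk⟩ := spdSub F V r B T hc W hW 1 0 h1 (by omega)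
  rw [mul_one, mul_zero, add_zero, hcc] at hHf
  rw [mul_zero] at hHk
  have hHinv : ∀ v ∈ H, T v ∈ H :=
    (Module.End.mem_invtSubmodule_iff_forall_mem_of_mem (f := T)).mp hHnd.1
  have hH0 : H ≠ ⊥ := by
    intro h0
    rw [h0, finrank_bot] at hHf
    omega
  have hHker : H ⊓ LinearMap.ker (T - 1) = ⊥ := Submodule.finrank_eq_zero.mp hHk
  obtain ⟨L, hLH, hL0, hLinv, hLmin⟩ := Cfsg.Agent.H99.El.exists_min_invariant T H hHinv hH0
  have hLfix : ∀ v ∈ L, T v = v → v = 0 := by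
    intro v hv hTv
    have h2 : v ∈ H ⊓ LinearMap.ker (T - 1) :=
      ⟨hLH hv, (Cfsg.Agent.H99.El.mem_ker_sub_one T v).mpr hTv⟩
    rw [hHker] at h2
    exact (Submodule.mem_bot F).mp h2
  have hLf : finrank F L = ii F r :=
    Cfsg.Agent.H99.El.finrank_min_invariant T r hc.prime hc.cast_ne hc.pow L hL0 hLinv hLfix hLmin
  have hLinvt : L ∈ T.invtSubmodule :=
    (Module.End.mem_invtSubmodule_iff_forall_mem_of_mem (f := T)).mpr hLinv
  have hPinv : ∀ v ∈ perp B L, T v ∈ perp B L :=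
    (Module.End.mem_invtSubmodule_iff_forall_mem_of_mem (f := T)).mp (hc.good.perp_invt L hLinvt)
  have hTI : TI B L := by
    rcases hLmin (L ⊓ perp B L) inf_le_left (fun v hv => ⟨hLinv v hv.1, hPinv v hv.2⟩) with h | h
    · exfalso
      have hLnd : Nd B T L := ⟨hLinvt, h⟩
      obtain ⟨s', hs'⟩ := spdModc F V r B T hc L hLnd
      have hk0 : kk T L = 0 := by
        unfold kk
        rw [Submodule.finrank_eq_zero, eq_bot_iff, ← hHker]
        exact inf_le_inf_right _ hLH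
      rw [hk0, zero_add, hLf, hcc, mul_assoc] at hs'
      obtain ⟨k, hk⟩ := hodd
      generalize ii F r * s' = m at hs'
      omega
    · intro u hu v hv
      have hv' : v ∈ L ⊓ perp B L := by rw [h]; exact hv
      exact (mem_perp B L v).mp hv'.2 u hu
  exact ⟨H, L, hHW, hHnd, hHf, hLH, hLinvt, hTI, hLf⟩

example : StTiStepOdd.{u, v} := tiStepOdd

end Cfsg.Agent.H14.Ti
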