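import Mathlib
import Cfsg.Agent.H42.TiDefs
import Cfsg.Agent.H14.TiStepOdd

/-! helper14: piece SPI-BUILD of helper42's S5955 project. -/

set_option autoImplicit false

namespace Cfsg.Agent.H14.Ti

open Cfsg.Agent.H45 Cfsg.Agent.H42.Spd Cfsg.Agent.H42.Spn Cfsg.Agent.H42.Ti Module Polynomial

universe u v

section
variable {F : Type u} [Field F] {V : Type v} [AddCommGroup V] [Module F V]
  {B : V →ₗ[F] V →ₗ[F] F} {T : Module.End F V}

/-- No fixed vectors in `W'` implies no fixed vectors in `W ≤ W'`. -/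
theorem kk_eq_zero_of_le [FiniteDimensional F V] {W W' : Submodule F V} (h : W ≤ W')
    (h0 : kk T W' = 0) : kk T W = 0 := by
  unfold kk at h0 ⊢
  rw [Submodule.finrank_eq_zero] at h0 ⊢
  rw [eq_bot_iff, ← h0]
  exact inf_le_inf_right _ h

/-- Inside a subspace of fixed vectors every nonzero nondegenerate subspace contains a
hyperbolic pair of rank 1. -/
theorem hypPair_fixed [Fintype F] [FiniteDimensional F V]
    (hg : Good (RingHom.id F) (-1) B T) (W₂ : Submodule F V)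
    (hfix : ∀ v ∈ W₂, T v = v) (W : Submodule F V) (hWle : W ≤ W₂) (hW : Nd B T W)
    (hpos : 0 < finrank F W) : HypPair B T 1 W := by
  have hW0 : W ≠ ⊥ := by
    intro h
    rw [h, finrank_bot] at hpos
    exact lt_irrefl _ hpos
  obtain ⟨P, hPW, hPnd, hPf⟩ := Cfsg.Agent.H77.Spd.hyp F V B T hg W hW.2 hW0
  have hP0 : P ≠ ⊥ := by
    intro h
    rw [h, finrank_bot] at hPf
    omega
  obtain ⟨v, hvP, hv0⟩ := Submodule.exists_mem_ne_zero_of_ne_bot hP0
  have hPinv : P ∈ T.invtSubmodule := by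
    rw [Module.End.mem_invtSubmodule_iff_forall_mem_of_mem]
    intro x hx
    rw [hfix x (hWle (hPW hx))]
    exact hx
  have hvle : Submodule.span F {v} ≤ P := (Submodule.span_singleton_le_iff_mem v P).mpr hvP
  refine ⟨P, Submodule.span F {v}, hPW, ⟨hPinv, hPnd⟩, by rw [hPf], hvle, ?_, ?_,
    finrank_span_singleton hv0⟩
  · rw [Module.End.mem_invtSubmodule_iff_forall_mem_of_mem]
    intro x hx
    rw [hfix x (hWle (hPW (hvle hx)))]
    exact hx
  · intro a ha b hb
    obtain ⟨c, rfl⟩ := Submodule.mem_span_singleton.mp ha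
    obtain ⟨d, rfl⟩ := Submodule.mem_span_singleton.mp hb
    simp only [map_smul, LinearMap.smul_apply, hg.alt rfl v, smul_zero]

end

theorem tiBuild (hPeel : StTiPeel.{u,v}) (hO : StTiStepOdd.{u,v}) (hE : StTiStepEven.{u,v}) :
    StTiBuild.{u,v} := by
  intro F _ _ V _ _ _ r B T hc s j hj hOdd hEven
  have hiso : Iso B T := ⟨hc.good.alt rfl, hc.good.nondeg, hc.good.isom⟩
  have hi0 : 0 < ii F r := Cfsg.Agent.H99.El.orderOf_card_pos r hc.prime hc.cast_ne
  have hNdTop : Nd B T ⊤ := by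
    refine ⟨(Module.End.mem_invtSubmodule T).2 (fun v _ => Submodule.mem_top), ?_⟩
    rw [eq_bot_iff]
    rintro x ⟨-, hx⟩
    exact (Submodule.mem_bot F).2 (hc.good.nondeg' x (fun u => hx u Submodule.mem_top))
  have hkle : kk T ⊤ ≤ finrank F V := Submodule.finrank_le _
  -- the fixed part
  obtain ⟨W₂, -, hW₂, hW₂f, hW₂k⟩ := spdSub F V r B T hc ⊤ hNdTop 0 j
    (by rw [mul_zero, add_zero, finrank_top]; exact hkle) hj
  rw [mul_zero, zero_add] at hW₂f
  have hW₂fix : ∀ v ∈ W₂, T v = v := by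
    have h1 : W₂ ⊓ LinearMap.ker (T - 1) = W₂ :=
      Submodule.eq_of_le_of_finrank_eq inf_le_left (by rw [hW₂f]; exact hW₂k)
    intro v hv
    rw [← h1] at hv
    exact (Cfsg.Agent.H99.El.mem_ker_sub_one T v).mp hv.2
  obtain ⟨U₂, hU₂le, hU₂inv, hU₂ti, hU₂f⟩ := hPeel F V B T hiso 1 0 W₂ hW₂
    (fun W hWle hW hpos => hypPair_fixed hc.good W₂ hW₂fix W hWle hW hpos) j
    (by rw [hW₂f]; omega)
  rw [one_mul] at hU₂f
  -- the complement
  obtain ⟨hW', -, hW'f, hW'k⟩ := Cfsg.Agent.H77.Spd.compl F V B T hc.good W₂ ⊤ hW₂ hNdTop le_top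
  rw [hW₂f, finrank_top] at hW'f
  rw [hW₂k] at hW'k
  have hU₁ : ∃ U₁ : Submodule F V, U₁ ≤ ⊤ ⊓ perp B W₂ ∧ U₁ ∈ T.invtSubmodule ∧ TI B U₁ ∧
      finrank F U₁ = ii F r * s := by
    by_cases hs0 : s = 0
    · refine ⟨⊥, bot_le, ?_, ?_, ?_⟩
      · rw [Module.End.mem_invtSubmodule_iff_forall_mem_of_mem]
        intro v hv
        rw [(Submodule.mem_bot F).mp hv, map_zero]
        exact Submodule.zero_mem _
      · intro a ha b _
        rw [(Submodule.mem_bot F).mp ha, map_zero, LinearMap.zero_apply]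
      · rw [finrank_bot, hs0, mul_zero]
    · rcases Nat.even_or_odd (ii F r) with hev | hodd
      · have hcc := cc_of_even F r hev
        rcases hEven hev with h | h
        · exact absurd h hs0
        obtain ⟨W₁, hW₁le, hW₁, hW₁f, hW₁k⟩ := spdSub F V r B T hc _ hW'
          ((r - 1) / ii F r + 2 * s - 1) 0 (by rw [hcc]; omega) (by omega)
        rw [mul_zero, add_zero, hcc] at hW₁f
        rw [mul_zero] at hW₁k
        obtain ⟨U₁, hU₁le, hU₁inv, hU₁ti, hU₁f⟩ := hPeel F V B T hiso (ii F r)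
          (ii F r * ((r - 1) / ii F r)) W₁ hW₁
          (fun W hWle hW hlt => hE F V r B T hc hev W hW
            (by rw [kk_eq_zero_of_le hWle hW₁k, zero_add]; exact hlt)) s (Or.inr (by
              rw [hW₁f]
              generalize (r - 1) / ii F r = t
              generalize ii F r = i at hi0
              have e1 : t + 2 * s - 1 = t + 2 * (s - 1) + 1 := by omega
              have e2 : i * (t + 2 * (s - 1) + 1) = i * t + 2 * i * (s - 1) + i := by ring
              rw [e1, e2]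
              omega))
        exact ⟨U₁, hU₁le.trans hW₁le, hU₁inv, hU₁ti, hU₁f⟩
      · have hcc := cc_of_odd F r hodd
        have h := hOdd hodd
        obtain ⟨W₁, hW₁le, hW₁, hW₁f, hW₁k⟩ := spdSub F V r B T hc _ hW' s 0
          (by rw [hcc]; omega) (by omega)
        rw [mul_zero, add_zero, hcc] at hW₁f
        rw [mul_zero] at hW₁k
        obtain ⟨U₁, hU₁le, hU₁inv, hU₁ti, hU₁f⟩ := hPeel F V B T hiso (ii F r) 0 W₁ hW₁
          (fun W hWle hW hlt => hO F V r B T hc hodd W hW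
            (by rw [kk_eq_zero_of_le hWle hW₁k]; exact hlt)) s (Or.inr (by
              rw [hW₁f, zero_add]
              exact Nat.mul_lt_mul_of_pos_left (by omega) (by omega)))
        exact ⟨U₁, hU₁le.trans hW₁le, hU₁inv, hU₁ti, hU₁f⟩
  obtain ⟨U₁, hU₁le, hU₁inv, hU₁ti, hU₁f⟩ := hU₁
  have hU₁perp : ∀ a ∈ U₁, ∀ w ∈ W₂, B w a = 0 :=
    fun a ha w hw => (mem_perp B W₂ a).mp (hU₁le ha).2 w hw
  refine ⟨U₁ ⊔ U₂, ?_, ?_, ?_⟩
  · rw [Module.End.mem_invtSubmodule_iff_forall_mem_of_mem]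
    intro x hx
    obtain ⟨a, ha, b, hb, rfl⟩ := Submodule.mem_sup.mp hx
    rw [map_add]
    exact Submodule.add_mem _
      (Submodule.mem_sup_left
        ((Module.End.mem_invtSubmodule_iff_forall_mem_of_mem (f := T)).mp hU₁inv a ha))
      (Submodule.mem_sup_right
        ((Module.End.mem_invtSubmodule_iff_forall_mem_of_mem (f := T)).mp hU₂inv b hb))
  · intro x hx y hy
    obtain ⟨a, ha, b, hb, rfl⟩ := Submodule.mem_sup.mp hx
    obtain ⟨a', ha', b', hb', rfl⟩ := Submodule.mem_sup.mp hy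
    simp only [map_add, LinearMap.add_apply]
    rw [hU₁ti a ha a' ha', hU₂ti b hb b' hb', hU₁perp a' ha' b (hU₂le hb),
      hc.good.refl (hU₁perp a ha b' (hU₂le hb'))]
    simp
  · have hdisj : U₁ ⊓ U₂ = ⊥ := by
      rw [eq_bot_iff]
      intro x hx
      have h2 : x ∈ W₂ ⊓ perp B W₂ := ⟨hU₂le hx.2, (hU₁le hx.1).2⟩
      rw [hW₂.2] at h2
      exact h2
    have h1 := Submodule.finrank_sup_add_finrank_inf_eq U₁ U₂
    rw [hdisj, finrank_bot, add_zero, hU₁f, hU₂f] at h1
    exact h1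

example (hPeel : StTiPeel.{u,v}) (hO : StTiStepOdd.{u,v}) (hE : StTiStepEven.{u,v}) :
    StTiBuild.{u,v} := tiBuild hPeel hO hE

end Cfsg.Agent.H14.Ti
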