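import Mathlib
import Cfsg.Prelude.Def_ConjugacyFunctors
import Cfsg.Prelude.Def_Solvable
import Cfsg.Prelude.Def_PLocal
import Cfsg.Agent.H40.SecH

set_option autoImplicit false

namespace Cfsg.Agent.H14.TripleFac

open Cfsg Cfsg.Agent.H39 Cfsg.Agent.H40.Sec

universe u

local notation "cj(" g ", " Q ")" => Subgroup.map (MulEquiv.toMonoidHom (MulAut.conj g)) Q
local notation "N(" Q ")" => Subgroup.normalizer (SetLike.coe (Q : Subgroup _))

/-- `Ω₁(Z(T))` as a subgroup of the ambient group. -/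
abbrev oz (p : ℕ) {G : Type*} [Group G] (T : Subgroup G) : Subgroup G :=
  omegaOne p (T ⊓ Subgroup.centralizer (T : Set G))

theorem oz_le (p : ℕ) {G : Type*} [Group G] (T : Subgroup G) :
    oz p T ≤ T ⊓ Subgroup.centralizer (T : Set G) := by
  unfold oz omegaOne
  rw [Subgroup.closure_le]
  intro x hx
  exact hx.1

theorem oz_pow (p : ℕ) {G : Type*} [Group G] (T : Subgroup G) :
    ∀ z ∈ oz p T, z ^ p = 1 := by
  intro z hz
  have key : ∀ z ∈ oz p T, z ∈ T ⊓ Subgroup.centralizer (T : Set G) ∧ z ^ p = 1 := by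
    intro z hz
    unfold oz omegaOne at hz
    induction hz using Subgroup.closure_induction with
    | mem x hx => exact hx
    | one => exact ⟨one_mem _, one_pow _⟩
    | mul x y _ _ hx hy =>
      refine ⟨mul_mem hx.1 hy.1, ?_⟩
      have hc : Commute x y := by
        have := Subgroup.mem_centralizer_iff.mp (Subgroup.mem_inf.mp hy.1).2 x
          (Subgroup.mem_inf.mp hx.1).1
        exact this
      rw [hc.mul_pow, hx.2, hy.2, one_mul]
    | inv x _ hx => exact ⟨inv_mem hx.1, by rw [inv_pow, hx.2, inv_one]⟩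
  exact (key z hz).2

theorem oz_map_le (p : ℕ) {G G' : Type*} [Group G] [Group G'] (f : G →* G') (T : Subgroup G) :
    (oz p T).map f ≤ oz p (T.map f) := by
  rw [Subgroup.map_le_iff_le_comap]
  unfold oz omegaOne
  rw [Subgroup.closure_le]
  intro x hx
  show f x ∈ Subgroup.closure _
  apply Subgroup.subset_closure
  refine ⟨Subgroup.mem_inf.mpr ⟨Subgroup.mem_map_of_mem f (Subgroup.mem_inf.mp hx.1).1, ?_⟩, ?_⟩
  · rw [Subgroup.mem_centralizer_iff]
    rintro _ ⟨t, ht, rfl⟩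
    have := Subgroup.mem_centralizer_iff.mp (Subgroup.mem_inf.mp hx.1).2 t ht
    rw [← map_mul, ← map_mul, this]
  · rw [← map_pow, hx.2, map_one]

theorem oz_subgroupOf (p : ℕ) {G : Type*} [Group G] {M S : Subgroup G} (hSM : S ≤ M) :
    (oz p (S.subgroupOf M)).map M.subtype = oz p S := by
  apply le_antisymm
  · have h1 := oz_map_le p M.subtype (S.subgroupOf M)
    rwa [Subgroup.map_subgroupOf_eq_of_le hSM] at h1
  · unfold oz omegaOne
    rw [Subgroup.closure_le]
    intro x hx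
    have hxS : x ∈ S := (Subgroup.mem_inf.mp hx.1).1
    refine ⟨⟨x, hSM hxS⟩, ?_, rfl⟩
    apply Subgroup.subset_closure
    refine ⟨Subgroup.mem_inf.mpr ⟨Subgroup.mem_subgroupOf.mpr hxS, ?_⟩, ?_⟩
    · rw [Subgroup.mem_centralizer_iff]
      intro t ht
      have := Subgroup.mem_centralizer_iff.mp (Subgroup.mem_inf.mp hx.1).2 (t : G)
        (Subgroup.mem_subgroupOf.mp ht)
      exact Subtype.ext this
    · exact Subtype.ext (by simpa using hx.2)

/-- The factorization class `Y = C(Ω₁Z(T)) N(W(T))`. -/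
def CZ (p : ℕ) (W : ∀ (Q : Type u) [Group Q], Subgroup Q) (Y : Type u) [Group Y] : Prop :=
  ∀ T : Sylow p Y, ∀ x : Y,
    ∃ a ∈ Subgroup.centralizer ((oz p (T : Subgroup Y) : Subgroup Y) : Set Y),
      ∃ b ∈ N(inducedFunctor W (T : Subgroup Y)), x = a * b

theorem CZ.of_equiv {p : ℕ} {W : ∀ (Q : Type u) [Group Q], Subgroup Q}
    (hW : IsCharPFunctor.{u} p W) {Y Y' : Type u} [Group Y] [Group Y'] [Finite Y]
    (e : Y ≃* Y') (h : CZ p W Y) : CZ p W Y' := by
  intro T' x'
  have hr : (T' : Subgroup Y') ≤ e.toMonoidHom.range := by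
    rw [MonoidHom.range_eq_top.mpr e.surjective]; exact le_top
  let T : Sylow p Y := T'.comapOfInjective e.toMonoidHom e.injective hr
  have hT : (T : Subgroup Y) = (T' : Subgroup Y').comap e.toMonoidHom := rfl
  have hTm : (T : Subgroup Y).map e.toMonoidHom = (T' : Subgroup Y') := by
    rw [hT]
    exact Subgroup.map_comap_eq_self_of_surjective e.surjective _
  have hTm' : (T' : Subgroup Y').map e.symm.toMonoidHom = (T : Subgroup Y) := by
    rw [← hTm, Subgroup.map_map]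
    have : (e.symm.toMonoidHom).comp e.toMonoidHom = MonoidHom.id Y := by
      ext y; simp
    rw [this, Subgroup.map_id]
  obtain ⟨a, ha, b, hb, hx⟩ := h T (e.symm x')
  refine ⟨e a, ?_, e b, ?_, ?_⟩
  · rw [Subgroup.mem_centralizer_iff]
    intro z' hz'
    have h1 : e.symm z' ∈ oz p (T : Subgroup Y) := by
      have := oz_map_le p e.symm.toMonoidHom (T' : Subgroup Y')
        (Subgroup.mem_map_of_mem e.symm.toMonoidHom hz')
      rwa [hTm'] at this
    have h2 := Subgroup.mem_centralizer_iff.mp ha _ h1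
    have h3 := congrArg e h2
    simpa using h3
  · have h1 : inducedFunctor W (T' : Subgroup Y') =
        (inducedFunctor W (T : Subgroup Y)).map e.toMonoidHom := by
      rw [← hTm]
      exact induced_map hW e.toMonoidHom (T : Subgroup Y) T.isPGroup'
        (fun x _ hx => e.injective (by rw [map_one]; exact hx))
    rw [h1]
    exact Subgroup.le_normalizer_map e.toMonoidHom (Subgroup.mem_map_of_mem e.toMonoidHom hb)
  · have := congrArg e hx
    simpa using this

/-- **Lemma A.** If all conjugates of `Ω₁Z(S)` lie in `S`, the factorization `C(Ω₁Z) N(W)` in the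
constrained sections shows that every conjugate of `Ω₁Z(S)` is a conjugate under `N(W(S))`. -/
theorem lemmaA {X : Type u} [Group X] [Finite X] {p : ℕ} [Fact p.Prime]
    {W : ∀ (Q : Type u) [Group Q], Subgroup Q} (hW : IsCharPFunctor.{u} p W)
    (hyp : Hyp (fun (Y : Type u) [Group Y] => CZ p W Y) p X) (S : Sylow p X)
    (hV : ∀ x : X, ∀ z ∈ oz p (S : Subgroup X), x * z * x⁻¹ ∈ (S : Subgroup X)) :
    ∀ x : X, ∃ n ∈ N(inducedFunctor W (S : Subgroup X)),
      ∀ z ∈ oz p (S : Subgroup X), x * z * x⁻¹ = n * z * n⁻¹ := by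
  classical
  set Z := oz p (S : Subgroup X) with hZdef
  have hSp : IsPGroup p (S : Subgroup X) := S.isPGroup'
  let V : Subgroup X := Subgroup.normalClosure (Z : Set X)
  haveI hVn : V.Normal := Subgroup.normalClosure_normal
  have hZV : Z ≤ V := Subgroup.le_normalClosure
  have hconj : ∀ a ∈ Group.conjugatesOfSet (Z : Set X), ∃ c : X, ∃ z ∈ Z, a = c * z * c⁻¹ := by
    intro a ha
    obtain ⟨b, hb, hba⟩ := Group.mem_conjugatesOfSet_iff.mp ha
    obtain ⟨c, hc⟩ := isConj_iff.mp hba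
    exact ⟨c, b, hb, hc.symm⟩
  have hVS : V ≤ (S : Subgroup X) := by
    show Subgroup.closure _ ≤ _
    rw [Subgroup.closure_le]
    intro a ha
    obtain ⟨c, z, hz, rfl⟩ := hconj a ha
    exact hV c z hz
  have hZc : ∀ z ∈ Z, ∀ s ∈ (S : Subgroup X), s * z = z * s := by
    intro z hz s hs
    exact Subgroup.mem_centralizer_iff.mp (Subgroup.mem_inf.mp (oz_le p _ hz)).2 s hs
  have hcomm : ∀ a ∈ Group.conjugatesOfSet (Z : Set X),
      ∀ b ∈ Group.conjugatesOfSet (Z : Set X), a * b = b * a := by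
    intro a ha b hb
    obtain ⟨c, z, hz, rfl⟩ := hconj a ha
    obtain ⟨d, z', hz', rfl⟩ := hconj b hb
    have h1 := hZc z' hz' _ (hV (d⁻¹ * c) z hz)
    calc c * z * c⁻¹ * (d * z' * d⁻¹)
        = d * ((d⁻¹ * c) * z * (d⁻¹ * c)⁻¹ * z') * d⁻¹ := by group
      _ = d * (z' * ((d⁻¹ * c) * z * (d⁻¹ * c)⁻¹)) * d⁻¹ := by rw [h1]
      _ = d * z' * d⁻¹ * (c * z * c⁻¹) := by group
  have h2 : ∀ a ∈ Group.conjugatesOfSet (Z : Set X), ∀ w ∈ V, a * w = w * a := by
    intro a ha w hw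
    have h3 : V ≤ Subgroup.centralizer {a} := by
      show Subgroup.closure _ ≤ _
      rw [Subgroup.closure_le]
      intro b hb
      rw [SetLike.mem_coe, Subgroup.mem_centralizer_iff]
      intro y hy
      rw [Set.mem_singleton_iff] at hy
      subst hy
      exact hcomm y ha b hb
    exact Subgroup.mem_centralizer_iff.mp (h3 hw) a rfl
  have hVab : ∀ v ∈ V, ∀ w ∈ V, v * w = w * v := by
    intro v hv w hw
    have h3 : V ≤ Subgroup.centralizer {w} := by
      show Subgroup.closure _ ≤ _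
      rw [Subgroup.closure_le]
      intro a ha
      rw [SetLike.mem_coe, Subgroup.mem_centralizer_iff]
      intro y hy
      rw [Set.mem_singleton_iff] at hy
      subst hy
      exact (h2 a ha y hw).symm
    exact (Subgroup.mem_centralizer_iff.mp (h3 hv) w rfl).symm
  set K₀ : Subgroup X := Subgroup.centralizer (V : Set X) with hK₀
  haveI hK₀n : K₀.Normal := Subgroup.normal_centralizer
  have hVK : V ≤ K₀ := fun v hv => Subgroup.mem_centralizer_iff.mpr (fun w hw => hVab w hw v hv)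
  set Q : Subgroup X := (S : Subgroup X) ⊓ K₀ with hQ
  have hVQ : V ≤ Q := le_inf hVS hVK
  have hQp : IsPGroup p Q := hSp.to_le inf_le_left
  -- Frattini argument
  have hfr : ∀ x : X, ∃ k ∈ K₀, k * x ∈ N(Q) := by
    intro x
    have hsyl : ¬ p ∣ ((S : Subgroup X) ⊓ K₀).relIndex K₀ :=
      sylIn_inf_normal (sylIn_top S) le_top (by rw [Subgroup.normalizer_eq_top])
    have hle : cj(x, Q) ≤ K₀ := by
      rw [conjMap_le_iff]
      intro q hq
      exact hK₀n.conj_mem q (Subgroup.mem_inf.mp hq).2 x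
    obtain ⟨m, hm, hmE⟩ := exists_conj_mem_of_isPGroup (H := K₀) (T := Q) inf_le_right hQp hsyl
      hle (isPGroup_conjMap hQp)
    refine ⟨m, hm, mem_normalizer_of_conjMap_le ?_⟩
    rw [conjMap_mul, conjMap_le_iff]
    exact hmE
  set M : Subgroup X := N(Q) with hMdef
  have hSM : (S : Subgroup X) ≤ M := by
    intro s hs
    apply mem_normalizer_of_conjMap_le
    rw [conjMap_le_iff]
    intro q hq
    exact Subgroup.mem_inf.mpr ⟨mul_mem (mul_mem hs (Subgroup.mem_inf.mp hq).1) (inv_mem hs),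
      hK₀n.conj_mem q (Subgroup.mem_inf.mp hq).2 s⟩
  let SM : Sylow p ↥M := S.subtype hSM
  have hSMc : (SM : Subgroup ↥M) = (S : Subgroup X).subgroupOf M := rfl
  have hSMp : IsPGroup p (SM : Subgroup ↥M) := SM.isPGroup'
  haveI hQn : (Q.subgroupOf M).Normal := Subgroup.normal_in_normalizer
  have hQMp : IsPGroup p (Q.subgroupOf M) :=
    hQp.comap_of_injective M.subtype M.subtype_injective
  have hQcore : Q.subgroupOf M ≤ pCore p ↥M := le_pCore hQn hQMp
  have hcon : Constr p (↥M ⧸ pPrimeCore p ↥M) := by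
    apply constr_quotient_pPrimeCore SM
    intro s hs
    obtain ⟨hs1, hs2⟩ := Subgroup.mem_inf.mp hs
    apply hQcore
    rw [Subgroup.mem_subgroupOf]
    refine Subgroup.mem_inf.mpr ⟨Subgroup.mem_subgroupOf.mp hs1, ?_⟩
    rw [Subgroup.mem_centralizer_iff]
    intro v hv
    have hvM : v ∈ M := Subgroup.le_normalizer (hVQ hv)
    have h1 := Subgroup.mem_centralizer_iff.mp hs2 ⟨v, hvM⟩
      (hQcore (Subgroup.mem_subgroupOf.mpr (hVQ hv)))
    exact congrArg Subtype.val h1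
  set R : Subgroup ↥M := pPrimeCore p ↥M with hRdef
  have hRc : (Nat.card R).Coprime p := Cfsg.Agent.H40.card_pPrimeCore_coprime p ↥M
  have hsec : IsSec (↥M ⧸ R) X := (IsSec.quotient R).trans (IsSec.subgroup M)
  have hcz : CZ p W (↥M ⧸ R) := hyp (↥M ⧸ R) hsec hcon
  let T : Sylow p (↥M ⧸ R) := SM.mapSurjective (QuotientGroup.mk'_surjective R)
  have hTc : (T : Subgroup (↥M ⧸ R)) = (SM : Subgroup ↥M).map (QuotientGroup.mk' R) := rfl
  have hRp : ∀ d : ↥M, d ∈ R → (∃ k : ℕ, d ^ p ^ k = 1) → d = 1 := by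
    rintro d hd ⟨k, hk⟩
    have h1 : orderOf d ∣ Nat.card R := Subgroup.orderOf_dvd_natCard R hd
    have h2 : orderOf d ∣ p ^ k := orderOf_dvd_of_pow_eq_one hk
    have h3 : orderOf d ∣ Nat.gcd (Nat.card R) (p ^ k) := Nat.dvd_gcd h1 h2
    have h4 : Nat.gcd (Nat.card R) (p ^ k) = 1 := Nat.Coprime.pow_right k hRc
    rw [h4] at h3
    exact orderOf_eq_one_iff.mp (Nat.dvd_one.mp h3)
  have hinj : ∀ x ∈ (SM : Subgroup ↥M), QuotientGroup.mk' R x = 1 → x = 1 := by
    intro x hx hx1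
    have hxR : x ∈ R := (QuotientGroup.eq_one_iff x).mp hx1
    obtain ⟨k, hk⟩ := hSMp ⟨x, hx⟩
    exact hRp x hxR ⟨k, by simpa using congrArg Subtype.val hk⟩
  have hindT : inducedFunctor W (T : Subgroup (↥M ⧸ R)) =
      (inducedFunctor W (SM : Subgroup ↥M)).map (QuotientGroup.mk' R) := by
    rw [hTc]
    exact induced_map hW (QuotientGroup.mk' R) (SM : Subgroup ↥M) hSMp hinj
  have hWp : IsPGroup p (inducedFunctor W (SM : Subgroup ↥M)) :=
    hSMp.to_le (Subgroup.map_subtype_le _)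
  have hindS : inducedFunctor W (S : Subgroup X) =
      (inducedFunctor W (SM : Subgroup ↥M)).map M.subtype := by
    have h1 := induced_map hW M.subtype (SM : Subgroup ↥M) hSMp
      (fun x _ hx => Subtype.ext (by simpa using hx))
    rw [← h1, hSMc, Subgroup.map_subgroupOf_eq_of_le hSM]
  have hM : ∀ m : ↥M, ∃ n ∈ N(inducedFunctor W (S : Subgroup X)),
      ∀ z ∈ Z, (m : X) * z * (m : X)⁻¹ = n * z * n⁻¹ := by
    intro m
    obtain ⟨a, ha, b, hb, hab⟩ := hcz T (QuotientGroup.mk' R m⁻¹)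
    obtain ⟨b₀, rfl⟩ := QuotientGroup.mk'_surjective R b
    rw [hindT] at hb
    obtain ⟨r, hr, hrb⟩ := exists_mem_normalizer_mk_eq R hRc
      (inducedFunctor W (SM : Subgroup ↥M)) hWp b₀ hb
    set n₀ : ↥M := r * b₀ with hn₀
    have hn₀mk : QuotientGroup.mk' R n₀ = QuotientGroup.mk' R b₀ := by
      have hr1 : QuotientGroup.mk' R r = 1 := (QuotientGroup.eq_one_iff r).mpr hr
      rw [hn₀, map_mul, hr1, one_mul]
    refine ⟨((n₀⁻¹ : ↥M) : X), ?_, ?_⟩
    · rw [hindS]
      exact Subgroup.le_normalizer_map M.subtype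
        (Subgroup.mem_map_of_mem M.subtype (inv_mem hrb))
    · intro z hz
      have hz2 : z ∈ (oz p ((S : Subgroup X).subgroupOf M)).map M.subtype := by
        rw [oz_subgroupOf p hSM]; exact hz
      obtain ⟨z', hz', rfl⟩ := hz2
      have hz'T : QuotientGroup.mk' R z' ∈ oz p (T : Subgroup (↥M ⧸ R)) := by
        rw [hTc, hSMc]
        exact oz_map_le p (QuotientGroup.mk' R) _ (Subgroup.mem_map_of_mem _ hz')
      have hcm := Subgroup.mem_centralizer_iff.mp ha _ hz'T
      have hmk : QuotientGroup.mk' R (m * z' * m⁻¹) = QuotientGroup.mk' R (n₀⁻¹ * z' * n₀) := by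
        have e1 : QuotientGroup.mk' R m = (QuotientGroup.mk' R b₀)⁻¹ * a⁻¹ := by
          rw [map_inv] at hab
          rw [← inv_inv (QuotientGroup.mk' R m), hab, mul_inv_rev]
        have e2 : a⁻¹ * QuotientGroup.mk' R z' * a = QuotientGroup.mk' R z' := by
          rw [mul_assoc, hcm, inv_mul_cancel_left]
        simp only [map_mul, map_inv, hn₀mk]
        rw [e1]
        calc (QuotientGroup.mk' R b₀)⁻¹ * a⁻¹ * QuotientGroup.mk' R z' *
              ((QuotientGroup.mk' R b₀)⁻¹ * a⁻¹)⁻¹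
            = (QuotientGroup.mk' R b₀)⁻¹ * (a⁻¹ * QuotientGroup.mk' R z' * a) *
              QuotientGroup.mk' R b₀ := by group
          _ = _ := by rw [e2]
      set d : ↥M := (m * z' * m⁻¹) * (n₀⁻¹ * z' * n₀)⁻¹ with hd
      have hdR : d ∈ R := by
        have h1 : QuotientGroup.mk' R d = 1 := by
          rw [hd, map_mul, map_inv, hmk, mul_inv_cancel]
        exact (QuotientGroup.eq_one_iff d).mp h1
      have hz'V : (z' : X) ∈ V := hZV hz
      have hdV : (d : X) ∈ V := by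
        have h1 : (d : X) = ((m : X) * (z' : X) * (m : X)⁻¹) *
            ((n₀ : X)⁻¹ * (z' : X) * ((n₀ : X)⁻¹)⁻¹)⁻¹ := by
          rw [hd]; simp
        rw [h1]
        exact mul_mem (hVn.conj_mem _ hz'V _) (inv_mem (hVn.conj_mem _ hz'V _))
      have hd1 : d = 1 := by
        apply hRp d hdR
        obtain ⟨k, hk⟩ := (hSp.to_le hVS) ⟨(d : X), hdV⟩
        exact ⟨k, Subtype.ext (by simpa using congrArg Subtype.val hk)⟩
      have hfin : m * z' * m⁻¹ = n₀⁻¹ * z' * n₀ := by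
        rw [hd] at hd1; exact mul_inv_eq_one.mp hd1
      have := congrArg Subtype.val hfin
      simpa using this
  intro x
  obtain ⟨k, hk, hkx⟩ := hfr x
  obtain ⟨n, hn, hnz⟩ := hM ⟨k * x, hkx⟩
  refine ⟨n, hn, fun z hz => ?_⟩
  have h1 := hnz z hz
  have hv : x * z * x⁻¹ ∈ V := hVn.conj_mem z (hZV hz) x
  have h3 := Subgroup.mem_centralizer_iff.mp hk _ hv
  rw [← h1]
  show x * z * x⁻¹ = k * x * z * (k * x)⁻¹
  calc x * z * x⁻¹ = (x * z * x⁻¹ * k) * k⁻¹ := by group
    _ = k * (x * z * x⁻¹) * k⁻¹ := by rw [h3]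
    _ = k * x * z * (k * x)⁻¹ := by group

/-- Lemma A for a subgroup `H ≥ S` of `G`. -/
theorem lemmaA_sub {G : Type u} [Group G] [Finite G] {p : ℕ} [Fact p.Prime]
    {W : ∀ (Q : Type u) [Group Q], Subgroup Q} (hW : IsCharPFunctor.{u} p W)
    (hyp : Hyp (fun (Y : Type u) [Group Y] => CZ p W Y) p G) (S : Sylow p G)
    (H : Subgroup G) (hSH : (S : Subgroup G) ≤ H)
    (hV : ∀ h ∈ H, ∀ z ∈ oz p (S : Subgroup G), h * z * h⁻¹ ∈ (S : Subgroup G)) :
    ∀ h ∈ H, ∃ n ∈ H ⊓ N(inducedFunctor W (S : Subgroup G)),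
      ∀ z ∈ oz p (S : Subgroup G), h * z * h⁻¹ = n * z * n⁻¹ := by
  let SH : Sylow p ↥H := S.subtype hSH
  have hSHc : (SH : Subgroup ↥H) = (S : Subgroup G).subgroupOf H := rfl
  have hSHp : IsPGroup p (SH : Subgroup ↥H) := SH.isPGroup'
  have hyp' : Hyp (fun (Y : Type u) [Group Y] => CZ p W Y) p ↥H :=
    hyp.of_isSec (IsSec.subgroup H)
  have hV' : ∀ x : ↥H, ∀ z ∈ oz p (SH : Subgroup ↥H), x * z * x⁻¹ ∈ (SH : Subgroup ↥H) := by
    intro x z hz
    rw [hSHc, Subgroup.mem_subgroupOf]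
    have hz' : (z : G) ∈ oz p (S : Subgroup G) := by
      rw [← oz_subgroupOf p hSH]; exact Subgroup.mem_map_of_mem H.subtype hz
    simpa using hV x x.2 z hz'
  have hindS : inducedFunctor W (S : Subgroup G) =
      (inducedFunctor W (SH : Subgroup ↥H)).map H.subtype := by
    have h1 := induced_map hW H.subtype (SH : Subgroup ↥H) hSHp
      (fun x _ hx => Subtype.ext (by simpa using hx))
    rw [← h1, hSHc, Subgroup.map_subgroupOf_eq_of_le hSH]
  intro h hh
  obtain ⟨n, hn, hnz⟩ := lemmaA hW hyp' SH hV' ⟨h, hh⟩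
  refine ⟨(n : G), Subgroup.mem_inf.mpr ⟨n.2, ?_⟩, ?_⟩
  · rw [hindS]
    exact Subgroup.le_normalizer_map H.subtype (Subgroup.mem_map_of_mem H.subtype hn)
  · intro z hz
    have hz2 : z ∈ (oz p ((S : Subgroup G).subgroupOf H)).map H.subtype := by
      rw [oz_subgroupOf p hSH]; exact hz
    obtain ⟨z', hz', rfl⟩ := hz2
    have := congrArg Subtype.val (hnz z' hz')
    simpa using this

/-- Control of strong fusion by a family, for a subgroup `H ≥ S`. -/
theorem fsf_sub {G : Type u} [Group G] [Finite G] {p : ℕ} [Fact p.Prime]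
    {𝓦 : Set (∀ (Q : Type u) [Group Q], Subgroup Q)} (h𝓦 : ∀ W ∈ 𝓦, IsCharPFunctor.{u} p W)
    (hyp : Hyp (fun (Y : Type u) [Group Y] =>
      FamilyControlsStrongFusionIn p (IndFam 𝓦 Y) ⊤) p G)
    (S : Sylow p G) (H : Subgroup G) (hSH : (S : Subgroup G) ≤ H) :
    FSF (IndFam 𝓦 G) H (S : Subgroup G) := by
  have h1 := fsf_of_hyp h𝓦 _ ↥H rfl (hyp.of_isSec (IsSec.subgroup H)) (S.subtype hSH)
  have h2 := FSF.of_subtype h𝓦 H (S.subtype hSH).isPGroup' h1
  have h3 : ((S.subtype hSH : Sylow p ↥H) : Subgroup ↥H).map H.subtype = (S : Subgroup G) := by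
    rw [Sylow.coe_subtype, Subgroup.map_subgroupOf_eq_of_le hSH]
  rwa [h3] at h2

theorem fchain_mem {G : Type u} [Group G] {W₁ W₂ : ∀ (Q : Type u) [Group Q], Subgroup Q}
    {K T B : Subgroup G} {g : G} (d : FChain (IndFam {W₁, W₂} G) K T B g) (L : Subgroup G)
    (h1 : K ⊓ N(inducedFunctor W₁ T) ≤ L) (h2 : K ⊓ N(inducedFunctor W₂ T) ≤ L) : g ∈ L := by
  induction d with
  | nil B => exact one_mem _
  | cons B x g W' hW' hx hxN _ _ ih =>
    obtain ⟨W₀, hW₀, rfl⟩ := hW'
    rcases hW₀ with rfl | hW₀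
    · exact mul_mem ih (h1 (Subgroup.mem_inf.mpr ⟨hx, hxN⟩))
    · rw [Set.mem_singleton_iff] at hW₀
      subst hW₀
      exact mul_mem ih (h2 (Subgroup.mem_inf.mpr ⟨hx, hxN⟩))

theorem le_normalizer_closure {G : Type*} [Group G] [Finite G] (L : Subgroup G) (s : Set G)
    (h : ∀ l ∈ L, ∀ y ∈ s, l * y * l⁻¹ ∈ s) : L ≤ N(Subgroup.closure s) := by
  intro l hl
  apply mem_normalizer_of_conjMap_le
  rw [Subgroup.map_le_iff_le_comap, Subgroup.closure_le]
  intro y hy
  have h1 := h l hl y hy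
  show (MulAut.conj l).toMonoidHom y ∈ Subgroup.closure s
  exact Subgroup.subset_closure (by simpa using h1)

/-- The set of conjugates of `Ω₁Z(S)` under `H ∩ N(W(S))`. -/
def cs (p : ℕ) {G : Type u} [Group G] (S H : Subgroup G)
    (W : ∀ (Q : Type u) [Group Q], Subgroup Q) : Set G :=
  {y | ∃ n ∈ H ⊓ N(inducedFunctor W S), ∃ z ∈ oz p S, y = n * z * n⁻¹}

theorem cs_stable (p : ℕ) {G : Type u} [Group G] (S H : Subgroup G)
    (W : ∀ (Q : Type u) [Group Q], Subgroup Q) :
    ∀ l ∈ H ⊓ N(inducedFunctor W S), ∀ y ∈ cs p S H W, l * y * l⁻¹ ∈ cs p S H W := by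
  rintro l hl _ ⟨n, hn, z, hz, rfl⟩
  exact ⟨l * n, mul_mem hl hn, z, hz, by group⟩

/-- The main induction over the subgroups containing `S`. -/
theorem main {G : Type u} [Group G] [Finite G] {p : ℕ} [Fact p.Prime]
    {W₁ W₂ : ∀ (Q : Type u) [Group Q], Subgroup Q} (hW₁ : IsCharPFunctor.{u} p W₁)
    (hW₂ : IsCharPFunctor.{u} p W₂)
    (hyp1 : Hyp (fun (Y : Type u) [Group Y] => CZ p W₁ Y) p G)
    (hyp2 : Hyp (fun (Y : Type u) [Group Y] => CZ p W₂ Y) p G)
    (hypF : Hyp (fun (Y : Type u) [Group Y] =>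
      FamilyControlsStrongFusionIn p (IndFam {W₁, W₂} Y) ⊤) p G)
    (S : Sylow p G)
    (hZ : oz p (S : Subgroup G) ≤
      inducedFunctor W₁ (S : Subgroup G) ⊓ inducedFunctor W₂ (S : Subgroup G)) :
    ∀ (n : ℕ) (H : Subgroup G), Nat.card H = n → (S : Subgroup G) ≤ H →
      Subgroup.closure (cs p (S : Subgroup G) H W₁) = Subgroup.closure (cs p (S : Subgroup G) H W₂) ∧
      ∀ B : Subgroup G, B ≤ (S : Subgroup G) → ∀ h ∈ H, cj(h, B) ≤ (S : Subgroup G) →
        ∃ x ∈ H ⊓ N(Subgroup.closure (cs p (S : Subgroup G) H W₁)),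
          ∀ b ∈ B, x * b * x⁻¹ = h * b * h⁻¹ := by
  intro n
  induction n using Nat.strong_induction_on with
  | _ n ih =>
  intro H hn hSH
  have hSp : IsPGroup p (S : Subgroup G) := S.isPGroup'
  have hS1 : (S : Subgroup G) ≤ N(inducedFunctor W₁ (S : Subgroup G)) :=
    sylow_le_normalizer_induced hW₁ hSp
  have hS2 : (S : Subgroup G) ≤ N(inducedFunctor W₂ (S : Subgroup G)) :=
    sylow_le_normalizer_induced hW₂ hSp
  have hW1S : inducedFunctor W₁ (S : Subgroup G) ≤ (S : Subgroup G) := Subgroup.map_subtype_le _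
  have hW2S : inducedFunctor W₂ (S : Subgroup G) ≤ (S : Subgroup G) := Subgroup.map_subtype_le _
  have h𝓦 : ∀ W ∈ ({W₁, W₂} : Set (∀ (Q : Type u) [Group Q], Subgroup Q)),
      IsCharPFunctor.{u} p W := by
    rintro W (rfl | rfl)
    · exact hW₁
    · exact hW₂
  by_cases hcase : H ≤ N(inducedFunctor W₁ (S : Subgroup G)) ∨
      H ≤ N(inducedFunctor W₂ (S : Subgroup G))
  · have hV : ∀ h ∈ H, ∀ z ∈ oz p (S : Subgroup G), h * z * h⁻¹ ∈ (S : Subgroup G) := by
      intro h hh z hz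
      rcases hcase with hc | hc
      · exact hW1S ((Subgroup.mem_normalizer_iff.mp (hc hh) z).mp (hZ hz).1)
      · exact hW2S ((Subgroup.mem_normalizer_iff.mp (hc hh) z).mp (hZ hz).2)
    have hA1 := lemmaA_sub hW₁ hyp1 S H hSH hV
    have hA2 := lemmaA_sub hW₂ hyp2 S H hSH hV
    have e1 : cs p (S : Subgroup G) H W₁ =
        {y | ∃ h ∈ H, ∃ z ∈ oz p (S : Subgroup G), y = h * z * h⁻¹} := by
      ext y
      constructor
      · rintro ⟨n, hn, z, hz, rfl⟩
        exact ⟨n, (Subgroup.mem_inf.mp hn).1, z, hz, rfl⟩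
      · rintro ⟨h, hh, z, hz, rfl⟩
        obtain ⟨n, hn, hnz⟩ := hA1 h hh
        exact ⟨n, hn, z, hz, hnz z hz⟩
    have e2 : cs p (S : Subgroup G) H W₂ =
        {y | ∃ h ∈ H, ∃ z ∈ oz p (S : Subgroup G), y = h * z * h⁻¹} := by
      ext y
      constructor
      · rintro ⟨n, hn, z, hz, rfl⟩
        exact ⟨n, (Subgroup.mem_inf.mp hn).1, z, hz, rfl⟩
      · rintro ⟨h, hh, z, hz, rfl⟩
        obtain ⟨n, hn, hnz⟩ := hA2 h hh
        exact ⟨n, hn, z, hz, hnz z hz⟩
    refine ⟨by rw [e1, e2], ?_⟩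
    intro B _ h hh _
    refine ⟨h, Subgroup.mem_inf.mpr ⟨hh, ?_⟩, fun b _ => rfl⟩
    rw [e1]
    refine le_normalizer_closure H _ ?_ hh
    rintro l hl _ ⟨h', hh', z, hz, rfl⟩
    exact ⟨l * h', mul_mem hl hh', z, hz, by group⟩
  · push_neg at hcase
    obtain ⟨hc1, hc2⟩ := hcase
    have hlt1 : H ⊓ N(inducedFunctor W₁ (S : Subgroup G)) < H :=
      lt_of_le_of_ne inf_le_left (fun e => hc1 (by rw [← e]; exact inf_le_right))
    have hlt2 : H ⊓ N(inducedFunctor W₂ (S : Subgroup G)) < H :=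
      lt_of_le_of_ne inf_le_left (fun e => hc2 (by rw [← e]; exact inf_le_right))
    have ih1 := ih _ (by rw [← hn]; exact card_lt_card_of_lt hlt1)
      (H ⊓ N(inducedFunctor W₁ (S : Subgroup G))) rfl (le_inf hSH hS1)
    have ih2 := ih _ (by rw [← hn]; exact card_lt_card_of_lt hlt2)
      (H ⊓ N(inducedFunctor W₂ (S : Subgroup G))) rfl (le_inf hSH hS2)
    have e11 : cs p (S : Subgroup G) (H ⊓ N(inducedFunctor W₁ (S : Subgroup G))) W₁ =
        cs p (S : Subgroup G) H W₁ := by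
      unfold cs; rw [inf_assoc, inf_idem]
    have e22 : cs p (S : Subgroup G) (H ⊓ N(inducedFunctor W₂ (S : Subgroup G))) W₂ =
        cs p (S : Subgroup G) H W₂ := by
      unfold cs; rw [inf_assoc, inf_idem]
    have e12 : cs p (S : Subgroup G) (H ⊓ N(inducedFunctor W₁ (S : Subgroup G))) W₂ =
        cs p (S : Subgroup G) (H ⊓ N(inducedFunctor W₂ (S : Subgroup G))) W₁ := by
      unfold cs; rw [inf_right_comm]
    have hP1 : Subgroup.closure (cs p (S : Subgroup G) H W₁) =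
        Subgroup.closure (cs p (S : Subgroup G) H W₂) := by
      rw [← e11, ih1.1, e12, ih2.1, e22]
    refine ⟨hP1, ?_⟩
    intro B hB h hh hhB
    have hfsf := fsf_sub h𝓦 hypF S H hSH
    obtain ⟨g', d, hg'⟩ := hfsf B hB h hh hhB
    refine ⟨g', ?_, hg'⟩
    apply fchain_mem d
    · exact le_inf inf_le_left (le_normalizer_closure _ _ (cs_stable p _ H W₁))
    · rw [hP1]
      exact le_inf inf_le_left (le_normalizer_closure _ _ (cs_stable p _ H W₂))

theorem closure_comm {G : Type*} [Group G] (s : Set G) (h : ∀ a ∈ s, ∀ b ∈ s, a * b = b * a) :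
    ∀ v ∈ Subgroup.closure s, ∀ w ∈ Subgroup.closure s, v * w = w * v := by
  have h2 : ∀ a ∈ s, ∀ w ∈ Subgroup.closure s, a * w = w * a := by
    intro a ha w hw
    have h3 : Subgroup.closure s ≤ Subgroup.centralizer {a} := by
      rw [Subgroup.closure_le]
      intro b hb
      rw [SetLike.mem_coe, Subgroup.mem_centralizer_iff]
      intro y hy
      rw [Set.mem_singleton_iff] at hy
      subst hy
      exact h y ha b hb
    exact Subgroup.mem_centralizer_iff.mp (h3 hw) a rfl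
  intro v hv w hw
  have h3 : Subgroup.closure s ≤ Subgroup.centralizer {w} := by
    rw [Subgroup.closure_le]
    intro a ha
    rw [SetLike.mem_coe, Subgroup.mem_centralizer_iff]
    intro y hy
    rw [Set.mem_singleton_iff] at hy
    subst hy
    exact (h2 a ha y hw).symm
  exact (Subgroup.mem_centralizer_iff.mp (h3 hv) w rfl).symm

theorem closure_pow {G : Type*} [Group G] (s : Set G) (p : ℕ)
    (h : ∀ a ∈ s, ∀ b ∈ s, a * b = b * a) (hp : ∀ a ∈ s, a ^ p = 1) :
    ∀ v ∈ Subgroup.closure s, v ^ p = 1 := by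
  have hc := closure_comm s h
  have key : ∀ v ∈ Subgroup.closure s, v ∈ Subgroup.closure s ∧ v ^ p = 1 := by
    intro v hv
    induction hv using Subgroup.closure_induction with
    | mem x hx => exact ⟨Subgroup.subset_closure hx, hp x hx⟩
    | one => exact ⟨one_mem _, one_pow _⟩
    | mul x y _ _ hx hy =>
      refine ⟨mul_mem hx.1 hy.1, ?_⟩
      have hcm : Commute x y := hc x hx.1 y hy.1
      rw [hcm.mul_pow, hx.2, hy.2, one_mul]
    | inv x _ hx => exact ⟨inv_mem hx.1, by rw [inv_pow, hx.2, inv_one]⟩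
  exact fun v hv => (key v hv).2

end Cfsg.Agent.H14.TripleFac
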