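import Mathlib
import Cfsg.Agent.H42.UnDefs
import Cfsg.Agent.H42.UnBase
import Cfsg.Agent.H42.SpdEx
import Cfsg.Agent.H45.CycFactor
import Cfsg.Agent.H48.PrimeOrdU
import Cfsg.Agent.H17.GUDet

/-!
# helper14: piece UN-EX of helper42's S5954 project

Elements of `SU_n(q)` of odd prime order `r ≠ p`, `r ∤ q + 1`, with a prescribed number of blocks
(port of helper42's `SpdEx`).
-/

set_option autoImplicit false

namespace Cfsg.Agent.H14.Un

open Cfsg.Agent.H45 Cfsg.Agent.H42.Spd Cfsg.Agent.H42.Un Module Matrix Polynomial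

universe u

section Ex

variable {F : Type u} [Field F] [Fintype F]

/-- The block polynomial (unitary case). -/
theorem exists_block_poly_u (p : ℕ) [Fact p.Prime] [CharP F p] (q : ℕ)
    (hF : Fintype.card F = q ^ 2) (σ : F →+* F) (hσq : ∀ x, σ x = x ^ q) (r : ℕ) (hr : r.Prime)
    (hr2 : r ≠ 2) (hrp : r ≠ p) :
    ∃ P₀ : F[X], Realizable σ 1 p P₀ ∧ P₀.natDegree = cu q r ∧ P₀ ∣ (X ^ r - 1) ^ 2 ∧
      P₀.eval 1 ≠ 0 := by
  classical
  have hp : p.Prime := Fact.out
  have hfr : Fact r.Prime := ⟨hr⟩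
  have hr3 : 3 ≤ r := by
    have := hr.two_le
    omega
  have hrF : ((r : ℕ) : F) ≠ 0 := by
    intro h
    have h1 : p ∣ r := (CharP.cast_eq_zero_iff F p r).mp h
    exact hrp ((Nat.prime_dvd_prime_iff_eq hp hr).mp h1).symm
  have hcyc : ¬ IsUnit (cyclotomic r F) := by
    intro h
    have h1 := natDegree_eq_zero_of_isUnit h
    rw [natDegree_cyclotomic] at h1
    exact (Nat.totient_pos.mpr (by omega)).ne' h1
  obtain ⟨f, hfm, hf, hfdvd⟩ := exists_monic_irreducible_factor (cyclotomic r F) hcyc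
  obtain ⟨hdeg, hf0, -, -, -⟩ := cyc_factor r (by omega) hrF f hf hfm hfdvd
  have hfX' : f ∣ X ^ r - 1 := dvd_trans hfdvd (cyclotomic.dvd_X_pow_sub_one r F)
  have hf1 : f.eval 1 ≠ 0 := by
    intro h0
    obtain ⟨g, hg⟩ := hfdvd
    have h1 := congrArg (Polynomial.eval 1) hg
    rw [eval_mul, h0, zero_mul, eval_one_cyclotomic_prime] at h1
    exact hrF h1
  have hσ : ∀ a, σ (σ a) = a := sigma_invol hF σ hσq
  have hσne : σ ≠ RingHom.id F := by
    intro hid
    obtain ⟨a, ha⟩ := sigma_nontriv hF σ hσq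
    apply ha
    rw [hid]
    rfl
  have hε : (1 : F) * σ 1 = 1 := by rw [map_one, mul_one]
  obtain ⟨i, hi⟩ : ∃ i, i = orderOf (q : ZMod r) := ⟨_, rfl⟩
  have hcard : ((Fintype.card F : ℕ) : ZMod r) = (q : ZMod r) ^ 2 := by
    rw [hF]
    push_cast
    rfl
  have hdeg' : f.natDegree = i / Nat.gcd i 2 := by
    rw [hdeg, hcard, hi]
    exact orderOf_pow' _ (by norm_num)
  have hcu : cu q r = if i % 4 = 0 then i else if i % 4 = 2 then i / 2 else 2 * i := by
    rw [hi]
    rfl
  by_cases h2 : i % 4 = 2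
  · -- self-dual `f`
    have hgcd : Nat.gcd i 2 = 2 := Nat.gcd_eq_right (by omega)
    rw [hgcd] at hdeg'
    obtain ⟨hpow, hodd⟩ := Cfsg.Agent.H48.pow_half_of_mod_four r (q : ZMod r)
      (by rw [← hi]; exact h2)
    rw [← hi] at hpow hodd
    have hre : r ∣ q ^ (i / 2) + 1 := by
      rw [← ZMod.natCast_eq_zero_iff]
      push_cast
      rw [hpow]
      ring
    have hsd : f ∣ dualPoly σ f :=
      Cfsg.Agent.H48.dvd_dualPoly_of_odd hF σ hσq r (i / 2) hodd hre f hf hfX'
    refine ⟨f, realizable_sd p hσ 1 hε f hf hfm hf0 hsd (Or.inl hσne), ?_,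
      dvd_trans hfX' (dvd_pow_self _ (by norm_num)), hf1⟩
    rw [hcu, if_neg (by omega), if_pos h2, hdeg']
  · -- pair `f f^*`
    have hr2' := realizable_nsd (σ := σ) p hσ 1 hε (fun h => absurd h hσne) f hfm hf0
    have hσf0 : σ (f.coeff 0) ≠ 0 := (map_ne_zero σ).mpr hf0
    have hc : C (σ (f.coeff 0))⁻¹ ≠ 0 := by
      rw [Ne, C_eq_zero, inv_eq_zero]
      exact hσf0
    have hd := dualPoly_ne_zero σ f hf0
    have hdual : dualPoly σ f ∣ X ^ r - 1 := by
      rw [dualPoly_eq_reverse]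
      apply reverse_dvd_X_pow_sub_one r (f.map σ)
      have h1 := Polynomial.map_dvd σ hfX'
      rw [Polynomial.map_sub, Polynomial.map_pow, Polynomial.map_X, Polynomial.map_one] at h1
      exact h1
    refine ⟨_, hr2', ?_, ?_, ?_⟩
    · rw [natDegree_mul hfm.ne_zero (mul_ne_zero hc hd), natDegree_mul hc hd, natDegree_C, zero_add,
        dualPoly_natDegree _ _ hf0, hdeg', hcu]
      by_cases h0 : i % 4 = 0
      · rw [if_pos h0]
        have hgcd : Nat.gcd i 2 = 2 := Nat.gcd_eq_right (by omega)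
        rw [hgcd]
        omega
      · rw [if_neg h0, if_neg h2]
        have hgcd : Nat.gcd i 2 = 1 :=
          Nat.coprime_two_right.mpr (Nat.odd_iff.mpr (by omega))
        rw [hgcd, Nat.div_one]
        ring
    · rw [pow_two]
      apply mul_dvd_mul hfX'
      exact (IsUnit.mul_left_dvd (Polynomial.isUnit_C.mpr (IsUnit.mk0 _ (inv_ne_zero hσf0)))).mpr
        hdual
    · rw [eval_mul, eval_mul, eval_C, dualPoly_eq_reverse, eval_one_reverse, eval_map,
        eval₂_at_one]
      exact mul_ne_zero hf1 (mul_ne_zero (inv_ne_zero hσf0) ((map_ne_zero σ).mpr hf1))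

/-- Models: a nondegenerate hermitian space of dimension `n` with a semisimple isometry `g`,
`g ^ r = 1`, whose fixed space has dimension `k`. -/
def UModel (F : Type u) [Field F] (σ : F →+* F) (r n k : ℕ) : Prop :=
  ∃ (V : Type u) (_ : AddCommGroup V) (_ : Module F V) (_ : FiniteDimensional F V)
    (B : V →ₗ[F] V →ₛₗ[σ] F) (g : Module.End F V),
    Good σ 1 B g ∧ g ^ r = 1 ∧ Module.finrank F V = n ∧
      Module.finrank F ↥(LinearMap.ker (g - 1)) = k

theorem umodel_std (q : ℕ) (hF : Fintype.card F = q ^ 2) (σ : F →+* F)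
    (hσq : ∀ x, σ x = x ^ q) (r k : ℕ) : UModel F σ r k k := by
  have hfin : Module.finrank F (Fin k → F) = k := by
    rw [Module.finrank_fintype_fun_eq_card, Fintype.card_fin]
  refine ⟨Fin k → F, inferInstance, inferInstance, inferInstance, hermB σ k, 1,
    (uiso_std_one hF σ hσq k).good_one, one_pow r, hfin, ?_⟩
  rw [sub_self, LinearMap.ker_zero, finrank_top, hfin]

omit [Fintype F] in
theorem umodel_add (p : ℕ) [Fact p.Prime] [CharP F p] (σ : F →+* F) (r : ℕ) (hpr : ¬ p ∣ r)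
    (n₁ k₁ n₂ k₂ : ℕ) (h₁ : UModel F σ r n₁ k₁) (h₂ : UModel F σ r n₂ k₂) :
    UModel F σ r (n₁ + n₂) (k₁ + k₂) := by
  obtain ⟨V₁, _, _, _, B₁, g₁, hd₁, hg₁, hn₁, hk₁⟩ := h₁
  obtain ⟨V₂, _, _, _, B₂, g₂, hd₂, hg₂, hn₂, hk₂⟩ := h₂
  let B : (V₁ × V₂) →ₗ[F] (V₁ × V₂) →ₛₗ[σ] F :=
    LinearMap.mk₂'ₛₗ (RingHom.id F) σ (fun x y => B₁ x.1 y.1 + B₂ x.2 y.2)
      (by
        intro x x' y
        simp only [Prod.fst_add, Prod.snd_add, map_add, LinearMap.add_apply]
        abel)
      (by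
        intro c x y
        simp only [Prod.smul_fst, Prod.smul_snd, map_smul, LinearMap.smul_apply, smul_add,
          RingHom.id_apply])
      (by
        intro x y y'
        simp only [Prod.fst_add, Prod.snd_add, map_add]
        abel)
      (by
        intro c x y
        simp only [Prod.smul_fst, Prod.smul_snd, LinearMap.map_smulₛₗ, smul_add])
  have hB : ∀ x y, B x y = B₁ x.1 y.1 + B₂ x.2 y.2 := fun x y => rfl
  have hgr : (g₁.prodMap g₂) ^ r = 1 := by
    rw [prodMap_pow', hg₁, hg₂, LinearMap.prodMap_one]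
  refine ⟨V₁ × V₂, inferInstance, inferInstance, inferInstance, B, g₁.prodMap g₂,
    ⟨?_, ?_, ?_, ?_, ?_⟩, hgr, ?_, ?_⟩
  · intro x y
    rw [hB, hB, hd₁.herm, hd₂.herm, map_add, mul_add]
  · intro x hx
    apply Prod.ext
    · apply hd₁.nondeg
      intro y
      have := hx (y, 0)
      rw [hB] at this
      simpa using this
    · apply hd₂.nondeg
      intro y
      have := hx (0, y)
      rw [hB] at this
      simpa using this
  · intro h x
    rw [hB, hd₁.alt h, hd₂.alt h, add_zero]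
  · intro x y
    rw [hB, hB]
    simp only [LinearMap.prodMap_apply]
    rw [hd₁.isom, hd₂.isom]
  · exact isSemisimple_of_pow_eq_one p _ _ hpr hgr
  · rw [Module.finrank_prod, hn₁, hn₂]
  · have hker : LinearMap.ker (g₁.prodMap g₂ - 1) =
        (LinearMap.ker (g₁ - 1)).prod (LinearMap.ker (g₂ - 1)) := by
      ext ⟨x, y⟩
      simp only [LinearMap.mem_ker, LinearMap.sub_apply, LinearMap.prodMap_apply,
        Module.End.one_apply, Submodule.mem_prod, Prod.mk_sub_mk, Prod.mk_eq_zero]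
    rw [hker, ← hk₁, ← hk₂, ← Module.finrank_prod]
    exact LinearEquiv.finrank_eq
      { toFun := fun x => (⟨x.1.1, x.2.1⟩, ⟨x.1.2, x.2.2⟩)
        invFun := fun y => ⟨(y.1.1, y.2.1), ⟨y.1.2, y.2.2⟩⟩
        map_add' := fun _ _ => rfl
        map_smul' := fun _ _ => rfl
        left_inv := fun _ => rfl
        right_inv := fun _ => rfl }

theorem umodel_block (p : ℕ) [Fact p.Prime] [CharP F p] (q : ℕ)
    (hF : Fintype.card F = q ^ 2) (σ : F →+* F) (hσq : ∀ x, σ x = x ^ q) (r : ℕ) (hr : r.Prime)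
    (hr2 : r ≠ 2) (hrp : r ≠ p) : UModel F σ r (cu q r) 0 := by
  obtain ⟨P₀, ⟨V, _, _, _, B, g, hd, hc, m, hm, hgm⟩, hdeg, hdvd, h1⟩ :=
    exists_block_poly_u (F := F) p q hF σ hσq r hr hr2 hrp
  have hsep : (X ^ m - C (1 : F)).Separable :=
    separable_X_pow_sub_C' p m (1 : F) hm one_ne_zero
  have hmin1 : minpoly F g ∣ X ^ m - C (1 : F) := by
    apply minpoly.dvd
    simp [hgm]
  have hsq : Squarefree (minpoly F g) := hsep.squarefree.squarefree_of_dvd hmin1
  have hmin2 : minpoly F g ∣ (X ^ r - 1) ^ 2 :=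
    dvd_trans (LinearMap.minpoly_dvd_charpoly g) (hc ▸ hdvd)
  have hmin3 : minpoly F g ∣ X ^ r - 1 := (hsq.dvd_pow_iff_dvd (by norm_num)).mp hmin2
  have hgr : g ^ r = 1 := by
    obtain ⟨h, hh⟩ := hmin3
    have h2 := congrArg (aeval g) hh
    rw [map_mul, minpoly.aeval, zero_mul, map_sub, map_pow, aeval_X, map_one] at h2
    exact sub_eq_zero.mp h2
  refine ⟨V, inferInstance, inferInstance, inferInstance, B, g, hd, hgr, ?_, ?_⟩
  · rw [← LinearMap.charpoly_natDegree g, hc, hdeg]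
  · have hker : LinearMap.ker (g - 1) = ⊥ := by
      rw [eq_bot_iff]
      intro v hv
      rw [LinearMap.mem_ker, LinearMap.sub_apply, Module.End.one_apply, sub_eq_zero] at hv
      rw [Submodule.mem_bot]
      have h2 : aeval g P₀ v = P₀.eval 1 • v := by
        by_cases hv0 : v = 0
        · rw [hv0, map_zero, smul_zero]
        · exact Module.End.aeval_apply_of_hasEigenvector
            ⟨Module.End.mem_eigenspace_iff.mpr (by rw [hv, one_smul]), hv0⟩
      have h4 : aeval g P₀ = 0 := by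
        rw [← hc]
        exact LinearMap.aeval_self_charpoly g
      rw [h4, LinearMap.zero_apply] at h2
      rcases smul_eq_zero.mp h2.symm with h3 | h3
      · exact absurd h3 h1
      · exact h3
    rw [hker, finrank_bot]

theorem umodel_blocks (p : ℕ) [Fact p.Prime] [CharP F p] (q : ℕ)
    (hF : Fintype.card F = q ^ 2) (σ : F →+* F) (hσq : ∀ x, σ x = x ^ q) (r : ℕ) (hr : r.Prime)
    (hr2 : r ≠ 2) (hrp : r ≠ p) (k s : ℕ) : UModel F σ r (cu q r * s + k) k := by
  have hp : p.Prime := Fact.out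
  have hpr : ¬ p ∣ r := fun h => hrp ((Nat.prime_dvd_prime_iff_eq hp hr).mp h).symm
  induction s with
  | zero =>
    rw [mul_zero, zero_add]
    exact umodel_std q hF σ hσq r k
  | succ s ih =>
    have h := umodel_add p σ r hpr _ _ _ _ (umodel_block (F := F) p q hF σ hσq r hr hr2 hrp) ih
    have e1 : cu q r * (s + 1) + k = cu q r + (cu q r * s + k) := by ring
    rw [e1]
    rw [zero_add] at h
    exact h

/-- Transport of a model to the standard hermitian space. -/
theorem exists_su_of_umodel (q : ℕ) (hF : Fintype.card F = q ^ 2) (σ : F →+* F)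
    (hσq : ∀ x, σ x = x ^ q) (r : ℕ) (hr : r.Prime) (hr2 : r ≠ 2)
    (hord : orderOf (q : ZMod r) ≠ 2) (n k : ℕ) (h : UModel F σ r n k) :
    ∃ x : Matrix.SpecialLinearGroup (Fin n) F, x ∈ Cfsg.SU n F q ∧ x ^ r = 1 ∧
      Module.finrank F ↥(LinearMap.ker
        (Matrix.toLin' (x : Matrix (Fin n) (Fin n) F) - 1)) = k := by
  classical
  obtain ⟨V, _, _, _, B, g, hd, hgr, hn, hk⟩ := h
  have huiso : UIso B g := by
    refine ⟨sigma_invol hF σ hσq, sigma_nontriv hF σ hσq, ?_, hd.nondeg, hd.isom⟩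
    intro x y
    rw [hd.herm, one_mul]
  obtain ⟨e, he⟩ := exists_iso_std hF σ hσq B g huiso n hn
  obtain ⟨g', hg'⟩ : ∃ g' : Module.End F (Fin n → F), g' = e.conj g := ⟨_, rfl⟩
  have hg'iso : ∀ x y, hermB σ n (g' x) (g' y) = hermB σ n x y := by
    intro x y
    rw [hg', LinearEquiv.conj_apply_apply, LinearEquiv.conj_apply_apply, he, hd.isom, ← he,
      e.apply_symm_apply, e.apply_symm_apply]
  have hg'r : g' ^ r = 1 := by
    have h1 : e.conj (g ^ r) = (e.conj g) ^ r := map_pow e.conjRingEquiv g r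
    rw [hg', ← h1, hgr]
    exact LinearEquiv.conj_id e
  obtain ⟨A, hA⟩ : ∃ A : Matrix (Fin n) (Fin n) F, A = LinearMap.toMatrix' g' := ⟨_, rfl⟩
  have h2 : ∀ z, g' z = A *ᵥ z := by
    intro z
    rw [hA, ← Matrix.toLin'_apply, Matrix.toLin'_toMatrix']
  have hApres : ∀ u v, Cfsg.hermForm n F q (A *ᵥ u) (A *ᵥ v) = Cfsg.hermForm n F q u v := by
    intro u v
    rw [← h2, ← h2, ← hermB_eq_hermForm σ hσq, ← hermB_eq_hermForm σ hσq]
    exact hg'iso u v
  have hAr : A ^ r = 1 := by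
    apply Matrix.toLin'.injective
    rw [Matrix.toLin'_pow, hA, Matrix.toLin'_toMatrix', hg'r, Matrix.toLin'_one]
    rfl
  have hdet : A.det = 1 := by
    have hd1 : A.det ^ r = 1 := by rw [← Matrix.det_pow, hAr, Matrix.det_one]
    have hd2 : A.det ^ (q + 1) = 1 := Cfsg.Agent.H17.gu_det_pow hF n A hApres
    have hcop : Nat.gcd r (q + 1) = 1 := by
      rw [← Nat.coprime_iff_gcd_eq_one]
      rw [Nat.Prime.coprime_iff_not_dvd hr]
      intro hdvd
      apply hord
      haveI : Fact r.Prime := ⟨hr⟩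
      have h3 : (q : ZMod r) = -1 := by
        have h4 : ((q + 1 : ℕ) : ZMod r) = 0 := (ZMod.natCast_eq_zero_iff _ _).mpr hdvd
        push_cast at h4
        exact eq_neg_of_add_eq_zero_left h4
      rw [h3, orderOf_neg_one, ZMod.ringChar_zmod_n, if_neg hr2]
    have h5 : A.det ^ Nat.gcd r (q + 1) = 1 := pow_gcd_eq_one.mpr ⟨hd1, hd2⟩
    rw [hcop, pow_one] at h5
    exact h5
  obtain ⟨x, hx⟩ : ∃ x : Matrix.SpecialLinearGroup (Fin n) F,
      (x : Matrix (Fin n) (Fin n) F) = A := ⟨⟨A, hdet⟩, rfl⟩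
  refine ⟨x, (mem_SU_iff n x).mpr (by rw [hx]; exact hApres), ?_, ?_⟩
  · apply Subtype.ext
    rw [Matrix.SpecialLinearGroup.coe_pow, hx, hAr]
    rfl
  · rw [hx, hA, Matrix.toLin'_toMatrix', ← hk]
    have hker : LinearMap.ker (g' - 1) = (LinearMap.ker (g - 1)).map e.toLinearMap := by
      ext z
      rw [LinearMap.mem_ker, Submodule.mem_map]
      constructor
      · intro hz
        refine ⟨e.symm z, ?_, e.apply_symm_apply z⟩
        rw [LinearMap.mem_ker, LinearMap.sub_apply, Module.End.one_apply, sub_eq_zero]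
        rw [LinearMap.sub_apply, Module.End.one_apply, sub_eq_zero, hg',
          LinearEquiv.conj_apply_apply] at hz
        apply e.injective
        rw [hz, e.apply_symm_apply]
      · rintro ⟨w, hw, rfl⟩
        rw [LinearMap.mem_ker, LinearMap.sub_apply, Module.End.one_apply, sub_eq_zero] at hw
        rw [LinearMap.sub_apply, Module.End.one_apply, sub_eq_zero, hg',
          LinearEquiv.conj_apply_apply]
        show e (g (e.symm (e w))) = e w
        rw [e.symm_apply_apply, hw]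
    rw [hker]
    exact LinearEquiv.finrank_eq
      (Submodule.equivMapOfInjective e.toLinearMap e.injective (LinearMap.ker (g - 1))).symm

/-- UN-EX. -/
theorem uEx : StUEx.{u} := by
  intro F _ _ p _ _ q hF r hr hr2 hrp hord n s hs
  obtain ⟨σ, hσq⟩ := Cfsg.Agent.H7.exists_frobQ hF
  have hmod := umodel_blocks (F := F) p q hF σ hσq r hr hr2 hrp (n - cu q r * s) s
  have e1 : cu q r * s + (n - cu q r * s) = n := by omega
  rw [e1] at hmod
  obtain ⟨x, hxm, hxr, hxk⟩ := exists_su_of_umodel q hF σ hσq r hr hr2 hord n _ hmod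
  exact ⟨x, hxm, hxr, by rw [hxk]; omega⟩

example : Cfsg.Agent.H42.Un.StUEx.{u} := uEx

end Ex

end Cfsg.Agent.H14.Un
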