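import Cfsg.Agent.H58.UqDefs
import Cfsg.Agent.H14.UqNormWG

set_option autoImplicit false

/-! UQ-S (helper14, for helper58's S2950 project): the piece `StS`, hypothesis-free (route B:
Glauberman's structure theorem S0617 in the holomorph; the hypothesis `∃ g, K ∈ 𝒦₀(T^g)` is not
used). -/

open Cfsg

namespace Cfsg.Agent.H14.Uq

universe u

theorem s : Cfsg.Agent.H58.Uq.StS.{u} := by
  intro G _ _ hZN T hT hT1 L hLT K hKc hKL _ l hl
  exact conj_thompson_le_normalizer_wOf hZN.1 hZN.2.1 hZN.2.2 T hT hT1 L hLT K hKc hKL l hl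

example : Cfsg.Agent.H58.Uq.StS.{u} := s

end Cfsg.Agent.H14.Uq

#print axioms Cfsg.Agent.H14.Uq.s
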