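import Cfsg.Agent.H14.TFail
import Cfsg.Agent.H47.OffenderStruct3
import Cfsg.Agent.H2.Coprime
import Cfsg.Agent.H19.PGroupAct

/-!
# Fixed points of a coprime operator group on a group generated by best offenders
(K–S 9.3.9/9.3.10; S0620, S0621)
-/

set_option autoImplicit false
open Cfsg
open scoped commutatorElement Pointwise

namespace Cfsg.Agent.H14.XFix

open Cfsg.Agent.H47.Off

universe u

variable {G : Type u} [Group G]

/-- Conjugation action of the normalizer of `H` on `H`. -/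
def conjN (H : Subgroup G) : ↥(Subgroup.normalizer (H : Set G)) →* MulAut ↥H where
  toFun x :=
    { toFun := fun h => ⟨x * h * (x : G)⁻¹, (Subgroup.mem_normalizer_iff.mp x.2 h).mp h.2⟩
      invFun := fun h => ⟨(x : G)⁻¹ * h * x, by
        have := (Subgroup.mem_normalizer_iff.mp (Subgroup.inv_mem _ x.2) h).mp h.2
        simpa using this⟩
      left_inv := fun h => by apply Subtype.ext; simp [mul_assoc]
      right_inv := fun h => by apply Subtype.ext; simp [mul_assoc]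
      map_mul' := fun a b => by apply Subtype.ext; simp [mul_assoc] }
  map_one' := by ext h; simp
  map_mul' := fun x y => by ext h; simp [mul_assoc]

theorem conjN_apply (H : Subgroup G) (x : ↥(Subgroup.normalizer (H : Set G))) (h : ↥H) :
    ((conjN H x h : ↥H) : G) = x * h * (x : G)⁻¹ := rfl

theorem normalizer_le_normalizer_qc (p : ℕ) (H : Subgroup G) :
    Subgroup.normalizer (H : Set G) ≤ Subgroup.normalizer (qc p H : Set G) := by
  apply le_normalizer_of_conj_mem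
  rintro y hy _ ⟨r, hr, rfl⟩
  refine ⟨conjN H ⟨y, hy⟩ r, ?_, rfl⟩
  have := Cfsg.Agent.H14.pPrimeCore_map_equiv_le p (conjN H ⟨y, hy⟩)
  exact this ⟨r, hr, rfl⟩

theorem mem_normalizer_of_cj_eq {E : Subgroup G} {u : G} (h : cj u E = E) :
    u ∈ Subgroup.normalizer (E : Set G) := by
  rw [Subgroup.mem_normalizer_iff]
  intro x
  constructor
  · intro hx
    rw [← h]
    exact conj_mem_cj hx
  · intro hx
    rw [← h, mem_cj] at hx
    have e : u⁻¹ * (u * x * u⁻¹) * u = x := by group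
    rwa [e] at hx

theorem isTrans_cj {p : ℕ} {V H A : Subgroup G} {x : G}
    (hxV : x ∈ Subgroup.normalizer (V : Set G)) (hxH : x ∈ Subgroup.normalizer (H : Set G))
    (hA : IsTrans p V H A) : IsTrans p V H (cj x A) := by
  refine ⟨?_, ?_, ?_⟩
  · have := cj_mono (x := x) hA.1
    rwa [cj_eq_self hxH] at this
  · rw [card_cj]; exact hA.2.1
  · rw [commutator_cj hxV, card_cj]; exact hA.2.2

theorem cj_comp {p : ℕ} {H A : Subgroup G} {x : G}
    (hxH : x ∈ Subgroup.normalizer (H : Set G)) :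
    cj x (⁅qc p H, A⁆ ⊔ A) = ⁅qc p H, cj x A⁆ ⊔ cj x A := by
  rw [cj_sup]
  congr 1
  rw [cj, Subgroup.map_commutator,
    map_conj_eq_of_mem_normalizer (normalizer_le_normalizer_qc p H hxH)]

/-- Reindexing a product of commuting factors over a finite type. -/
theorem noncommProd_univ_equiv {ι : Type*} [Fintype ι] {β : Type*} [Monoid β] (σ : ι ≃ ι)
    (f : ι → β) (comm) (comm') :
    (Finset.univ : Finset ι).noncommProd (fun i => f (σ i)) comm' =
      (Finset.univ : Finset ι).noncommProd f comm := by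
  unfold Finset.noncommProd
  congr 1
  have h : (fun i => f (σ i)) = f ∘ σ := rfl
  rw [h, ← Multiset.map_map, Multiset.map_univ_val_equiv]

/-- Sylow intersected with a normal subgroup, in index form. -/
theorem not_dvd_relIndex_inf [Finite G] {p : ℕ} {T K N : Subgroup G} (hTK : T ≤ K)
    (hidx : ¬ p ∣ T.relIndex K) (hNK : N ≤ K) (hnorm : K ≤ Subgroup.normalizer (N : Set G)) :
    ¬ p ∣ (T ⊓ N).relIndex N := by
  have e1 := Cfsg.Agent.H14.Holo.card_sup_mul_card_inf T N (hTK.trans hnorm)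
  have e2 : (T ⊓ N).relIndex N * Nat.card ↥(T ⊓ N) = Nat.card N :=
    Cfsg.Agent.H14.relIndex_mul_card' inf_le_right
  have e3 : T.relIndex (T ⊔ N) * Nat.card T = Nat.card ↥(T ⊔ N) :=
    Cfsg.Agent.H14.relIndex_mul_card' le_sup_left
  have e4 : (T ⊓ N).relIndex N = T.relIndex (T ⊔ N) := by
    have hpos1 : 0 < Nat.card ↥(T ⊓ N) := Nat.card_pos
    have hpos2 : 0 < Nat.card T := Nat.card_pos
    have : (T ⊓ N).relIndex N * (Nat.card ↥(T ⊓ N) * Nat.card T) =
        T.relIndex (T ⊔ N) * (Nat.card ↥(T ⊓ N) * Nat.card T) := by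
      calc _ = Nat.card N * Nat.card T := by rw [← e2]; ring
        _ = Nat.card ↥(T ⊔ N) * Nat.card ↥(T ⊓ N) := by rw [e1]; ring
        _ = _ := by rw [← e3]; ring
    exact Nat.eq_of_mul_eq_mul_right (Nat.mul_pos hpos1 hpos2) this
  rw [e4]
  intro h
  apply hidx
  rw [← Subgroup.relIndex_mul_relIndex T (T ⊔ N) K le_sup_left (sup_le hTK hNK)]
  exact Dvd.dvd.mul_right h _

/-- A `p`-subgroup is conjugate into any subgroup of index prime to `p`. -/
theorem exists_conj_mem_of_index {Z : Type*} [Group Z] [Finite Z] {p : ℕ} [Fact p.Prime]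
    (P N : Subgroup Z) (hP : IsPGroup p ↥P) (hN : ¬ p ∣ N.index) :
    ∃ g : Z, ∀ x ∈ P, g⁻¹ * x * g ∈ N := by
  have h1 : ¬ p ∣ Nat.card (Z ⧸ N) := by rwa [← Subgroup.index_eq_card]
  obtain ⟨q, hq⟩ := hP.nonempty_fixed_point_of_prime_not_dvd_card (Z ⧸ N) h1
  obtain ⟨g, rfl⟩ := QuotientGroup.mk_surjective q
  refine ⟨g, fun x hx => ?_⟩
  have h2 := hq ⟨x, hx⟩
  have h3 : ((x * g : Z) : Z ⧸ N) = (g : Z ⧸ N) := h2
  rw [QuotientGroup.eq] at h3
  have h4 := N.inv_mem h3
  have e : ((x * g)⁻¹ * g)⁻¹ = g⁻¹ * x * g := by group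
  rwa [e] at h4

/-- The hypotheses of the structure theorem (helper47's `H47.Off.structure_theorem`, S0617) hold
for the image `H = ψ(J(G))` of the Thompson subgroup in the holomorph of
`V = ⟨Ω₁(Z(S)) : S ∈ Syl_p(G)⟩`, when `G` is `p`-solvable with `O_{p'}(G) = 1`. -/
theorem setup617 [Finite G] {p : ℕ} [Fact p.Prime] (hsep : IsPSolvable p G)
    (hO : pPrimeCore p G = ⊥)
    (V : Subgroup G) [V.Normal] (hVdef : V = Cfsg.Agent.H14.sylowCenterV p G) :
    IsElementaryAbelian p (Cfsg.Agent.H14.Holo.Vh V) ∧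
    (thompsonSubgroup p G).map (Cfsg.Agent.H14.Holo.psi V) ≤
        Subgroup.normalizer ((Cfsg.Agent.H14.Holo.Vh V : Subgroup (Cfsg.Agent.H14.Holo.Hol V)) :
          Set (Cfsg.Agent.H14.Holo.Hol V)) ∧
    (thompsonSubgroup p G).map (Cfsg.Agent.H14.Holo.psi V) ⊓
        Subgroup.centralizer ((Cfsg.Agent.H14.Holo.Vh V : Subgroup (Cfsg.Agent.H14.Holo.Hol V)) :
          Set (Cfsg.Agent.H14.Holo.Hol V)) = ⊥ ∧
    Subgroup.centralizer (pPrimeCore p ↥((thompsonSubgroup p G).map (Cfsg.Agent.H14.Holo.psi V)) :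
          Set ↥((thompsonSubgroup p G).map (Cfsg.Agent.H14.Holo.psi V))) ≤
        pPrimeCore p ↥((thompsonSubgroup p G).map (Cfsg.Agent.H14.Holo.psi V)) ∧
    (thompsonSubgroup p G).map (Cfsg.Agent.H14.Holo.psi V) =
      ⨆ A : {A : Subgroup (Cfsg.Agent.H14.Holo.Hol V) //
        A ≤ (thompsonSubgroup p G).map (Cfsg.Agent.H14.Holo.psi V) ∧
          IsBestOffenderOn p (Cfsg.Agent.H14.Holo.Vh V) A}, (A : Subgroup (Cfsg.Agent.H14.Holo.Hol V)) := by
  have hV : IsElementaryAbelian p V := by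
    rw [hVdef]; exact Cfsg.Agent.H14.Holo.sylowCenterV_elemAb hsep hO
  have hO' := Cfsg.Agent.H14.Holo.pCore_quotient_eq_bot (p := p) V hVdef
  haveI hJn := Cfsg.Agent.H14.Holo.thompsonSubgroup_normal p G
  have hV' := Cfsg.Agent.H14.Holo.Vh_elemAb V hV
  have hHV : (thompsonSubgroup p G).map (Cfsg.Agent.H14.Holo.psi V) ≤
      Subgroup.normalizer ((Cfsg.Agent.H14.Holo.Vh V : Subgroup (Cfsg.Agent.H14.Holo.Hol V)) :
        Set (Cfsg.Agent.H14.Holo.Hol V)) := by
    haveI := Cfsg.Agent.H14.Holo.Vh_normal V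
    rw [Subgroup.normalizer_eq_top]
    exact le_top
  have hHR : (thompsonSubgroup p G).map (Cfsg.Agent.H14.Holo.psi V) ≤
      (Cfsg.Agent.H14.Holo.psi V).range := by
    rintro _ ⟨j, -, rfl⟩
    exact ⟨j, rfl⟩
  have hf : (thompsonSubgroup p G).map (Cfsg.Agent.H14.Holo.psi V) ⊓
      Subgroup.centralizer ((Cfsg.Agent.H14.Holo.Vh V : Subgroup (Cfsg.Agent.H14.Holo.Hol V)) :
        Set (Cfsg.Agent.H14.Holo.Hol V)) = ⊥ := by
    rw [eq_bot_iff, ← Cfsg.Agent.H14.Holo.range_faithful V]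
    exact inf_le_inf_right _ hHR
  have hnorm : (Cfsg.Agent.H14.Holo.psi V).range ≤
      Subgroup.normalizer (((thompsonSubgroup p G).map (Cfsg.Agent.H14.Holo.psi V) :
        Subgroup (Cfsg.Agent.H14.Holo.Hol V)) : Set (Cfsg.Agent.H14.Holo.Hol V)) := by
    rintro _ ⟨g, rfl⟩
    rw [Subgroup.mem_normalizer_iff]
    intro h
    constructor
    · rintro ⟨j, hj, rfl⟩
      refine ⟨g * j * g⁻¹, hJn.conj_mem j hj g, ?_⟩
      simp
    · rintro ⟨j, hj, hjh⟩
      refine ⟨g⁻¹ * j * g, ?_, ?_⟩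
      · have := hJn.conj_mem j hj g⁻¹
        simpa using this
      · rw [map_mul, map_mul, hjh, map_inv]
        group
  have hS1 := Cfsg.Agent.H14.Holo.hS1_of_normal (p := p) (Cfsg.Agent.H14.Holo.psi V).range
    ((thompsonSubgroup p G).map (Cfsg.Agent.H14.Holo.psi V)) hHR hnorm
    (Cfsg.Agent.H14.Holo.range_isPSolvable V hsep) (Cfsg.Agent.H14.Holo.range_pCore_eq_bot V hO')
  refine ⟨hV', hHV, hf, hS1, ?_⟩
  apply le_antisymm
  · conv_lhs => unfold Cfsg.thompsonSubgroup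
    rw [Subgroup.map_le_iff_le_comap]
    apply sSup_le
    intro A hA
    rw [← Subgroup.map_le_iff_le_comap]
    exact le_iSup (fun A : {A : Subgroup (Cfsg.Agent.H14.Holo.Hol V) //
      A ≤ (thompsonSubgroup p G).map (Cfsg.Agent.H14.Holo.psi V) ∧
        IsBestOffenderOn p (Cfsg.Agent.H14.Holo.Vh V) A} => (A : Subgroup (Cfsg.Agent.H14.Holo.Hol V)))
      ⟨A.map (Cfsg.Agent.H14.Holo.psi V), Subgroup.map_mono (le_sSup hA),
        Cfsg.Agent.H14.Holo.bestOffender_map V hV hA⟩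
  · exact iSup_le fun A => A.2.1

end Cfsg.Agent.H14.XFix
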