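import Mathlib

/-!
# S3358, piece PR: a metacyclic group of order `n * m` is given by the metacyclic presentation
-/

set_option autoImplicit false

universe u

namespace Cfsg.Agent.H14.Zg

/-- Normal form `a ^ i * b ^ j` in a group satisfying the metacyclic relations. -/
theorem exists_normal_form {P : Type*} [Group P] (a b : P) (n m r : ℕ) (hn : 0 < n) (hm : 0 < m)
    (ha : a ^ n = 1) (hb : b ^ m = 1) (hab : a⁻¹ * b * a = b ^ r) :
    ∃ H : Subgroup P, a ∈ H ∧ b ∈ H ∧ ∀ p ∈ H, ∃ i < n, ∃ j < m, p = a ^ i * b ^ j := by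
  have hba : b * a = a * b ^ r := by
    rw [← hab]; group
  have h1 : ∀ l : ℕ, b ^ l * a = a * b ^ (r * l) := by
    intro l
    induction l with
    | zero => simp
    | succ l ih =>
      calc b ^ (l + 1) * a = b ^ l * (b * a) := by rw [pow_succ]; group
        _ = b ^ l * (a * b ^ r) := by rw [hba]
        _ = (b ^ l * a) * b ^ r := by group
        _ = a * b ^ (r * l) * b ^ r := by rw [ih]
        _ = a * b ^ (r * (l + 1)) := by rw [mul_assoc, ← pow_add, mul_add, mul_one]
  have h2 : ∀ i l : ℕ, b ^ l * a ^ i = a ^ i * b ^ (l * r ^ i) := by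
    intro i
    induction i with
    | zero => intro l; simp
    | succ i ih =>
      intro l
      calc b ^ l * a ^ (i + 1) = (b ^ l * a ^ i) * a := by rw [pow_succ]; group
        _ = a ^ i * b ^ (l * r ^ i) * a := by rw [ih]
        _ = a ^ i * (b ^ (l * r ^ i) * a) := by group
        _ = a ^ i * (a * b ^ (r * (l * r ^ i))) := by rw [h1]
        _ = a ^ (i + 1) * b ^ (l * r ^ (i + 1)) := by
          rw [← mul_assoc, ← pow_succ]
          congr 2
          ring
  obtain ⟨n', rfl⟩ : ∃ n', n = n' + 1 := ⟨n - 1, by omega⟩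
  obtain ⟨m', rfl⟩ : ∃ m', m = m' + 1 := ⟨m - 1, by omega⟩
  have hainv : ∀ i : ℕ, (a ^ i)⁻¹ = a ^ (i * n') := by
    intro i
    apply inv_eq_of_mul_eq_one_right
    rw [← pow_add]
    have : i + i * n' = (n' + 1) * i := by ring
    rw [this, pow_mul, ha, one_pow]
  have hbinv : ∀ j : ℕ, (b ^ j)⁻¹ = b ^ (j * m') := by
    intro j
    apply inv_eq_of_mul_eq_one_right
    rw [← pow_add]
    have : j + j * m' = (m' + 1) * j := by ring
    rw [this, pow_mul, hb, one_pow]
  let H : Subgroup P :=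
    { carrier := {p | ∃ i j : ℕ, p = a ^ i * b ^ j}
      one_mem' := ⟨0, 0, by simp⟩
      mul_mem' := by
        rintro _ _ ⟨i, j, rfl⟩ ⟨k, l, rfl⟩
        refine ⟨i + k, j * r ^ k + l, ?_⟩
        calc a ^ i * b ^ j * (a ^ k * b ^ l) = a ^ i * (b ^ j * a ^ k) * b ^ l := by group
          _ = a ^ i * (a ^ k * b ^ (j * r ^ k)) * b ^ l := by rw [h2]
          _ = a ^ (i + k) * b ^ (j * r ^ k + l) := by rw [pow_add, pow_add]; group
      inv_mem' := by
        rintro _ ⟨i, j, rfl⟩
        refine ⟨i * n', j * m' * r ^ (i * n'), ?_⟩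
        rw [mul_inv_rev, hainv, hbinv, h2] }
  refine ⟨H, ⟨1, 0, by simp⟩, ⟨0, 1, by simp⟩, ?_⟩
  rintro _ ⟨i, j, rfl⟩
  exact ⟨i % (n' + 1), Nat.mod_lt _ hn, j % (m' + 1), Nat.mod_lt _ hm,
    by rw [← pow_eq_pow_mod i ha, ← pow_eq_pow_mod j hb]⟩

theorem presented_iso (N : Type u) [Group N] [Finite N] (x y : N) (n m r : ℕ) (hn : 0 < n)
    (hm : 0 < m) (hx : x ^ n = 1) (hy : y ^ m = 1) (hxy : x⁻¹ * y * x = y ^ r)
    (hcard : Nat.card N = n * m) (hgen : Subgroup.closure {x, y} = ⊤) :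
    Nonempty (N ≃* PresentedGroup
      ({FreeGroup.of (0 : Fin 2) ^ n, FreeGroup.of (1 : Fin 2) ^ m,
        (FreeGroup.of (0 : Fin 2))⁻¹ * FreeGroup.of 1 * FreeGroup.of 0 *
          (FreeGroup.of (1 : Fin 2) ^ r)⁻¹} : Set (FreeGroup (Fin 2)))) := by
  obtain ⟨rels, hrels⟩ : ∃ rels : Set (FreeGroup (Fin 2)), rels =
      {FreeGroup.of (0 : Fin 2) ^ n, FreeGroup.of (1 : Fin 2) ^ m,
        (FreeGroup.of (0 : Fin 2))⁻¹ * FreeGroup.of 1 * FreeGroup.of 0 *
          (FreeGroup.of (1 : Fin 2) ^ r)⁻¹} := ⟨_, rfl⟩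
  rw [← hrels]
  have ha : (PresentedGroup.of (0 : Fin 2) : PresentedGroup rels) ^ n = 1 := by
    have h : PresentedGroup.mk rels (FreeGroup.of (0 : Fin 2) ^ n) = 1 :=
      PresentedGroup.one_of_mem (by rw [hrels]; simp)
    rw [map_pow] at h
    exact h
  have hb : (PresentedGroup.of (1 : Fin 2) : PresentedGroup rels) ^ m = 1 := by
    have h : PresentedGroup.mk rels (FreeGroup.of (1 : Fin 2) ^ m) = 1 :=
      PresentedGroup.one_of_mem (by rw [hrels]; simp)
    rw [map_pow] at h
    exact h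
  have hab : (PresentedGroup.of (0 : Fin 2) : PresentedGroup rels)⁻¹ * PresentedGroup.of 1 *
      PresentedGroup.of 0 = (PresentedGroup.of (1 : Fin 2) : PresentedGroup rels) ^ r := by
    have h : PresentedGroup.mk rels ((FreeGroup.of (0 : Fin 2))⁻¹ * FreeGroup.of 1 *
        FreeGroup.of 0 * (FreeGroup.of (1 : Fin 2) ^ r)⁻¹) = 1 :=
      PresentedGroup.one_of_mem (by rw [hrels]; simp)
    rw [map_mul, map_mul, map_mul, map_inv, map_inv, map_pow] at h
    exact mul_inv_eq_one.mp h
  obtain ⟨H, haH, hbH, hH⟩ := exists_normal_form _ _ n m r hn hm ha hb hab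
  have hall : ∀ p : PresentedGroup rels, p ∈ H := by
    intro p
    apply PresentedGroup.generated_by rels H
    intro j
    fin_cases j
    · exact haH
    · exact hbH
  -- the presented group has at most `n * m` elements
  let g : Fin n × Fin m → PresentedGroup rels := fun ij =>
    (PresentedGroup.of (0 : Fin 2)) ^ (ij.1 : ℕ) * (PresentedGroup.of (1 : Fin 2)) ^ (ij.2 : ℕ)
  have hg : Function.Surjective g := by
    intro p
    obtain ⟨i, hi, j, hj, rfl⟩ := hH p (hall p)
    exact ⟨(⟨i, hi⟩, ⟨j, hj⟩), rfl⟩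
  haveI : Finite (PresentedGroup rels) := Finite.of_surjective g hg
  have hle : Nat.card (PresentedGroup rels) ≤ Nat.card N := by
    have h := Nat.card_le_card_of_surjective g hg
    rw [Nat.card_prod, Nat.card_fin, Nat.card_fin] at h
    rw [hcard]
    exact h
  -- the homomorphism onto `N`
  have hrel : ∀ w ∈ rels, FreeGroup.lift (![x, y] : Fin 2 → N) w = 1 := by
    intro w hw
    rw [hrels] at hw
    rcases hw with rfl | rfl | rfl
    · simp [hx]
    · simp [hy]
    · simp [hxy]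
  let φ : PresentedGroup rels →* N := PresentedGroup.toGroup hrel
  have hφa : φ (PresentedGroup.of 0) = x := PresentedGroup.toGroup.of hrel
  have hφb : φ (PresentedGroup.of 1) = y := PresentedGroup.toGroup.of hrel
  have hsurj : Function.Surjective φ := by
    rw [← MonoidHom.range_eq_top, eq_top_iff, ← hgen, Subgroup.closure_le]
    rintro z (rfl | rfl)
    · exact ⟨_, hφa⟩
    · exact ⟨_, hφb⟩
  have hbij : Function.Bijective φ := hsurj.bijective_of_nat_card_le hle
  exact ⟨(MulEquiv.ofBijective φ hbij).symm⟩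

end Cfsg.Agent.H14.Zg
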