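import Mathlib

/-!
# S3358, piece Q4: the quotient types of a solvable Frobenius complement map into `Sym(4)`
-/

set_option autoImplicit false

universe u

namespace Cfsg.Agent.H14.Zg

/-- Composing with an injective homomorphism does not change the kernel. -/
theorem ker_comp_of_injective {G H K : Type*} [Group G] [Group H] [Group K] (ι : H →* K)
    (hι : Function.Injective ι) (f : G →* H) : (ι.comp f).ker = f.ker := by
  ext x
  rw [MonoidHom.mem_ker, MonoidHom.mem_ker, MonoidHom.comp_apply]
  exact map_eq_one_iff ι hι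

/-- An embedding of the four-group into `Sym(4)`. -/
theorem exists_injective_dihedral_two :
    ∃ ι : DihedralGroup 2 →* Equiv.Perm (Fin 4), Function.Injective ι := by
  have hcard : Fintype.card (DihedralGroup 2) = 4 := by
    rw [DihedralGroup.card]
  let e : DihedralGroup 2 ≃ Fin 4 := Fintype.equivFinOfCardEq hcard
  refine ⟨(e.permCongrHom.toMonoidHom).comp
    (MulAction.toPermHom (DihedralGroup 2) (DihedralGroup 2)), ?_⟩
  intro a b hab
  have h1 : MulAction.toPermHom (DihedralGroup 2) (DihedralGroup 2) a =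
      MulAction.toPermHom (DihedralGroup 2) (DihedralGroup 2) b :=
    e.permCongrHom.injective hab
  have h2 := congrArg (fun σ : Equiv.Perm (DihedralGroup 2) => σ 1) h1
  simpa using h2

theorem not_isSolvable_alt5 : ¬ Group.IsSolvable (alternatingGroup (Fin 5)) := by
  intro h
  apply Equiv.Perm.not_isSolvable_fin_5
  haveI := h
  refine Group.isSolvable_of_ker_le_range (alternatingGroup (Fin 5)).subtype
    (Equiv.Perm.sign : Equiv.Perm (Fin 5) →* ℤˣ) ?_
  intro x hx
  exact ⟨⟨x, hx⟩, rfl⟩

theorem exists_hom_perm4 {G : Type u} [Group G] [Finite G] (hsol : Group.IsSolvable G)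
    (N : Subgroup G)
    (h : N = ⊤ ∨
        (∃ f : G →* DihedralGroup 2, Function.Surjective f ∧ f.ker = N) ∨
        (∃ f : G →* alternatingGroup (Fin 4), Function.Surjective f ∧ f.ker = N) ∨
        (∃ f : G →* Equiv.Perm (Fin 4), Function.Surjective f ∧ f.ker = N) ∨
        (∃ f : G →* alternatingGroup (Fin 5), Function.Surjective f ∧ f.ker = N) ∨
        (∃ f : G →* Equiv.Perm (Fin 5), Function.Surjective f ∧ f.ker = N)) :
    ∃ f : G →* Equiv.Perm (Fin 4), f.ker = N := by
  rcases h with h | ⟨f, -, hf⟩ | ⟨f, -, hf⟩ | ⟨f, -, hf⟩ | ⟨f, hsurj, -⟩ | ⟨f, hsurj, -⟩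
  · exact ⟨1, by rw [h, MonoidHom.ker_one]⟩
  · obtain ⟨ι, hι⟩ := exists_injective_dihedral_two
    exact ⟨ι.comp f, by rw [ker_comp_of_injective ι hι, hf]⟩
  · exact ⟨(alternatingGroup (Fin 4)).subtype.comp f,
      by rw [ker_comp_of_injective _ (Subgroup.subtype_injective _), hf]⟩
  · exact ⟨f, hf⟩
  · exact absurd (Group.isSolvable_of_surjective hsurj) not_isSolvable_alt5
  · exact absurd (Group.isSolvable_of_surjective hsurj) Equiv.Perm.not_isSolvable_fin_5

end Cfsg.Agent.H14.Zg
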